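import Mathlib
set_option linter.all false

-- part: H928/FrameA
section
/-!
# Orthogonal frames I: monomial isometries, sign changes, 3-cycles

`V = ι → F` with the standard dot product, `char F ≠ 2`.
-/

set_option autoImplicit false
set_option linter.unusedSectionVars false
set_option linter.unusedSimpArgs false
set_option linter.unusedVariables false

namespace Cfsg.Agent.H928

open Matrix

variable {ι : Type*} [Fintype ι] [DecidableEq ι] {F : Type*} [Field F]

/-- standard basis vector -/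
abbrev ee (F : Type*) [Field F] (i : ι) : ι → F := Pi.single i (1 : F)

theorem dot_ee (x : ι → F) (i : ι) : x ⬝ᵥ ee F i = x i := by
  simp [ee]

theorem ee_dot (x : ι → F) (i : ι) : ee F i ⬝ᵥ x = x i := by
  simp [ee]

theorem ee_ne_zero (i : ι) : (ee F i : ι → F) ≠ 0 := by
  intro h
  have := congrFun h i
  simp [ee] at this

/-- isometry of the dot product -/
def IsIso (g : (ι → F) ≃ₗ[F] (ι → F)) : Prop := ∀ x y, g x ⬝ᵥ g y = x ⬝ᵥ y

/-- monomial (with signs): permutes the coordinate vectors up to sign -/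
def Mono (g : (ι → F) ≃ₗ[F] (ι → F)) : Prop :=
  ∃ σ : Equiv.Perm ι, ∀ i, g (ee F i) = ee F (σ i) ∨ g (ee F i) = - ee F (σ i)

theorem IsIso.one : IsIso (1 : (ι → F) ≃ₗ[F] (ι → F)) := fun _ _ => rfl

theorem IsIso.mul {g h : (ι → F) ≃ₗ[F] (ι → F)} (hg : IsIso g) (hh : IsIso h) : IsIso (g * h) :=
  fun x y => by
    rw [LinearEquiv.mul_apply, LinearEquiv.mul_apply, hg, hh]

theorem IsIso.inv {g : (ι → F) ≃ₗ[F] (ι → F)} (hg : IsIso g) : IsIso g⁻¹ := fun x y => by
  have h := hg (g⁻¹ x) (g⁻¹ y)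
  rw [← LinearEquiv.mul_apply, ← LinearEquiv.mul_apply, mul_inv_cancel] at h
  exact h.symm

theorem ee_inj_or {i j : ι} (h2 : (2 : F) ≠ 0) (h : (ee F i : ι → F) = ee F j ∨ (ee F i : ι → F) = - ee F j) :
    i = j := by
  by_contra hij
  rcases h with h | h
  · have := congrFun h i
    simp [ee, Pi.single_apply, hij] at this
  · have := congrFun h i
    simp [ee, Pi.single_apply, hij] at this

theorem mono_of_forall (h2 : (2 : F) ≠ 0) {g : (ι → F) ≃ₗ[F] (ι → F)}
    (h : ∀ i, ∃ j, g (ee F i) = ee F j ∨ g (ee F i) = - ee F j) : Mono g := by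
  choose f hf using h
  have hinj : Function.Injective f := by
    intro a b hab
    have ha := hf a
    have hb := hf b
    rw [hab] at ha
    apply ee_inj_or h2 (F := F)
    rcases ha with ha | ha <;> rcases hb with hb | hb
    · left; apply g.injective; rw [ha, hb]
    · right; apply g.injective; rw [map_neg, ha, hb, neg_neg]
    · right; apply g.injective; rw [map_neg, ha, hb]
    · left; apply g.injective; rw [ha, hb]
  exact ⟨Equiv.ofBijective f ((Finite.injective_iff_bijective).1 hinj), hf⟩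

theorem Mono.mul {g h : (ι → F) ≃ₗ[F] (ι → F)} (hg : Mono g) (hh : Mono h) : Mono (g * h) := by
  obtain ⟨σ, hσ⟩ := hg
  obtain ⟨τ, hτ⟩ := hh
  refine ⟨σ * τ, fun i => ?_⟩
  rw [LinearEquiv.mul_apply, Equiv.Perm.mul_apply]
  rcases hτ i with h | h <;> rcases hσ (τ i) with h' | h' <;> rw [h] <;> simp [h']

theorem Mono.one : Mono (1 : (ι → F) ≃ₗ[F] (ι → F)) := ⟨1, fun _ => Or.inl rfl⟩

theorem Mono.inv {g : (ι → F) ≃ₗ[F] (ι → F)} (hg : Mono g) : Mono g⁻¹ := by
  obtain ⟨σ, hσ⟩ := hg
  refine ⟨σ⁻¹, fun i => ?_⟩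
  have h := hσ (σ⁻¹ i)
  rw [← Equiv.Perm.mul_apply, mul_inv_cancel, Equiv.Perm.one_apply] at h
  rcases h with h | h
  · left
    rw [← h, ← LinearEquiv.mul_apply, inv_mul_cancel]; rfl
  · right
    have : ee F i = g (- ee F (σ⁻¹ i)) := by rw [map_neg, h, neg_neg]
    rw [this, ← LinearEquiv.mul_apply, inv_mul_cancel]; rfl

theorem mono_inv_iff {g : (ι → F) ≃ₗ[F] (ι → F)} : Mono g⁻¹ ↔ Mono g :=
  ⟨fun h => by simpa using h.inv, fun h => h.inv⟩

/-- sign change on the coordinates in `S` -/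
def sgL (S : Finset ι) : (ι → F) →ₗ[F] (ι → F) where
  toFun x := fun k => if k ∈ S then - x k else x k
  map_add' x y := by
    funext k; by_cases h : k ∈ S <;> simp [h]; ring
  map_smul' c x := by
    funext k; by_cases h : k ∈ S <;> simp [h]

def sg (F : Type*) [Field F] (S : Finset ι) : (ι → F) ≃ₗ[F] (ι → F) :=
  LinearEquiv.ofInvolutive (sgL S) (by
    intro x; funext k; by_cases h : k ∈ S <;> simp [sgL, h])

theorem sg_apply (S : Finset ι) (x : ι → F) (k : ι) : sg F S x k = if k ∈ S then - x k else x k := rfl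

theorem sg_ee_mem {S : Finset ι} {i : ι} (h : i ∈ S) : sg F S (ee F i) = - ee F i := by
  funext k
  rw [sg_apply]
  by_cases hk : k = i
  · subst hk; simp [h]
  · simp [ee, Pi.single_apply, hk]

theorem sg_ee_not_mem {S : Finset ι} {i : ι} (h : i ∉ S) : sg F S (ee F i) = ee F i := by
  funext k
  rw [sg_apply]
  by_cases hk : k = i
  · subst hk; simp [h]
  · simp [ee, Pi.single_apply, hk]

theorem sg_isIso (S : Finset ι) : IsIso (sg F S) := by
  intro x y
  unfold dotProduct
  apply Finset.sum_congr rfl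
  intro k _
  rw [sg_apply, sg_apply]
  by_cases h : k ∈ S <;> simp [h]

theorem sg_mono (S : Finset ι) : Mono (sg F S) := by
  refine ⟨1, fun i => ?_⟩
  by_cases h : i ∈ S
  · right; rw [sg_ee_mem h]; rfl
  · left; rw [sg_ee_not_mem h]; rfl

theorem sg_mul_self (S : Finset ι) : sg F S * sg F S = 1 := by
  apply LinearEquiv.ext
  intro x
  funext k
  rw [LinearEquiv.mul_apply, sg_apply, sg_apply]
  by_cases h : k ∈ S <;> simp [h]

theorem sg_inv (S : Finset ι) : (sg F S)⁻¹ = sg F S := by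
  rw [inv_eq_iff_mul_eq_one, sg_mul_self]

theorem sg_mul (S T : Finset ι) : sg F S * sg F T = sg F (symmDiff S T) := by
  apply LinearEquiv.ext
  intro x
  funext k
  rw [LinearEquiv.mul_apply, sg_apply, sg_apply, sg_apply]
  by_cases h : k ∈ S <;> by_cases h' : k ∈ T <;> simp [h, h', Finset.mem_symmDiff]

theorem sg_comm (S T : Finset ι) : sg F S * sg F T = sg F T * sg F S := by
  rw [sg_mul, sg_mul, symmDiff_comm]

/-- coordinate permutation -/
def pm (F : Type*) [Field F] (σ : Equiv.Perm ι) : (ι → F) ≃ₗ[F] (ι → F) :=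
  LinearEquiv.funCongrLeft F F σ⁻¹

theorem pm_apply (σ : Equiv.Perm ι) (x : ι → F) (k : ι) : pm F σ x k = x (σ⁻¹ k) := rfl

theorem pm_ee (σ : Equiv.Perm ι) (i : ι) : pm F σ (ee F i) = ee F (σ i) := by
  funext k
  rw [pm_apply]
  by_cases h : k = σ i
  · subst h; simp [ee]
  · have this : σ⁻¹ k ≠ i := by
      intro h'; apply h; rw [← h', ← Equiv.Perm.mul_apply, mul_inv_cancel, Equiv.Perm.one_apply]
    rw [ee, ee, Pi.single_apply, Pi.single_apply, if_neg this, if_neg h]

theorem pm_mul (σ τ : Equiv.Perm ι) : pm F (σ * τ) = pm F σ * pm F τ := by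
  apply LinearEquiv.ext
  intro x
  funext k
  rw [LinearEquiv.mul_apply, pm_apply, pm_apply, pm_apply, _root_.mul_inv_rev, Equiv.Perm.mul_apply]

theorem pm_isIso (σ : Equiv.Perm ι) : IsIso (pm F σ) := by
  intro x y
  unfold dotProduct
  exact Equiv.sum_comp σ⁻¹ (fun k => x k * y k)

theorem pm_mono (σ : Equiv.Perm ι) : Mono (pm F σ) := ⟨σ, fun i => Or.inl (pm_ee σ i)⟩

/-- the 3-cycle `i ↦ j ↦ k ↦ i` -/
def cyc (i j k : ι) : Equiv.Perm ι := Equiv.swap i j * Equiv.swap j k

theorem cyc_apply_left {i j k : ι} (hij : i ≠ j) (hik : i ≠ k) : cyc i j k i = j := by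
  rw [cyc, Equiv.Perm.mul_apply, Equiv.swap_apply_of_ne_of_ne hij hik, Equiv.swap_apply_left]

theorem cyc_apply_mid {i j k : ι} (hik : i ≠ k) (hjk : j ≠ k) : cyc i j k j = k := by
  rw [cyc, Equiv.Perm.mul_apply, Equiv.swap_apply_left, Equiv.swap_apply_of_ne_of_ne hik.symm hjk.symm]

theorem cyc_apply_right {i j k : ι} : cyc i j k k = i := by
  rw [cyc, Equiv.Perm.mul_apply, Equiv.swap_apply_right, Equiv.swap_apply_right]

theorem cyc_apply_other {i j k l : ι} (h1 : l ≠ i) (h2 : l ≠ j) (h3 : l ≠ k) : cyc i j k l = l := by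
  rw [cyc, Equiv.Perm.mul_apply, Equiv.swap_apply_of_ne_of_ne h2 h3, Equiv.swap_apply_of_ne_of_ne h1 h2]

/-- the linear 3-cycle `e_i ↦ e_j ↦ e_k ↦ e_i` -/
def c3 (F : Type*) [Field F] (i j k : ι) : (ι → F) ≃ₗ[F] (ι → F) := pm F (cyc i j k)

theorem c3_left {i j k : ι} (hij : i ≠ j) (hik : i ≠ k) : c3 F i j k (ee F i) = ee F j := by
  rw [c3, pm_ee, cyc_apply_left hij hik]

theorem c3_mid {i j k : ι} (hik : i ≠ k) (hjk : j ≠ k) : c3 F i j k (ee F j) = ee F k := by
  rw [c3, pm_ee, cyc_apply_mid hik hjk]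

theorem c3_right {i j k : ι} : c3 F i j k (ee F k) = ee F i := by
  rw [c3, pm_ee, cyc_apply_right]

theorem c3_other {i j k l : ι} (h1 : l ≠ i) (h2 : l ≠ j) (h3 : l ≠ k) : c3 F i j k (ee F l) = ee F l := by
  rw [c3, pm_ee, cyc_apply_other h1 h2 h3]

theorem c3_isIso (i j k : ι) : IsIso (c3 F i j k) := pm_isIso _

theorem c3_mono (i j k : ι) : Mono (c3 F i j k) := pm_mono _

/-- extensionality on the standard basis -/
theorem ext_ee {g h : (ι → F) ≃ₗ[F] (ι → F)} (H : ∀ i, g (ee F i) = h (ee F i)) : g = h := by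
  apply LinearEquiv.toLinearMap_injective
  apply LinearMap.pi_ext'
  intro i
  apply LinearMap.ext_ring
  exact H i

theorem eq_sum_ee (x : ι → F) : x = ∑ i, x i • ee F i := by
  funext k
  simp [ee, Finset.sum_apply, Pi.single_apply]

/-- coordinates of an image under an isometry -/
theorem IsIso.apply_eq {g : (ι → F) ≃ₗ[F] (ι → F)} (hg : IsIso g) (x : ι → F) (k : ι) :
    g x k = x ⬝ᵥ g⁻¹ (ee F k) := by
  rw [← dot_ee (g x) k]
  have h := hg x (g⁻¹ (ee F k))
  rw [← LinearEquiv.mul_apply g g⁻¹, mul_inv_cancel] at h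
  exact h

theorem IsIso.fix_coord {g : (ι → F) ≃ₗ[F] (ι → F)} (hg : IsIso g) {k : ι} (hk : g (ee F k) = ee F k)
    (x : ι → F) : g x k = x k := by
  rw [← dot_ee (g x) k, ← dot_ee x k]
  conv_lhs => rw [← hk]
  exact hg x _

theorem IsIso.neg_coord {g : (ι → F) ≃ₗ[F] (ι → F)} (hg : IsIso g) {k : ι} (hk : g (ee F k) = - ee F k)
    (x : ι → F) : g x k = - x k := by
  rw [← dot_ee (g x) k, ← dot_ee x k]
  have h : ee F k = - g (ee F k) := by rw [hk, neg_neg]
  conv_lhs => rw [h]
  rw [dotProduct_neg, hg x _]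

/-- two isometries with disjoint supports commute -/
theorem comm_of_disjoint {s κ : (ι → F) ≃ₗ[F] (ι → F)} (hs : IsIso s) (hκ : IsIso κ) (J : Finset ι)
    (h1 : ∀ k, k ∉ J → s (ee F k) = ee F k) (h2 : ∀ j ∈ J, κ (ee F j) = ee F j) : Commute s κ := by
  have fixs : ∀ x : ι → F, (∀ j ∈ J, x j = 0) → s x = x := by
    intro x hx
    conv_lhs => rw [eq_sum_ee x]
    rw [map_sum]
    conv_rhs => rw [eq_sum_ee x]
    apply Finset.sum_congr rfl
    intro i _
    by_cases hi : i ∈ J
    · rw [hx i hi]; simp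
    · rw [map_smul, h1 i hi]
  have fixκ : ∀ x : ι → F, (∀ k, k ∉ J → x k = 0) → κ x = x := by
    intro x hx
    conv_lhs => rw [eq_sum_ee x]
    rw [map_sum]
    conv_rhs => rw [eq_sum_ee x]
    apply Finset.sum_congr rfl
    intro i _
    by_cases hi : i ∈ J
    · rw [map_smul, h2 i hi]
    · rw [hx i hi]; simp
  apply ext_ee
  intro i
  rw [LinearEquiv.mul_apply, LinearEquiv.mul_apply]
  by_cases hi : i ∈ J
  · rw [h2 i hi, fixκ]
    intro k hk
    rw [hs.fix_coord (h1 k hk)]
    have : k ≠ i := fun h => hk (h ▸ hi)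
    simp [ee, Pi.single_apply, this]
  · rw [h1 i hi, fixs]
    intro j hj
    rw [hκ.fix_coord (h2 j hj)]
    have : j ≠ i := fun h => hi (h ▸ hj)
    simp [ee, Pi.single_apply, this]

end Cfsg.Agent.H928
end

-- part: H928/FrameB
section
/-!
# Orthogonal frames II: supports, the frame lemma
-/

set_option autoImplicit false
set_option linter.unusedSectionVars false
set_option linter.unusedSimpArgs false
set_option linter.unusedVariables false

namespace Cfsg.Agent.H928

open Matrix

variable {ι : Type*} [Fintype ι] [DecidableEq ι] {F : Type*} [Field F]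

theorem finrank_inf_ker_lt (W : Submodule F (ι → F)) (i : ι) (w : ι → F) (hw : w ∈ W) (hwi : w i ≠ 0) :
    Module.finrank F ↥(W ⊓ LinearMap.ker (LinearMap.proj i : (ι → F) →ₗ[F] F)) < Module.finrank F W := by
  apply Submodule.finrank_lt_finrank_of_lt
  refine lt_of_le_of_ne inf_le_left ?_
  intro h
  rw [← h] at hw
  have := (Submodule.mem_inf.1 hw).2
  rw [LinearMap.mem_ker, LinearMap.proj_apply] at this
  exact hwi this

theorem le_card_erase (S : Finset ι) (i : ι) : S.card ≤ (S.erase i).card + 1 := by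
  have := Finset.pred_card_le_card_erase (s := S) (a := i)
  omega

theorem card_le_two_mul_finrank (W : Submodule F (ι → F)) (S : Finset ι)
    (h : ∀ k ∈ S, ∃ w ∈ W, w k ≠ 0 ∧ ∃ b, ∀ c, c ≠ k → c ≠ b → w c = 0) :
    S.card ≤ 2 * Module.finrank F W := by
  induction' hd : Module.finrank F W using Nat.strong_induction_on with d ih generalizing W S
  rcases S.eq_empty_or_nonempty with hS | ⟨i, hi⟩
  · simp [hS]
  obtain ⟨w, hw, hwi, j, hj⟩ := h i hi
  set W' := W ⊓ LinearMap.ker (LinearMap.proj i : (ι → F) →ₗ[F] F) with hW'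
  have hlt : Module.finrank F W' < Module.finrank F W := finrank_inf_ker_lt W i w hw hwi
  have key := ih (Module.finrank F W') (by omega) W' ((S.erase i).erase j) ?_ rfl
  · have h1 : S.card ≤ (S.erase i).card + 1 := le_card_erase _ _
    have h2 : (S.erase i).card ≤ ((S.erase i).erase j).card + 1 := le_card_erase _ _
    omega
  · intro k hk
    rw [Finset.mem_erase, Finset.mem_erase] at hk
    obtain ⟨hkj, hki, hkS⟩ := hk
    obtain ⟨v, hv, hvk, b, hb⟩ := h k hkS
    by_cases hvi : v i = 0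
    · exact ⟨v, Submodule.mem_inf.2 ⟨hv, by rw [LinearMap.mem_ker, LinearMap.proj_apply, hvi]⟩, hvk, b, hb⟩
    · have hib : i = b := by
        by_contra hib
        exact hvi (hb i (Ne.symm hki) hib)
      refine ⟨v - (v i / w i) • w, Submodule.mem_inf.2 ⟨W.sub_mem hv (W.smul_mem _ hw), ?_⟩, ?_, j, ?_⟩
      · rw [LinearMap.mem_ker, LinearMap.proj_apply, Pi.sub_apply, Pi.smul_apply, smul_eq_mul]
        field_simp
        ring
      · rw [Pi.sub_apply, Pi.smul_apply, hj k hki hkj, smul_zero, sub_zero]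
        exact hvk
      · intro c hck hcj
        rw [Pi.sub_apply, Pi.smul_apply, smul_eq_mul]
        by_cases hci : c = i
        · subst hci
          field_simp
          ring
        · rw [hb c hck (by rw [← hib]; exact hci), hj c hci hcj]
          ring

theorem card_lt_of_three (W : Submodule F (ι → F)) (S : Finset ι)
    (h : ∀ k ∈ S, ∃ w ∈ W, w k ≠ 0 ∧ ∃ b, ∀ c, c ≠ k → c ≠ b → w c = 0)
    {u1 u2 u3 : ι} (h12 : u1 ≠ u2) (h13 : u1 ≠ u3) (h23 : u2 ≠ u3)
    {w1 w2 : ι → F} (hw1 : w1 ∈ W) (hw2 : w2 ∈ W) (h11 : w1 u1 ≠ 0)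
    (h1 : ∀ c, c ≠ u1 → c ≠ u2 → w1 c = 0) (h22 : w2 u2 ≠ 0)
    (h2 : ∀ c, c ≠ u2 → c ≠ u3 → w2 c = 0) : S.card + 1 ≤ 2 * Module.finrank F W := by
  set W1 := W ⊓ LinearMap.ker (LinearMap.proj u1 : (ι → F) →ₗ[F] F) with hW1
  set W2 := W1 ⊓ LinearMap.ker (LinearMap.proj u2 : (ι → F) →ₗ[F] F) with hW2
  have hlt1 : Module.finrank F W1 < Module.finrank F W := finrank_inf_ker_lt W u1 w1 hw1 h11
  have hlt2 : Module.finrank F W2 < Module.finrank F W1 := by
    apply finrank_inf_ker_lt W1 u2 w2 _ h22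
    refine Submodule.mem_inf.2 ⟨hw2, ?_⟩
    rw [LinearMap.mem_ker, LinearMap.proj_apply, h2 u1 h12 h13]
  have key := card_le_two_mul_finrank W2 (((S.erase u1).erase u2).erase u3) ?_
  · have e1 : S.card ≤ (S.erase u1).card + 1 := le_card_erase _ _
    have e2 : (S.erase u1).card ≤ ((S.erase u1).erase u2).card + 1 := le_card_erase _ _
    have e3 : ((S.erase u1).erase u2).card ≤ (((S.erase u1).erase u2).erase u3).card + 1 :=
      le_card_erase _ _
    omega
  · intro k hk
    rw [Finset.mem_erase, Finset.mem_erase, Finset.mem_erase] at hk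
    obtain ⟨hk3, hk2, hk1, hkS⟩ := hk
    obtain ⟨v, hv, hvk, b, hb⟩ := h k hkS
    by_cases hb' : b = u1 ∨ b = u2 ∨ b = u3
    · refine ⟨v - (v u1 / w1 u1) • w1 - ((v u2 - (v u1 / w1 u1) * w1 u2) / w2 u2) • w2,
        Submodule.mem_inf.2 ⟨Submodule.mem_inf.2
          ⟨W.sub_mem (W.sub_mem hv (W.smul_mem _ hw1)) (W.smul_mem _ hw2), ?_⟩, ?_⟩, ?_, u3, ?_⟩
      · rw [LinearMap.mem_ker, LinearMap.proj_apply, Pi.sub_apply, Pi.sub_apply, Pi.smul_apply,
          Pi.smul_apply, h2 u1 h12 h13, smul_eq_mul, smul_zero]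
        field_simp
        ring
      · rw [LinearMap.mem_ker, LinearMap.proj_apply, Pi.sub_apply, Pi.sub_apply, Pi.smul_apply,
          Pi.smul_apply, smul_eq_mul, smul_eq_mul]
        field_simp
        ring
      · rw [Pi.sub_apply, Pi.sub_apply, Pi.smul_apply, Pi.smul_apply, h2 k hk2 hk3, h1 k hk1 hk2]
        simpa using hvk
      · intro c hck hc3
        rw [Pi.sub_apply, Pi.sub_apply, Pi.smul_apply, Pi.smul_apply, smul_eq_mul, smul_eq_mul]
        by_cases hc1 : c = u1
        · subst hc1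
          rw [h2 c h12 h13]
          field_simp
          ring
        · by_cases hc2 : c = u2
          · subst hc2
            field_simp
            ring
          · have hcb : c ≠ b := by
              rcases hb' with rfl | rfl | rfl <;> assumption
            rw [hb c hck hcb, h1 c hc1 hc2, h2 c hc2 hc3]
            ring
    · push Not at hb'
      refine ⟨v, Submodule.mem_inf.2 ⟨Submodule.mem_inf.2 ⟨hv, ?_⟩, ?_⟩, hvk, b, hb⟩
      · rw [LinearMap.mem_ker, LinearMap.proj_apply]
        exact hb u1 (Ne.symm hk1) (Ne.symm hb'.1)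
      · rw [LinearMap.mem_ker, LinearMap.proj_apply]
        exact hb u2 (Ne.symm hk2) (Ne.symm hb'.2.1)

theorem sg_pair_apply {k l : ι} (hkl : k ≠ l) (x : ι → F) :
    sg F {k, l} x = x - (2 * x k) • ee F k - (2 * x l) • ee F l := by
  funext j
  rw [sg_apply, Pi.sub_apply, Pi.sub_apply, Pi.smul_apply, Pi.smul_apply, smul_eq_mul, smul_eq_mul]
  by_cases h1 : j = k
  · subst h1
    simp [ee, Pi.single_apply, hkl]
    ring
  · by_cases h2 : j = l
    · subst h2
      simp [ee, Pi.single_apply, hkl.symm]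
      ring
    · simp [ee, Pi.single_apply, h1, h2]

theorem c3_apply_vec {k l m : ι} (hkl : k ≠ l) (hkm : k ≠ m) (hlm : l ≠ m) (x : ι → F) :
    c3 F k l m x = x + (x m - x k) • ee F k + (x k - x l) • ee F l + (x l - x m) • ee F m := by
  have key : ∀ j, c3 F k l m x j = if j = k then x m else if j = l then x k else if j = m then x l else x j := by
    intro j
    rw [c3, pm_apply]
    split_ifs with h1 h2 h3
    · congr 1
      rw [Equiv.Perm.inv_eq_iff_eq, cyc_apply_right, h1]
    · congr 1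
      rw [Equiv.Perm.inv_eq_iff_eq, cyc_apply_left hkl hkm, h2]
    · congr 1
      rw [Equiv.Perm.inv_eq_iff_eq, cyc_apply_mid hkm hlm, h3]
    · congr 1
      rw [Equiv.Perm.inv_eq_iff_eq, cyc_apply_other h1 h2 h3]
  funext j
  rw [key]
  simp only [Pi.add_apply, Pi.smul_apply, smul_eq_mul, ee, Pi.single_apply]
  split_ifs with h1 h2 h3 h4 h5 h6
  all_goals first
    | (subst h1; exact absurd ‹_› hkl)
    | (subst h1; exact absurd ‹_› hkm)
    | (subst h2; exact absurd ‹_› hlm)
    | skip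
  all_goals (try subst_vars)
  all_goals (try ring)
  all_goals (try simp_all)

/-- `κ` permutes the lines of the frame `f` -/
def Perms (f : ι → ι → F) (κ : (ι → F) ≃ₗ[F] (ι → F)) : Prop :=
  ∀ a, ∃ b, κ (f a) = f b ∨ κ (f a) = - f b

theorem Perms.mul {f : ι → ι → F} {κ τ : (ι → F) ≃ₗ[F] (ι → F)} (h : Perms f κ) (h' : Perms f τ) :
    Perms f (κ * τ) := by
  intro a
  obtain ⟨b, hb⟩ := h' a
  obtain ⟨c, hc⟩ := h b
  refine ⟨c, ?_⟩
  rw [LinearEquiv.mul_apply]
  rcases hb with hb | hb <;> rcases hc with hc | hc <;> rw [hb] <;> simp [hc]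

theorem perms_trichotomy {f : ι → ι → F} (hf : ∀ a b, f a ⬝ᵥ f b = if a = b then 1 else 0)
    {κ : (ι → F) ≃ₗ[F] (ι → F)} (h : Perms f κ) (a : ι) :
    κ (f a) = f a ∨ κ (f a) = - f a ∨ f a ⬝ᵥ κ (f a) = 0 := by
  obtain ⟨b, hb⟩ := h a
  by_cases hab : a = b
  · subst hab
    rcases hb with hb | hb
    · exact Or.inl hb
    · exact Or.inr (Or.inl hb)
  · right; right
    rcases hb with hb | hb <;> rw [hb]
    · rw [hf, if_neg hab]
    · rw [dotProduct_neg, hf, if_neg hab, neg_zero]

theorem sq_eq_one_iff_of_ne_zero' {x : F} (h : x ^ 2 = 1) : x = 1 ∨ x = -1 := by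
  have : (x - 1) * (x + 1) = 0 := by linear_combination h
  rcases mul_eq_zero.1 this with h | h
  · left; linear_combination h
  · right; linear_combination h

theorem exists_not_mem_of_card {J : Finset ι} {n : ℕ} (hJ : J.card + n < Fintype.card ι) (T : Finset ι)
    (hT : T.card ≤ n) : ∃ k, k ∉ J ∧ k ∉ T := by
  have : (J ∪ T).card < Fintype.card ι := lt_of_le_of_lt (Finset.card_union_le J T) (by omega)
  obtain ⟨k, hk⟩ := Finset.exists_mem_notMem_of_card_lt_card (s := J ∪ T) (t := Finset.univ)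
    (by rwa [Finset.card_univ])
  refine ⟨k, ?_, ?_⟩ <;> intro h <;> apply hk.2 <;> simp [h]

theorem frame_core (h2 : (2 : F) ≠ 0) (f : ι → ι → F) (hf : ∀ a b, f a ⬝ᵥ f b = if a = b then 1 else 0)
    (J : Finset ι) (hJ : J.card + 5 ≤ Fintype.card ι)
    (hs : ∀ k l, k ∉ J → l ∉ J → k ≠ l → Perms f (sg F {k, l}))
    (hc : ∀ k l m, k ∉ J → l ∉ J → m ∉ J → k ≠ l → k ≠ m → l ≠ m → Perms f (c3 F k l m)) (a : ι) :
    (∃ k, k ∉ J ∧ (f a = ee F k ∨ f a = - ee F k)) ∨ (∀ k, k ∉ J → f a k = 0) := by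
  by_cases h0 : ∀ k, k ∉ J → f a k = 0
  · exact Or.inr h0
  left
  push Not at h0
  obtain ⟨k, hkJ, hk0⟩ := h0
  have norm1 : f a ⬝ᵥ f a = 1 := by rw [hf, if_pos rfl]
  -- the trichotomy for sign changes at two coordinates
  have tri : ∀ k l, k ∉ J → l ∉ J → k ≠ l → f a k ≠ 0 →
      (∀ c, c ≠ k → c ≠ l → f a c = 0) ∨ 2 * ((f a k) ^ 2 + (f a l) ^ 2) = 1 := by
    intro k l hk hl hkl hak
    rcases perms_trichotomy hf (hs k l hk hl hkl) a with h | h | h
    · exfalso
      have := congrFun h k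
      rw [sg_apply, if_pos (by simp)] at this
      apply hak
      have h' : 2 * f a k = 0 := by linear_combination -this
      exact (mul_eq_zero.1 h').resolve_left h2
    · left
      intro c hck hcl
      have := congrFun h c
      rw [sg_apply, if_neg (by simp [hck, hcl]), Pi.neg_apply] at this
      have h' : 2 * f a c = 0 := by linear_combination this
      exact (mul_eq_zero.1 h').resolve_left h2
    · right
      rw [sg_pair_apply hkl, dotProduct_sub, dotProduct_sub, dotProduct_smul, dotProduct_smul,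
        dot_ee, dot_ee, norm1, smul_eq_mul, smul_eq_mul] at h
      linear_combination -h
  by_cases hA : ∃ l, l ∉ J ∧ l ≠ k ∧ ∀ c, c ≠ k → c ≠ l → f a c = 0
  · -- case A
    obtain ⟨l, hlJ, hlk, hsupp⟩ := hA
    by_cases hl0 : f a l = 0
    · -- f a = ± e_k
      refine ⟨k, hkJ, ?_⟩
      have e1 : f a = (f a k) • ee F k := by
        funext c
        rw [Pi.smul_apply, smul_eq_mul]
        by_cases hck : c = k
        · subst hck; simp [ee]
        · by_cases hcl : c = l
          · subst hcl; rw [hl0]; simp [ee, Pi.single_apply, hck]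
          · rw [hsupp c hck hcl]; simp [ee, Pi.single_apply, hck]
      have e2 : (f a k) ^ 2 = 1 := by
        have := norm1
        rw [e1, dotProduct_smul, dot_ee] at this
        simp only [Pi.smul_apply, smul_eq_mul] at this
        have h3 : (ee F k : ι → F) k = 1 := by simp [ee]
        rw [h3] at this
        linear_combination this
      rcases sq_eq_one_iff_of_ne_zero' e2 with h | h
      · left; rw [e1, h, one_smul]
      · right; rw [e1, h, neg_smul, one_smul]
    · exfalso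
      obtain ⟨m, hmJ, hmT⟩ := exists_not_mem_of_card (J := J) (n := 2) (by omega) ({k, l} : Finset ι)
        (Finset.card_le_two)
      obtain ⟨r, hrJ, hrT⟩ := exists_not_mem_of_card (J := J) (n := 3) (by omega) ({k, l, m} : Finset ι)
        (Finset.card_le_three)
      simp only [Finset.mem_insert, Finset.mem_singleton, not_or] at hmT hrT
      have hm0 : f a m = 0 := hsupp m hmT.1 hmT.2
      have e1 : 2 * (f a k) ^ 2 = 1 := by
        rcases tri k m hkJ hmJ (Ne.symm hmT.1) hk0 with h | h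
        · exact absurd (h l hlk (Ne.symm hmT.2)) hl0
        · rw [hm0] at h; linear_combination h
      have hP := hc l m r hlJ hmJ hrJ (Ne.symm hmT.2) (Ne.symm hrT.2.1) (Ne.symm hrT.2.2)
      have hr0 : f a r = 0 := hsupp r hrT.1 hrT.2.1
      have ev := c3_apply_vec (Ne.symm hmT.2) (Ne.symm hrT.2.1) (Ne.symm hrT.2.2) (f a)
      have evm : c3 F l m r (f a) m = f a l := by
        rw [ev]
        simp [ee, Pi.single_apply, hmT.2, Ne.symm hrT.2.2]
      rcases perms_trichotomy hf hP a with h | h | h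
      · rw [h, hm0] at evm; exact hl0 evm.symm
      · rw [h, Pi.neg_apply, hm0, neg_zero] at evm; exact hl0 evm.symm
      · rw [ev, dotProduct_add, dotProduct_add, dotProduct_add, dotProduct_smul, dotProduct_smul,
          dotProduct_smul, dot_ee, dot_ee, dot_ee, norm1, hm0, hr0] at h
        simp only [smul_eq_mul] at h
        -- 1 - (f a l)^2 = 0 ; and (f a k)^2 + (f a l)^2 = 1
        have e3 : (f a k) ^ 2 + (f a l) ^ 2 = 1 := by
          have hh := norm1
          have e4 : f a = (f a k) • ee F k + (f a l) • ee F l := by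
            funext c
            rw [Pi.add_apply, Pi.smul_apply, Pi.smul_apply, smul_eq_mul, smul_eq_mul]
            by_cases hck : c = k
            · subst hck; simp [ee, Pi.single_apply, Ne.symm hlk]
            · by_cases hcl : c = l
              · subst hcl; simp [ee, Pi.single_apply, hck]
              · rw [hsupp c hck hcl]; simp [ee, Pi.single_apply, hck, hcl]
          conv_lhs at hh => rw [e4]
          rw [add_dotProduct, smul_dotProduct, smul_dotProduct, ee_dot, ee_dot] at hh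
          simp only [Pi.add_apply, Pi.smul_apply, smul_eq_mul, ee, Pi.single_apply, hlk, Ne.symm hlk,
            if_true, if_false] at hh
          linear_combination hh
        have e5 : (f a k) ^ 2 = 0 := by linear_combination h + e3
        exact hk0 (pow_eq_zero_iff (two_ne_zero) |>.1 e5)
  · -- case B
    exfalso
    push Not at hA
    have hB : ∀ l, l ∉ J → l ≠ k → 2 * ((f a k) ^ 2 + (f a l) ^ 2) = 1 := by
      intro l hl hlk
      rcases tri k l hkJ hl (Ne.symm hlk) hk0 with h | h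
      · obtain ⟨c, hc1, hc2, hc3⟩ := hA l hl hlk
        exact absurd (h c hc1 hc2) hc3
      · exact h
    obtain ⟨l, hlJ, hlT⟩ := exists_not_mem_of_card (J := J) (n := 1) (by omega) ({k} : Finset ι) (by simp)
    obtain ⟨m, hmJ, hmT⟩ := exists_not_mem_of_card (J := J) (n := 2) (by omega) ({k, l} : Finset ι)
      (Finset.card_le_two)
    obtain ⟨r, hrJ, hrT⟩ := exists_not_mem_of_card (J := J) (n := 3) (by omega) ({k, l, m} : Finset ι)
      (Finset.card_le_three)
    obtain ⟨s, hsJ, hsT⟩ := exists_not_mem_of_card (J := J) (n := 4) (by omega) ({k, l, m, r} : Finset ι)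
      (Finset.card_le_four)
    simp only [Finset.mem_insert, Finset.mem_singleton, not_or] at hlT hmT hrT hsT
    have Bl := hB l hlJ hlT
    have Bm := hB m hmJ hmT.1
    have Br := hB r hrJ hrT.1
    have Bs := hB s hsJ hsT.1
    by_cases hl0 : f a l = 0
    · -- all other coordinates outside J vanish, f a k ^2 = 1/2
      have e1 : 2 * (f a k) ^ 2 = 1 := by rw [hl0] at Bl; linear_combination Bl
      have zero_of : ∀ z, 2 * ((f a k) ^ 2 + z ^ 2) = 1 → z = 0 := by
        intro z hz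
        have : 2 * z ^ 2 = 0 := by linear_combination hz - e1
        exact pow_eq_zero_iff (two_ne_zero) |>.1 ((mul_eq_zero.1 this).resolve_left h2)
      have hm0 := zero_of _ Bm
      have hP := hc k l m hkJ hlJ hmJ (Ne.symm hlT) (Ne.symm hmT.1) (Ne.symm hmT.2)
      have ev := c3_apply_vec (Ne.symm hlT) (Ne.symm hmT.1) (Ne.symm hmT.2) (f a)
      have evk : c3 F k l m (f a) k = f a m := by
        rw [ev]
        simp [ee, Pi.single_apply, Ne.symm hlT, Ne.symm hmT.1]
      rcases perms_trichotomy hf hP a with h | h | h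
      · rw [h, hm0] at evk; exact hk0 evk
      · rw [h, Pi.neg_apply, hm0] at evk
        exact hk0 (neg_eq_zero.1 evk)
      · rw [ev, dotProduct_add, dotProduct_add, dotProduct_add, dotProduct_smul, dotProduct_smul,
          dotProduct_smul, dot_ee, dot_ee, dot_ee, norm1, hm0, hl0] at h
        simp only [smul_eq_mul] at h
        -- 1 - (f a k)^2 = 0, so 1/2 = 0
        have : (1 : F) = 0 := by linear_combination 2 * h + e1
        exact one_ne_zero this
    · -- all squares are 1/4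
      have elm : 2 * ((f a l) ^ 2 + (f a m) ^ 2) = 1 := by
        rcases tri l m hlJ hmJ (Ne.symm hmT.2) hl0 with h | h
        · exact absurd (h k (Ne.symm hlT) (Ne.symm hmT.1)) hk0
        · exact h
      have q : 4 * (f a k) ^ 2 = 1 := by linear_combination Bl + Bm - elm
      have hPP := (hs k l hkJ hlJ (Ne.symm hlT)).mul (hs m r hmJ hrJ (Ne.symm hrT.2.2))
      have ev : (sg F {k, l} * sg F {m, r}) (f a) = f a - (2 * f a k) • ee F k - (2 * f a l) • ee F l
          - (2 * f a m) • ee F m - (2 * f a r) • ee F r := by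
        rw [LinearEquiv.mul_apply, sg_pair_apply (Ne.symm hrT.2.2), sg_pair_apply (Ne.symm hlT)]
        have z1 : (f a - (2 * f a m) • ee F m - (2 * f a r) • ee F r) k = f a k := by
          simp [ee, Pi.single_apply, Ne.symm hmT.1, Ne.symm hrT.1]
        have z2 : (f a - (2 * f a m) • ee F m - (2 * f a r) • ee F r) l = f a l := by
          simp [ee, Pi.single_apply, Ne.symm hmT.2, Ne.symm hrT.2.1]
        rw [z1, z2]
        abel
      rcases perms_trichotomy hf hPP a with h | h | h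
      · have := congrFun h k
        rw [ev] at this
        simp [ee, Pi.single_apply, Ne.symm hlT, Ne.symm hmT.1, Ne.symm hrT.1] at this
        rcases this with h' | h'
        · exact h2 h'
        · exact hk0 h'
      · have := congrFun h s
        rw [ev] at this
        simp [ee, Pi.single_apply, hsT.1, hsT.2.1, hsT.2.2.1, hsT.2.2.2] at this
        have hs0 : f a s = 0 := by
          have h' : 2 * f a s = 0 := by linear_combination this
          exact (mul_eq_zero.1 h').resolve_left h2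
        rw [hs0] at Bs
        have : (1 : F) = 0 := by linear_combination -2 * Bs + q
        exact one_ne_zero this
      · rw [ev, dotProduct_sub, dotProduct_sub, dotProduct_sub, dotProduct_sub, dotProduct_smul,
          dotProduct_smul, dotProduct_smul, dotProduct_smul, dot_ee, dot_ee, dot_ee, dot_ee, norm1] at h
        simp only [smul_eq_mul] at h
        have : (1 : F) = 0 := by linear_combination -h - Bl - Bm - Br + q
        exact one_ne_zero this

end Cfsg.Agent.H928
end

-- part: H928/FrameC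
section
/-!
# Orthogonal frames III: the rigid situation, lemmas F1, F4, F2
-/

set_option autoImplicit false
set_option linter.unusedSectionVars false
set_option linter.unusedSimpArgs false
set_option linter.unusedVariables false

namespace Cfsg.Agent.H928

open Matrix

variable {ι : Type*} [Fintype ι] [DecidableEq ι] {F : Type*} [Field F]

theorem IsIso.ee_dot_ee {y : (ι → F) ≃ₗ[F] (ι → F)} (hy : IsIso y) (a b : ι) :
    y (ee F a) ⬝ᵥ y (ee F b) = if a = b then 1 else 0 := by
  rw [hy, dot_ee, ee, Pi.single_apply]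
  by_cases h : a = b
  · rw [if_pos h, if_pos h.symm]
  · rw [if_neg h, if_neg (Ne.symm h)]

theorem conj_sg_apply {y : (ι → F) ≃ₗ[F] (ι → F)} (hy : IsIso y) {p q : ι} (hpq : p ≠ q) (x : ι → F) :
    (y * sg F {p, q} * y⁻¹) x = x - (2 * (x ⬝ᵥ y (ee F p))) • y (ee F p)
      - (2 * (x ⬝ᵥ y (ee F q))) • y (ee F q) := by
  rw [LinearEquiv.mul_apply, LinearEquiv.mul_apply, sg_pair_apply hpq, map_sub, map_sub, map_smul, map_smul]
  rw [hy.inv.apply_eq, hy.inv.apply_eq, inv_inv, ← LinearEquiv.mul_apply y y⁻¹, mul_inv_cancel]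
  rfl

/-- an isometry fixing `± e_j` for `j ∈ S` commutes with the sign change at `S` -/
theorem comm_sg_of_pm {g : (ι → F) ≃ₗ[F] (ι → F)} (hg : IsIso g) (S : Finset ι)
    (h : ∀ j ∈ S, g (ee F j) = ee F j ∨ g (ee F j) = - ee F j) : Commute g (sg F S) := by
  apply ext_ee
  intro i
  rw [LinearEquiv.mul_apply, LinearEquiv.mul_apply]
  by_cases hi : i ∈ S
  · rw [sg_ee_mem hi, map_neg]
    rcases h i hi with h | h <;> rw [h]
    · rw [sg_ee_mem hi]
    · rw [map_neg, sg_ee_mem hi]
  · rw [sg_ee_not_mem hi]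
    funext k
    rw [sg_apply]
    by_cases hk : k ∈ S
    · have hki : k ≠ i := fun h' => hi (h' ▸ hk)
      have e1 : (ee F i : ι → F) k = 0 := by simp [ee, Pi.single_apply, hki]
      rw [if_pos hk]
      rcases h k hk with h | h
      · rw [hg.fix_coord h, e1, neg_zero]
      · rw [hg.neg_coord h, e1, neg_zero, neg_zero]
    · rw [if_neg hk]

/-- conjugating a sign change by a monomial isometry -/
theorem mono_mul_sg {g : (ι → F) ≃ₗ[F] (ι → F)} {σ : Equiv.Perm ι}
    (hσ : ∀ i, g (ee F i) = ee F (σ i) ∨ g (ee F i) = - ee F (σ i)) (S : Finset ι) :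
    g * sg F S * g⁻¹ = sg F (S.image σ) := by
  rw [mul_inv_eq_iff_eq_mul]
  apply ext_ee
  intro i
  rw [LinearEquiv.mul_apply, LinearEquiv.mul_apply]
  by_cases hi : i ∈ S
  · have hi' : σ i ∈ S.image σ := Finset.mem_image_of_mem _ hi
    rw [sg_ee_mem hi, map_neg]
    rcases hσ i with h | h <;> rw [h]
    · rw [sg_ee_mem hi']
    · rw [map_neg, sg_ee_mem hi']
  · have hi' : σ i ∉ S.image σ := by
      rw [Finset.mem_image]
      rintro ⟨j, hj, hj'⟩
      exact hi (σ.injective hj' ▸ hj)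
    rw [sg_ee_not_mem hi]
    rcases hσ i with h | h <;> rw [h]
    · rw [sg_ee_not_mem hi']
    · rw [map_neg, sg_ee_not_mem hi']

theorem sg_injective (h2 : (2 : F) ≠ 0) {S T : Finset ι} (h : sg F S = sg F T) : S = T := by
  ext k
  have hk := congrFun (congrArg (fun g : (ι → F) ≃ₗ[F] (ι → F) => g (ee F k)) h) k
  simp only [sg_apply] at hk
  have e1 : (ee F k : ι → F) k = 1 := by simp [ee]
  rw [e1] at hk
  have hne : (-1 : F) ≠ 1 := fun h' => h2 (by linear_combination -h')
  by_cases h1 : k ∈ S <;> by_cases h3 : k ∈ T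
  · simp [h1, h3]
  · rw [if_pos h1, if_neg h3] at hk; exact absurd hk hne
  · rw [if_neg h1, if_pos h3] at hk; exact absurd hk.symm hne
  · simp [h1, h3]

theorem sg_empty : sg F (∅ : Finset ι) = 1 := by
  apply ext_ee
  intro i
  rw [sg_ee_not_mem (by simp)]
  rfl

theorem card_moved_le (h2 : (2 : F) ≠ 0) {b : (ι → F) ≃ₗ[F] (ι → F)} (hb : Mono b)
    (W : Submodule F (ι → F)) (hW : ∀ k, b (ee F k) - ee F k ∈ W) (S : Finset ι)
    (hS : ∀ k ∈ S, b (ee F k) ≠ ee F k) : S.card ≤ 2 * Module.finrank F W := by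
  obtain ⟨σ, hσ⟩ := hb
  apply card_le_two_mul_finrank
  intro k hk
  refine ⟨b (ee F k) - ee F k, hW k, ?_, σ k, ?_⟩
  · by_cases hσk : σ k = k
    · rcases hσ k with h | h
      · rw [hσk] at h; exact absurd h (hS k hk)
      · rw [hσk] at h
        rw [h, Pi.sub_apply, Pi.neg_apply]
        simp only [ee, Pi.single_eq_same]
        intro h'
        exact h2 (by linear_combination -h')
    · rcases hσ k with h | h <;> rw [h] <;>
        simp [ee, Pi.single_apply, Ne.symm hσk]
  · intro c hck hcs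
    rcases hσ k with h | h <;> rw [h] <;>
        simp [ee, Pi.single_apply, hck, hcs]

theorem finrank_span_pair_le (u v : ι → F) : Module.finrank F (Submodule.span F ({u, v} : Set (ι → F))) ≤ 2 := by
  classical
  have h := finrank_span_finset_le_card (R := F) ({u, v} : Finset (ι → F))
  rw [Finset.coe_pair] at h
  exact h.trans Finset.card_le_two

/-- the rigid situation -/
structure Rig (X : Subgroup ((ι → F) ≃ₗ[F] (ι → F))) : Prop where
  two : (2 : F) ≠ 0
  card : 9 ≤ Fintype.card ι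
  iso : ∀ g ∈ X, IsIso g
  hsg : ∀ i j, i ≠ j → sg F {i, j} ∈ X
  hc3 : ∀ i j k, i ≠ j → i ≠ k → j ≠ k → c3 F i j k ∈ X
  H : ∀ g ∈ X, ∀ i j, i ≠ j → Commute g (sg F {i, j}) → Mono g

variable {X : Subgroup ((ι → F) ≃ₗ[F] (ι → F))}

theorem commute_conj_iff {G : Type*} [Group G] {y a b : G} : Commute (y * a * y⁻¹) b ↔ Commute a (y⁻¹ * b * y) := by
  have : y⁻¹ * b * y = MulAut.conj y⁻¹ b := by simp [MulAut.conj_apply]
  constructor
  · intro h
    have h' : (y * a * y⁻¹) * b = b * (y * a * y⁻¹) := h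
    show a * (y⁻¹ * b * y) = (y⁻¹ * b * y) * a
    calc a * (y⁻¹ * b * y) = y⁻¹ * ((y * a * y⁻¹) * b) * y := by group
      _ = y⁻¹ * (b * (y * a * y⁻¹)) * y := by rw [h']
      _ = (y⁻¹ * b * y) * a := by group
  · intro h
    have h' : a * (y⁻¹ * b * y) = (y⁻¹ * b * y) * a := h
    show (y * a * y⁻¹) * b = b * (y * a * y⁻¹)
    calc (y * a * y⁻¹) * b = y * (a * (y⁻¹ * b * y)) * y⁻¹ := by group
      _ = y * ((y⁻¹ * b * y) * a) * y⁻¹ := by rw [h']
      _ = b * (y * a * y⁻¹) := by group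

theorem Rig.mono_conj_of_comm (R : Rig X) {y κ : (ι → F) ≃ₗ[F] (ι → F)} (hy : y ∈ X) (hκ : κ ∈ X) {p q : ι}
    (hpq : p ≠ q) (hcomm : Commute (y * sg F {p, q} * y⁻¹) κ) : Mono (y⁻¹ * κ * y) :=
  R.H _ (X.mul_mem (X.mul_mem (X.inv_mem hy) hκ) hy) p q hpq (commute_conj_iff.1 hcomm).symm

theorem Rig.perms_of_comm (R : Rig X) {y κ : (ι → F) ≃ₗ[F] (ι → F)} (hy : y ∈ X) (hκ : κ ∈ X) {p q : ι}
    (hpq : p ≠ q) (hcomm : Commute (y * sg F {p, q} * y⁻¹) κ) : Perms (fun a => y (ee F a)) κ := by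
  intro a
  obtain ⟨σ, hσ⟩ := R.mono_conj_of_comm hy hκ hpq hcomm
  refine ⟨σ a, ?_⟩
  have key : κ (y (ee F a)) = y ((y⁻¹ * κ * y) (ee F a)) := by
    rw [← LinearEquiv.mul_apply, ← LinearEquiv.mul_apply]
    congr 1
    group
  rcases hσ a with h | h
  · left
    show κ (y (ee F a)) = _
    rw [key, h]
  · right
    show κ (y (ee F a)) = _
    rw [key, h, map_neg]

/-- the moved coordinates of a monomial conjugate of `t_pq` -/
theorem Rig.card_moved_conj (R : Rig X) {y : (ι → F) ≃ₗ[F] (ι → F)} (hy : y ∈ X) {p q : ι}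
    (hpq : p ≠ q) (hm : Mono (y * sg F {p, q} * y⁻¹)) (S : Finset ι)
    (hS : ∀ k ∈ S, (y * sg F {p, q} * y⁻¹) (ee F k) ≠ ee F k) : S.card ≤ 4 := by
  have h := card_moved_le R.two hm (Submodule.span F {y (ee F p), y (ee F q)}) ?_ S hS
  · have := finrank_span_pair_le (y (ee F p)) (y (ee F q))
    omega
  · intro k
    rw [conj_sg_apply (R.iso y hy) hpq]
    have e1 : ee F k - (2 * (ee F k ⬝ᵥ y (ee F p))) • y (ee F p)
      - (2 * (ee F k ⬝ᵥ y (ee F q))) • y (ee F q) - ee F k =
      (- (2 * (ee F k ⬝ᵥ y (ee F p)))) • y (ee F p) + (- (2 * (ee F k ⬝ᵥ y (ee F q)))) • y (ee F q) := by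
      rw [neg_smul, neg_smul]; abel
    rw [e1]
    exact Submodule.add_mem _ (Submodule.smul_mem _ _ (Submodule.subset_span (by simp)))
      (Submodule.smul_mem _ _ (Submodule.subset_span (by simp)))

theorem Rig.F1 (R : Rig X) {y : (ι → F) ≃ₗ[F] (ι → F)} (hy : y ∈ X) {p q : ι}
    (hpq : p ≠ q) (hm : Mono (y * sg F {p, q} * y⁻¹)) : Mono y := by
  classical
  set s := y * sg F {p, q} * y⁻¹ with hs
  have hsX : s ∈ X := X.mul_mem (X.mul_mem hy (R.hsg p q hpq)) (X.inv_mem hy)
  set J : Finset ι := Finset.univ.filter (fun k => s (ee F k) ≠ ee F k) with hJdef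
  have hJ4 : J.card ≤ 4 := R.card_moved_conj hy hpq hm J (fun k hk => (Finset.mem_filter.1 hk).2)
  have hn := R.card
  have hfix : ∀ k, k ∉ J → s (ee F k) = ee F k := by
    intro k hk
    by_contra h
    exact hk (Finset.mem_filter.2 ⟨Finset.mem_univ _, h⟩)
  have hyI := R.iso y hy
  have hfd : ∀ a b, (fun a => y (ee F a)) a ⬝ᵥ (fun a => y (ee F a)) b = if a = b then 1 else 0 :=
    fun a b => hyI.ee_dot_ee a b
  have core := frame_core R.two (fun a => y (ee F a)) hfd J (by omega)
    (by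
      intro k l hk hl hkl
      apply R.perms_of_comm hy (R.hsg k l hkl) hpq
      apply comm_of_disjoint (R.iso s hsX) (sg_isIso _) J hfix
      intro j hj
      apply sg_ee_not_mem
      simp only [Finset.mem_insert, Finset.mem_singleton, not_or]
      exact ⟨fun h => hk (h ▸ hj), fun h => hl (h ▸ hj)⟩)
    (by
      intro k l m hk hl hm' hkl hkm hlm
      apply R.perms_of_comm hy (R.hc3 k l m hkl hkm hlm) hpq
      apply comm_of_disjoint (R.iso s hsX) (c3_isIso _ _ _) J hfix
      intro j hj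
      apply c3_other
      · exact fun h => hk (h ▸ hj)
      · exact fun h => hl (h ▸ hj)
      · exact fun h => hm' (h ▸ hj))
  -- every `e_k`, `k ∉ J`, is in the frame `y`
  have hak : ∀ k, k ∉ J → ∃ a, y (ee F a) = ee F k ∨ y (ee F a) = - ee F k := by
    intro k hk
    have hne : y⁻¹ (ee F k) ≠ 0 := by
      intro h
      apply ee_ne_zero (F := F) k
      have := congrArg y h
      rwa [← LinearEquiv.mul_apply, mul_inv_cancel, map_zero] at this
    obtain ⟨a, ha⟩ := Function.ne_iff.1 hne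
    rw [hyI.inv.apply_eq, inv_inv, ee_dot, Pi.zero_apply] at ha
    refine ⟨a, ?_⟩
    rcases core a with ⟨m, hm1, hm2⟩ | h
    · have : k = m := by
        by_contra hkm
        apply ha
        rcases hm2 with h | h
        · have h' : y (ee F a) = ee F m := h
          rw [h']; simp [ee, Pi.single_apply, hkm]
        · have h' : y (ee F a) = - ee F m := h
          rw [h']; simp [ee, Pi.single_apply, hkm]
      rw [this]; exact hm2
    · exact absurd (h k hk) ha
  apply mono_of_forall R.two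
  intro a
  rcases core a with ⟨k, _, hk⟩ | hzero
  · exact ⟨k, hk⟩
  have hzero' : ∀ k, k ∉ J → y (ee F a) k = 0 := hzero
  obtain ⟨k, hkJ, _⟩ := exists_not_mem_of_card (J := J) (n := 0) (by omega) (∅ : Finset ι) (by simp)
  obtain ⟨l, hlJ, hlT⟩ := exists_not_mem_of_card (J := J) (n := 1) (by omega) ({k} : Finset ι) (by simp)
  obtain ⟨m, hmJ, hmT⟩ := exists_not_mem_of_card (J := J) (n := 2) (by omega) ({k, l} : Finset ι)
    (Finset.card_le_two)
  obtain ⟨r, hrJ, hrT⟩ := exists_not_mem_of_card (J := J) (n := 3) (by omega) ({k, l, m} : Finset ι)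
    (Finset.card_le_three)
  simp only [Finset.mem_insert, Finset.mem_singleton, not_or] at hlT hmT hrT
  obtain ⟨ak, hak'⟩ := hak k hkJ
  obtain ⟨al, hal'⟩ := hak l hlJ
  obtain ⟨am, ham'⟩ := hak m hmJ
  obtain ⟨ar, har'⟩ := hak r hrJ
  -- distinctness
  have dist : ∀ {k l ak al : ι}, k ≠ l → (y (ee F ak) = ee F k ∨ y (ee F ak) = - ee F k) →
      (y (ee F al) = ee F l ∨ y (ee F al) = - ee F l) → ak ≠ al := by
    intro k l ak al hkl h h' he
    subst he
    apply hkl
    apply ee_inj_or R.two (F := F)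
    rcases h with h | h <;> rcases h' with h' | h'
    · left; rw [← h, h']
    · right; rw [← h, h']
    · right
      rw [← h', h, neg_neg]
    · left
      have := h.symm.trans h'
      exact neg_injective this
  have dista : ∀ {k ak : ι}, k ∉ J → (y (ee F ak) = ee F k ∨ y (ee F ak) = - ee F k) → a ≠ ak := by
    intro k ak hk h he
    subst he
    have h0 := hzero' k hk
    rcases h with h | h
    · rw [h] at h0; simp [ee] at h0
    · rw [h] at h0; simp [ee] at h0
  have hkl := dist (Ne.symm hlT) hak' hal'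
  have hkm := dist (Ne.symm hmT.1) hak' ham'
  have hlm := dist (Ne.symm hmT.2) hal' ham'
  have hkr := dist (Ne.symm hrT.1) hak' har'
  have hlr := dist (Ne.symm hrT.2.1) hal' har'
  have hak2 := dista hkJ hak'
  have hal2 := dista hlJ hal'
  have ham2 := dista hmJ ham'
  have har2 := dista hrJ har'
  set τ := y * c3 F a ak al * y⁻¹ with hτ
  have hτX : τ ∈ X := X.mul_mem (X.mul_mem hy (R.hc3 a ak al hak2 hal2 hkl)) (X.inv_mem hy)
  have hτy : ∀ c, τ (y (ee F c)) = y (c3 F a ak al (ee F c)) := by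
    intro c
    rw [hτ, LinearEquiv.mul_apply, LinearEquiv.mul_apply, ← LinearEquiv.mul_apply y⁻¹ y, inv_mul_cancel]
    rfl
  have fixof : ∀ {m am : ι}, (y (ee F am) = ee F m ∨ y (ee F am) = - ee F m) → am ≠ a → am ≠ ak → am ≠ al →
      τ (ee F m) = ee F m := by
    intro m am h h1 h3 h4
    have e := hτy am
    rw [c3_other h1 h3 h4] at e
    rcases h with h | h
    · rw [h] at e; exact e
    · rw [h, map_neg] at e; exact neg_injective e
  have fm := fixof ham' (Ne.symm ham2) (Ne.symm hkm) (Ne.symm hlm)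
  have fr := fixof har' (Ne.symm har2) (Ne.symm hkr) (Ne.symm hlr)
  have hτM : Mono τ := by
    apply R.H τ hτX m r (Ne.symm hrT.2.2)
    apply comm_sg_of_pm (R.iso τ hτX)
    intro j hj
    simp only [Finset.mem_insert, Finset.mem_singleton] at hj
    rcases hj with rfl | rfl
    · exact Or.inl fm
    · exact Or.inl fr
  obtain ⟨σ, hσ⟩ := hτM
  have e := hτy al
  rw [c3_right] at e
  refine ⟨σ l, ?_⟩
  rw [← e]
  rcases hal' with h | h
  · rw [h]; exact hσ l
  · rw [h, map_neg]
    rcases hσ l with h' | h'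
    · right; rw [h']
    · left; rw [h', neg_neg]

theorem Rig.F4 (R : Rig X) {y w : (ι → F) ≃ₗ[F] (ι → F)} (hy : y ∈ X) (hw : w ∈ X) {p q r s : ι}
    (hpq : p ≠ q) (hrs : r ≠ s) (h : Commute (y * sg F {p, q} * y⁻¹) (w * sg F {r, s} * w⁻¹)) :
    Mono (y⁻¹ * w) := by
  have h1 := R.mono_conj_of_comm hy (X.mul_mem (X.mul_mem hw (R.hsg r s hrs)) (X.inv_mem hw)) hpq h
  apply R.F1 (X.mul_mem (X.inv_mem hy) hw) hrs
  have e : y⁻¹ * w * sg F {r, s} * (y⁻¹ * w)⁻¹ = y⁻¹ * (w * sg F {r, s} * w⁻¹) * y := by group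
  rw [e]
  exact h1

end Cfsg.Agent.H928
end

-- part: H928/FrameD
section
/-!
# Orthogonal frames IV: lemma F2
-/

set_option autoImplicit false
set_option linter.unusedSectionVars false
set_option linter.unusedSimpArgs false
set_option linter.unusedVariables false

namespace Cfsg.Agent.H928

open Matrix

variable {ι : Type*} [Fintype ι] [DecidableEq ι] {F : Type*} [Field F]

theorem fix_supported {κ : (ι → F) ≃ₗ[F] (ι → F)} {J : Finset ι} (h2 : ∀ j ∈ J, κ (ee F j) = ee F j)
    {x : ι → F} (hx : ∀ k, k ∉ J → x k = 0) : κ x = x := by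
  conv_lhs => rw [eq_sum_ee x]
  rw [map_sum]
  conv_rhs => rw [eq_sum_ee x]
  apply Finset.sum_congr rfl
  intro i _
  by_cases hi : i ∈ J
  · rw [map_smul, h2 i hi]
  · rw [hx i hi]; simp

/-- splitting lemma -/
theorem split_plane {u v : ι → F} (huu : u ⬝ᵥ u = 1) (hvv : v ⬝ᵥ v = 1) (huv : u ⬝ᵥ v = 0) {I : Finset ι}
    (orth : ∀ i ∈ I, ∀ k, k ∉ I → u i * u k + v i * v k = 0)
    {i0 : ι} (hi0 : i0 ∈ I) (hz : ¬ (u i0 = 0 ∧ v i0 = 0))
    {k0 : ι} (hk0 : k0 ∉ I) (hzk : ¬ (u k0 = 0 ∧ v k0 = 0)) :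
    ∃ (c : ι → F) (N : F), N ≠ 0 ∧ (∀ i ∈ I, c i = 0) ∧ (∀ k, k ∉ I → (c k = 0 → u k = 0 ∧ v k = 0)) ∧
      ∀ x : ι → F, (∀ i ∈ I, x i = 0) → (x ⬝ᵥ u) • u + (x ⬝ᵥ v) • v = (N * (x ⬝ᵥ c)) • c := by
  obtain ⟨c, hc0, hc1⟩ : ∃ c : ι → F, (∀ i ∈ I, c i = 0) ∧
      ∀ k, k ∉ I → u k = c k * (- v i0) ∧ v k = c k * u i0 := by
    by_cases hu : u i0 = 0
    · have hv : v i0 ≠ 0 := fun h => hz ⟨hu, h⟩
      refine ⟨fun k => if k ∈ I then 0 else - u k / v i0, fun i hi => if_pos hi, fun k hk => ?_⟩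
      simp only [if_neg hk]
      have h := orth i0 hi0 k hk
      rw [hu, zero_mul, zero_add] at h
      refine ⟨by field_simp, ?_⟩
      rw [hu, mul_zero]
      exact (mul_eq_zero.1 h).resolve_left hv
    · refine ⟨fun k => if k ∈ I then 0 else v k / u i0, fun i hi => if_pos hi, fun k hk => ?_⟩
      simp only [if_neg hk]
      have h := orth i0 hi0 k hk
      refine ⟨?_, by field_simp⟩
      field_simp
      linear_combination h
  have hck0 : c k0 ≠ 0 := by
    intro h
    apply hzk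
    obtain ⟨h1, h3⟩ := hc1 k0 hk0
    rw [h, zero_mul] at h1 h3
    exact ⟨h1, h3⟩
  have hB : (- v i0) • u + (u i0) • v = ((v i0) ^ 2 + (u i0) ^ 2) • c := by
    funext k
    simp only [Pi.add_apply, Pi.smul_apply, smul_eq_mul]
    by_cases hk : k ∈ I
    · rw [hc0 k hk, mul_zero]
      have h := orth k hk k0 hk0
      obtain ⟨h1, h3⟩ := hc1 k0 hk0
      rw [h1, h3] at h
      have h' : c k0 * (- v i0 * u k + u i0 * v k) = 0 := by linear_combination h
      exact (mul_eq_zero.1 h').resolve_left hck0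
    · obtain ⟨h1, h3⟩ := hc1 k hk
      rw [h1, h3]
      ring
  refine ⟨c, (v i0) ^ 2 + (u i0) ^ 2, ?_, hc0, ?_, ?_⟩
  · intro h0
    rw [h0, zero_smul] at hB
    apply hz
    have hvu : v ⬝ᵥ u = 0 := by rw [dotProduct_comm]; exact huv
    have e1 := congrArg (fun z => z ⬝ᵥ u) hB
    have e2 := congrArg (fun z => z ⬝ᵥ v) hB
    simp only [add_dotProduct, smul_dotProduct, huu, hvv, huv, hvu, zero_dotProduct, smul_eq_mul] at e1 e2
    exact ⟨by linear_combination e2, by linear_combination -e1⟩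
  · intro k hk h
    obtain ⟨h1, h3⟩ := hc1 k hk
    rw [h, zero_mul] at h1 h3
    exact ⟨h1, h3⟩
  · intro x hx
    have hxu : x ⬝ᵥ u = (x ⬝ᵥ c) * (- v i0) := by
      unfold dotProduct
      rw [Finset.sum_mul]
      apply Finset.sum_congr rfl
      intro k _
      by_cases hk : k ∈ I
      · rw [hx k hk]; ring
      · rw [(hc1 k hk).1]; ring
    have hxv : x ⬝ᵥ v = (x ⬝ᵥ c) * (u i0) := by
      unfold dotProduct
      rw [Finset.sum_mul]
      apply Finset.sum_congr rfl
      intro k _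
      by_cases hk : k ∈ I
      · rw [hx k hk]; ring
      · rw [(hc1 k hk).2]; ring
    rw [hxu, hxv, mul_smul, mul_smul, ← smul_add, hB, smul_smul, mul_comm (x ⬝ᵥ c)]

variable {X : Subgroup ((ι → F) ≃ₗ[F] (ι → F))}

theorem Rig.F2 (R : Rig X) {y : (ι → F) ≃ₗ[F] (ι → F)} (hy : y ∈ X) {p q : ι}
    (hpq : p ≠ q) {I : Finset ι} (hI : I.card = 4) (hcomm : Commute (y * sg F {p, q} * y⁻¹) (sg F I)) :
    Mono y := by
  classical
  have hn := R.card
  have hyI := R.iso y hy
  have h2 := R.two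
  set a := y * sg F {p, q} * y⁻¹ with ha
  have haX : a ∈ X := X.mul_mem (X.mul_mem hy (R.hsg p q hpq)) (X.inv_mem hy)
  have haI := R.iso a haX
  set u := y (ee F p) with hu
  set v := y (ee F q) with hv
  have huu : u ⬝ᵥ u = 1 := by rw [hu, hyI.ee_dot_ee, if_pos rfl]
  have hvv : v ⬝ᵥ v = 1 := by rw [hv, hyI.ee_dot_ee, if_pos rfl]
  have huv : u ⬝ᵥ v = 0 := by rw [hu, hv, hyI.ee_dot_ee, if_neg hpq]
  have hax : ∀ x, a x = x - (2 * (x ⬝ᵥ u)) • u - (2 * (x ⬝ᵥ v)) • v := fun x => conj_sg_apply hyI hpq x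
  have haa : a * a = 1 := by
    have e : a * a = y * (sg F {p, q} * sg F {p, q}) * y⁻¹ := by rw [ha]; group
    rw [e, sg_mul_self, mul_one, mul_inv_cancel]
  have hF1 : Mono a → Mono y := fun h => R.F1 hy hpq (ha ▸ h)
  clear_value a u v
  -- orthogonality
  have orth : ∀ i ∈ I, ∀ k, k ∉ I → u i * u k + v i * v k = 0 := by
    intro i hi k hk
    have h := congrArg (fun g : (ι → F) ≃ₗ[F] (ι → F) => g (ee F k) i) hcomm.eq
    simp only [LinearEquiv.mul_apply] at h
    rw [sg_ee_not_mem hk, sg_apply, if_pos hi, hax, ee_dot, ee_dot] at h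
    have e1 : (ee F k : ι → F) i = 0 := by
      have : i ≠ k := fun h => hk (h ▸ hi)
      simp [ee, Pi.single_apply, this]
    simp only [Pi.sub_apply, Pi.smul_apply, smul_eq_mul, e1] at h
    have h' : 2 * (2 * (u i * u k + v i * v k)) = 0 := by linear_combination -h
    exact (mul_eq_zero.1 ((mul_eq_zero.1 h').resolve_left h2)).resolve_left h2
  by_contra hM
  have hfixed : ∀ b ∈ X, ∀ k l, k ≠ l → b (ee F k) = ee F k → b (ee F l) = ee F l → Mono b := by
    intro b hb k l hkl h1 h3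
    apply R.H b hb k l hkl
    apply comm_sg_of_pm (R.iso b hb)
    intro j hj
    simp only [Finset.mem_insert, Finset.mem_singleton] at hj
    rcases hj with rfl | rfl
    · exact Or.inl h1
    · exact Or.inl h3
  have hzero : ∀ k l, k ≠ l → (u k = 0 ∧ v k = 0) → ¬ (u l = 0 ∧ v l = 0) := by
    intro k l hkl hk hl
    apply hM
    apply hF1
    apply hfixed a haX k l hkl
    · rw [hax, ee_dot, ee_dot, hk.1, hk.2]; simp
    · rw [hax, ee_dot, ee_dot, hl.1, hl.2]; simp
  obtain ⟨i1, hi1, i2, hi2, hi12⟩ := Finset.one_lt_card.1 (show 1 < I.card by omega)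
  obtain ⟨i0, hi0, hz0⟩ : ∃ i0 ∈ I, ¬ (u i0 = 0 ∧ v i0 = 0) := by
    by_cases h : u i1 = 0 ∧ v i1 = 0
    · exact ⟨i2, hi2, hzero i1 i2 hi12 h⟩
    · exact ⟨i1, hi1, h⟩
  obtain ⟨k1, hk1, _⟩ := exists_not_mem_of_card (J := I) (n := 0) (by omega) (∅ : Finset ι) (by simp)
  obtain ⟨k2, hk2, hk2T⟩ := exists_not_mem_of_card (J := I) (n := 1) (by omega) ({k1} : Finset ι) (by simp)
  obtain ⟨k3, hk3, hk3T⟩ := exists_not_mem_of_card (J := I) (n := 2) (by omega) ({k1, k2} : Finset ι)
    (Finset.card_le_two)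
  simp only [Finset.mem_insert, Finset.mem_singleton, not_or] at hk2T hk3T
  obtain ⟨k0, hk0, hzk0⟩ : ∃ k0, k0 ∉ I ∧ ¬ (u k0 = 0 ∧ v k0 = 0) := by
    by_cases h : u k1 = 0 ∧ v k1 = 0
    · exact ⟨k2, hk2, hzero k1 k2 (Ne.symm hk2T) h⟩
    · exact ⟨k1, hk1, h⟩
  obtain ⟨c, N, hN, hc0, hcz, hP⟩ := split_plane huu hvv huv orth hi0 hz0 hk0 hzk0
  have hcz' : ∀ k l, k ∉ I → l ∉ I → k ≠ l → c k = 0 → c l ≠ 0 := by
    intro k l hk hl hkl h1 h3
    exact hzero k l hkl (hcz k hk h1) (hcz l hl h3)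
  -- the element σ
  obtain ⟨σ, hσX, hσI, hσ⟩ : ∃ σ ∈ X, (∀ i ∈ I, σ (ee F i) = ee F i) ∧
      ∀ r, r ∉ I → c r • c ≠ (σ c) r • σ c := by
    by_cases hA : ∀ r, r ∉ I → c r ≠ 0
    · refine ⟨sg F {k1, k2}, R.hsg k1 k2 (Ne.symm hk2T), ?_, ?_⟩
      · intro i hi
        apply sg_ee_not_mem
        simp only [Finset.mem_insert, Finset.mem_singleton, not_or]
        exact ⟨fun h => hk1 (h ▸ hi), fun h => hk2 (h ▸ hi)⟩
      · intro r hr h
        by_cases hr' : r ∈ ({k1, k2} : Finset ι)
        · have h3 := congrFun h k3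
          simp only [Pi.smul_apply, smul_eq_mul] at h3
          rw [sg_apply, if_pos hr', sg_apply, if_neg (by simp [hk3T.1, hk3T.2])] at h3
          have h' : 2 * (c r * c k3) = 0 := by linear_combination h3
          exact (mul_ne_zero (hA r hr) (hA k3 hk3)) ((mul_eq_zero.1 h').resolve_left h2)
        · have h3 := congrFun h k1
          simp only [Pi.smul_apply, smul_eq_mul] at h3
          rw [sg_apply, if_neg hr', sg_apply, if_pos (by simp)] at h3
          have h' : 2 * (c r * c k1) = 0 := by linear_combination h3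
          exact (mul_ne_zero (hA r hr) (hA k1 hk1)) ((mul_eq_zero.1 h').resolve_left h2)
    · push Not at hA
      obtain ⟨l, hl, hcl⟩ := hA
      obtain ⟨k, hk, hkT⟩ := exists_not_mem_of_card (J := I) (n := 1) (by omega) ({l} : Finset ι) (by simp)
      obtain ⟨m, hm, hmT⟩ := exists_not_mem_of_card (J := I) (n := 2) (by omega) ({l, k} : Finset ι)
        (Finset.card_le_two)
      simp only [Finset.mem_insert, Finset.mem_singleton, not_or] at hkT hmT
      have hck := hcz' l k hl hk (Ne.symm hkT) hcl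
      have hcm := hcz' l m hl hm (Ne.symm hmT.1) hcl
      refine ⟨c3 F k m l, R.hc3 k m l (Ne.symm hmT.2) hkT hmT.1, ?_, ?_⟩
      · intro i hi
        apply c3_other
        · exact fun h => hk (h ▸ hi)
        · exact fun h => hm (h ▸ hi)
        · exact fun h => hl (h ▸ hi)
      · intro r hr h
        have ev := c3_apply_vec (Ne.symm hmT.2) hkT hmT.1 c
        have evl : c3 F k m l c l = c m := by
          rw [ev]
          simp [ee, Pi.single_apply, Ne.symm hkT, Ne.symm hmT.1]
        have h3 := congrFun h l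
        simp only [Pi.smul_apply, smul_eq_mul] at h3
        rw [hcl, mul_zero, evl] at h3
        have h4 : c3 F k m l c r = 0 := (mul_eq_zero.1 h3.symm).resolve_right hcm
        have h5 := congrFun h k
        simp only [Pi.smul_apply, smul_eq_mul] at h5
        rw [h4, zero_mul] at h5
        have h6 : c r = 0 := (mul_eq_zero.1 h5).resolve_right hck
        have h7 : r = l := by
          by_contra hrl
          exact hcz' l r hl hr (Ne.symm hrl) hcl h6
        rw [h7, evl] at h4
        exact hcm h4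
  have hσiso := R.iso σ hσX
  -- `a` on vectors supported off `I`
  have haV : ∀ x : ι → F, (∀ i ∈ I, x i = 0) → a x = x - (2 * N * (x ⬝ᵥ c)) • c := by
    intro x hx
    rw [hax]
    have e : (2 * (x ⬝ᵥ u)) • u + (2 * (x ⬝ᵥ v)) • v = (2 * N * (x ⬝ᵥ c)) • c := by
      rw [mul_smul, mul_smul, ← smul_add, hP x hx, smul_smul, mul_assoc]
    rw [← e]; abel
  have hσinv : ∀ i ∈ I, σ⁻¹ (ee F i) = ee F i := by
    intro i hi
    have : σ⁻¹ (σ (ee F i)) = σ⁻¹ (ee F i) := by rw [hσI i hi]
    rw [← LinearEquiv.mul_apply, inv_mul_cancel] at this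
    exact this.symm
  have hσc : ∀ i ∈ I, (σ c) i = 0 := by
    intro i hi
    rw [hσiso.fix_coord (hσI i hi), hc0 i hi]
  have hσaσ : ∀ x : ι → F, (∀ i ∈ I, x i = 0) →
      (σ * a * σ⁻¹) x = x - (2 * N * (x ⬝ᵥ σ c)) • σ c := by
    intro x hx
    rw [LinearEquiv.mul_apply, LinearEquiv.mul_apply, haV]
    · rw [map_sub, map_smul, ← LinearEquiv.mul_apply σ σ⁻¹, mul_inv_cancel, LinearEquiv.coe_one, id]
      congr 3
      rw [← hσiso (σ⁻¹ x) c, ← LinearEquiv.mul_apply σ σ⁻¹, mul_inv_cancel, LinearEquiv.coe_one, id]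
    · intro i hi
      rw [hσiso.inv.fix_coord (hσinv i hi), hx i hi]
  set b := a * (σ * a * σ⁻¹) with hb
  have hbX : b ∈ X := X.mul_mem haX (X.mul_mem (X.mul_mem hσX haX) (X.inv_mem hσX))
  have hbI : ∀ i ∈ I, b (ee F i) = ee F i := by
    intro i hi
    rw [hb, LinearEquiv.mul_apply, LinearEquiv.mul_apply, LinearEquiv.mul_apply, hσinv i hi]
    rw [fix_supported (κ := σ) hσI (x := a (ee F i)), ← LinearEquiv.mul_apply, haa]
    · rfl
    · intro k hk
      rw [hax, ee_dot, ee_dot]
      have e1 : (ee F i : ι → F) k = 0 := by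
        have : k ≠ i := fun h => hk (h ▸ hi)
        simp [ee, Pi.single_apply, this]
      simp only [Pi.sub_apply, Pi.smul_apply, smul_eq_mul, e1]
      linear_combination (-2) * orth i hi k hk
  have hbM : Mono b := hfixed b hbX i1 i2 hi12 (hbI i1 hi1) (hbI i2 hi2)
  have hev : ∀ r, r ∉ I → ∀ i ∈ I, (ee F r : ι → F) i = 0 := by
    intro r hr i hi
    have : i ≠ r := fun h => hr (h ▸ hi)
    simp [ee, Pi.single_apply, this]
  have hcard := card_moved_le h2 hbM (Submodule.span F {c, σ c}) ?_ (Iᶜ) ?_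
  · have h3 := finrank_span_pair_le c (σ c)
    have h4 : (Iᶜ).card = Fintype.card ι - I.card := Finset.card_compl I
    omega
  · intro r
    by_cases hr : r ∈ I
    · rw [hbI r hr, sub_self]; exact Submodule.zero_mem _
    · rw [hb, LinearEquiv.mul_apply, hσaσ _ (hev r hr), haV]
      · have e : ∀ α β : F, ee F r - α • σ c - β • c - ee F r = (-α) • σ c + (-β) • c := by
          intro α β; rw [neg_smul, neg_smul]; abel
        rw [e]
        exact Submodule.add_mem _ (Submodule.smul_mem _ _ (Submodule.subset_span (by simp)))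
          (Submodule.smul_mem _ _ (Submodule.subset_span (by simp)))
      · intro i hi
        rw [Pi.sub_apply, Pi.smul_apply, hσc i hi, hev r hr i hi]
        simp
  · intro r hr hbr
    rw [Finset.mem_compl] at hr
    apply hσ r hr
    have h3 := congrArg a hbr
    rw [hb, LinearEquiv.mul_apply, ← LinearEquiv.mul_apply a a, haa, LinearEquiv.coe_one, id,
      hσaσ _ (hev r hr), haV _ (hev r hr), ee_dot, ee_dot] at h3
    have h4 : (2 * N * (σ c) r) • σ c = (2 * N * c r) • c := by
      have := sub_right_inj.1 h3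
      exact this
    have h2N : 2 * N ≠ 0 := mul_ne_zero h2 hN
    have h5 : (2 * N) • ((σ c) r • σ c) = (2 * N) • (c r • c) := by
      rw [smul_smul, smul_smul]; exact h4
    exact (smul_right_injective (ι → F) h2N h5).symm

end Cfsg.Agent.H928
end

-- part: H928/FrameE
section
/-!
# Orthogonal frames V: lemmas F3, F5: a rigid group is monomial
-/

set_option autoImplicit false
set_option linter.unusedSectionVars false
set_option linter.unusedSimpArgs false
set_option linter.unusedVariables false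

namespace Cfsg.Agent.H928

open Matrix

theorem inv_mul_pow {G : Type*} [Group G] {a b : G} (ha : a * a = 1) (hb : b * b = 1) (n : ℕ) :
    a * (a * b) ^ n = ((a * b) ^ n)⁻¹ * a := by
  have ha' : a⁻¹ = a := by rw [inv_eq_iff_mul_eq_one, ha]
  have hb' : b⁻¹ = b := by rw [inv_eq_iff_mul_eq_one, hb]
  have h1 : a * (a * b) * a⁻¹ = (a * b)⁻¹ := by
    rw [_root_.mul_inv_rev, ha', hb', ← mul_assoc, ha, one_mul]
  have h2 : a * (a * b) ^ n * a⁻¹ = ((a * b) ^ n)⁻¹ := by
    rw [← conj_pow, h1, inv_pow]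
  rw [← h2]; group

theorem dihedral_even {G : Type*} [Group G] (X : Subgroup G) {a b : G} (haX : a ∈ X) (hbX : b ∈ X)
    (ha : a * a = 1) (hb : b * b = 1) {k : ℕ} (hk : (a * b) ^ (k + k) = 1) (hk1 : (a * b) ^ k ≠ 1) :
    ∃ z g, z ≠ 1 ∧ z * z = 1 ∧ Commute z a ∧ Commute z b ∧ g ∈ X ∧ z ∈ X ∧
      (a * z = g * a * g⁻¹ ∨ a * z = g * b * g⁻¹) := by
  have key := inv_mul_pow ha hb
  set c := a * b with hc
  have hcX : c ∈ X := X.mul_mem haX hbX
  have hzz : c ^ k * c ^ k = 1 := by rw [← pow_add, hk]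
  have hza : Commute (c ^ k) a := by
    have h1 := key k
    have h2 : (c ^ k)⁻¹ = c ^ k := by rw [inv_eq_iff_mul_eq_one, hzz]
    rw [h2] at h1
    exact h1.symm
  have hzc : Commute (c ^ k) c := (Commute.refl c).pow_left k
  have hb' : b = a * c := by rw [hc, ← mul_assoc, ha, one_mul]
  have hzb : Commute (c ^ k) b := by rw [hb']; exact hza.mul_right hzc
  rcases Nat.even_or_odd' k with ⟨j, hj | hj⟩
  · refine ⟨c ^ k, (c ^ j)⁻¹, hk1, hzz, hza, hzb, X.inv_mem (X.pow_mem hcX j), X.pow_mem hcX k, Or.inl ?_⟩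
    rw [hj, two_mul, pow_add, ← mul_assoc, key j, inv_inv]
  · refine ⟨c ^ k, (c ^ j)⁻¹, hk1, hzz, hza, hzb, X.inv_mem (X.pow_mem hcX j), X.pow_mem hcX k, Or.inr ?_⟩
    have e : c ^ k = c ^ j * (c * c ^ j) := by
      rw [hj, ← pow_succ', ← pow_add]; congr 1; omega
    rw [e, ← mul_assoc, key j, inv_inv, hb']
    group

theorem dihedral_odd {G : Type*} [Group G] {a b : G} (ha : a * a = 1) (hb : b * b = 1)
    (hodd : Odd (orderOf (a * b))) : ∃ j : ℕ,
      ((a * b) ^ j * a * ((a * b) ^ j)⁻¹) * a * ((a * b) ^ j * a * ((a * b) ^ j)⁻¹)⁻¹ = b := by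
  have key := inv_mul_pow ha hb
  obtain ⟨k, hk⟩ := hodd
  have hc1 : (a * b) ^ (2 * k + 1) = 1 := by rw [← hk, pow_orderOf_eq_one]
  have hab : b = (a * b)⁻¹ * a := by
    rw [_root_.mul_inv_rev]
    have hb' : b⁻¹ = b := by rw [inv_eq_iff_mul_eq_one, hb]
    rw [hb']; group
  set c := a * b with hc
  refine ⟨k * (k + 1), ?_⟩
  have e1 : ∀ j : ℕ, c ^ j * a * (c ^ j)⁻¹ = c ^ (j + j) * a := by
    intro j
    have h1 := key j
    have h2 : a * (c ^ j)⁻¹ = c ^ j * a := by
      have h3 : a * (a * c ^ j) * a = a * ((c ^ j)⁻¹ * a) * a := by rw [h1]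
      calc a * (c ^ j)⁻¹ = a * (c ^ j)⁻¹ * (a * a) := by rw [ha, mul_one]
        _ = a * ((c ^ j)⁻¹ * a) * a := by group
        _ = a * (a * c ^ j) * a := by rw [← h3]
        _ = (a * a) * c ^ j * a := by group
        _ = c ^ j * a := by rw [ha, one_mul]
    rw [mul_assoc, h2, pow_add]; group
  have e2 : c ^ (k * (k + 1) + k * (k + 1)) = c ^ k := by
    have : k * (k + 1) + k * (k + 1) = (2 * k + 1) * k + k := by ring
    rw [this, pow_add, pow_mul, hc1, one_pow, one_mul]
  have e3 : c ^ (k + k) = c⁻¹ := by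
    rw [eq_inv_iff_mul_eq_one, ← pow_succ, ← hc1]; congr 1; omega
  rw [e1, e2]
  have ha' : a⁻¹ = a := by rw [inv_eq_iff_mul_eq_one, ha]
  calc c ^ k * a * a * (c ^ k * a)⁻¹ = c ^ k * (a * a) * (a⁻¹ * (c ^ k)⁻¹) := by group
    _ = c ^ k * a * (c ^ k)⁻¹ := by rw [ha, ha', mul_one]; group
    _ = b := by rw [e1 k, e3, ← hab]

variable {ι : Type*} [Fintype ι] [DecidableEq ι] {F : Type*} [Field F]

variable {X : Subgroup ((ι → F) ≃ₗ[F] (ι → F))}

theorem conj_sg_mul_self (y : (ι → F) ≃ₗ[F] (ι → F)) (S : Finset ι) :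
    (y * sg F S * y⁻¹) * (y * sg F S * y⁻¹) = 1 := by
  have e : (y * sg F S * y⁻¹) * (y * sg F S * y⁻¹) = y * (sg F S * sg F S) * y⁻¹ := by group
  rw [e, sg_mul_self, mul_one, mul_inv_cancel]

theorem card_symmDiff_pairs {A B : Finset ι} (hA : A.card = 2) (hB : B.card = 2) :
    (symmDiff A B).card = 0 ∨ (symmDiff A B).card = 2 ∨ (symmDiff A B).card = 4 := by
  have h1 : (symmDiff A B).card = (A \ B).card + (B \ A).card := by
    rw [symmDiff_def, Finset.sup_eq_union, Finset.card_union_of_disjoint disjoint_sdiff_sdiff]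
  have h2 := Finset.card_sdiff_add_card_inter A B
  have h3 := Finset.card_sdiff_add_card_inter B A
  rw [Finset.inter_comm] at h3
  omega

theorem Rig.F3 (R : Rig X) (hfin : ∀ g ∈ X, IsOfFinOrder g) {y w : (ι → F) ≃ₗ[F] (ι → F)} (hy : y ∈ X)
    (hw : w ∈ X) {p q r s : ι} (hpq : p ≠ q) (hrs : r ≠ s) (hM : ¬ Mono (y⁻¹ * w)) :
    Odd (orderOf ((y * sg F {p, q} * y⁻¹) * (w * sg F {r, s} * w⁻¹))) := by
  classical
  by_contra hodd
  rw [Nat.not_odd_iff_even] at hodd
  set a := y * sg F {p, q} * y⁻¹ with ha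
  set b := w * sg F {r, s} * w⁻¹ with hb
  have haX : a ∈ X := X.mul_mem (X.mul_mem hy (R.hsg p q hpq)) (X.inv_mem hy)
  have hbX : b ∈ X := X.mul_mem (X.mul_mem hw (R.hsg r s hrs)) (X.inv_mem hw)
  have haa : a * a = 1 := conj_sg_mul_self _ _
  have hbb : b * b = 1 := conj_sg_mul_self _ _
  obtain ⟨k, hk⟩ := hodd
  have hpos : 0 < orderOf (a * b) := (hfin _ (X.mul_mem haX hbX)).orderOf_pos
  have hk1 : (a * b) ^ k ≠ 1 := by
    apply pow_ne_one_of_lt_orderOf <;> omega
  obtain ⟨z, g, hz1, hzz, hza, hzb, hg, hzX, hor⟩ := dihedral_even X haX hbX haa hbb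
    (by rw [← hk, pow_orderOf_eq_one]) hk1
  have hcomm : Commute a (a * z) := (Commute.refl a).mul_right hza.symm
  -- `y⁻¹ (a z) y` is a sign change on two coordinates
  obtain ⟨K, hK2, hK⟩ : ∃ K : Finset ι, K.card = 2 ∧ y⁻¹ * (a * z) * y = sg F K := by
    rcases hor with h | h
    · have e : a * z = (g * y) * sg F {p, q} * (g * y)⁻¹ := by rw [h, ha]; group
      have hm : Mono (y⁻¹ * (g * y)) := R.F4 hy (X.mul_mem hg hy) hpq hpq (e ▸ hcomm)
      obtain ⟨σ, hσ⟩ := hm
      refine ⟨Finset.image σ {p, q}, ?_, ?_⟩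
      · rw [Finset.card_image_of_injective _ σ.injective, Finset.card_pair hpq]
      · rw [← mono_mul_sg hσ, e]; group
    · have e : a * z = (g * w) * sg F {r, s} * (g * w)⁻¹ := by rw [h, hb]; group
      have hm : Mono (y⁻¹ * (g * w)) := R.F4 hy (X.mul_mem hg hw) hpq hrs (e ▸ hcomm)
      obtain ⟨σ, hσ⟩ := hm
      refine ⟨Finset.image σ {r, s}, ?_, ?_⟩
      · rw [Finset.card_image_of_injective _ σ.injective, Finset.card_pair hrs]
      · rw [← mono_mul_sg hσ, e]; group
  have hz : z = y * sg F (symmDiff {p, q} K) * y⁻¹ := by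
    rw [← sg_mul, ← hK]
    have h5 : y * (sg F {p, q} * (y⁻¹ * (a * z) * y)) * y⁻¹ = a * (a * z) := by rw [ha]; group
    rw [h5, ← mul_assoc, haa, one_mul]
  rcases card_symmDiff_pairs (Finset.card_pair hpq) hK2 with h0 | h0 | h0
  · rw [Finset.card_eq_zero] at h0
    rw [h0, sg_empty, mul_one, mul_inv_cancel] at hz
    exact hz1 hz
  · rw [Finset.card_eq_two] at h0
    obtain ⟨m, n, hmn, h0⟩ := h0
    rw [h0] at hz
    exact hM (R.F4 hy hw hmn hrs (hz ▸ hzb))
  · apply hM
    apply R.F2 (X.mul_mem (X.inv_mem hy) hw) hrs h0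
    rw [hz] at hzb
    have h3 : Commute (w * sg F {r, s} * w⁻¹) (y * sg F (symmDiff {p, q} K) * y⁻¹) := hzb.symm
    have h4 : Commute (y⁻¹ * (w * sg F {r, s} * w⁻¹) * y) (sg F (symmDiff {p, q} K)) := by
      have := (commute_conj_iff.1 h3.symm).symm
      exact this
    have e : y⁻¹ * w * sg F {r, s} * (y⁻¹ * w)⁻¹ = y⁻¹ * (w * sg F {r, s} * w⁻¹) * y := by group
    rw [e]; exact h4

/-- the involution conjugating `t_ij` to `y t_kl y⁻¹` -/
theorem Rig.exists_inv (R : Rig X) (hfin : ∀ g ∈ X, IsOfFinOrder g) {y : (ι → F) ≃ₗ[F] (ι → F)} (hy : y ∈ X)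
    (hM : ¬ Mono y) {i j k l : ι} (hij : i ≠ j) (hkl : k ≠ l) :
    ∃ g ∈ X, ¬ Mono (g * sg F {i, j} * g⁻¹) ∧
      (g * sg F {i, j} * g⁻¹) * sg F {i, j} * (g * sg F {i, j} * g⁻¹)⁻¹ = y * sg F {k, l} * y⁻¹ := by
  have h1 := R.F3 hfin X.one_mem hy hij hkl (by simpa using hM)
  rw [one_mul, inv_one, mul_one] at h1
  obtain ⟨n, hn⟩ := dihedral_odd (sg_mul_self _) (conj_sg_mul_self _ _) h1
  refine ⟨(sg F {i, j} * (y * sg F {k, l} * y⁻¹)) ^ n, ?_, ?_, hn⟩
  · exact X.pow_mem (X.mul_mem (R.hsg i j hij) (X.mul_mem (X.mul_mem hy (R.hsg k l hkl)) (X.inv_mem hy))) n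
  · intro h
    apply hM
    apply R.F1 hy hkl
    rw [← hn]
    exact (h.mul (sg_mono _)).mul h.inv

theorem apply_conj_sg_sub_mem {y : (ι → F) ≃ₗ[F] (ι → F)} (hy : IsIso y) {p q : ι} (hpq : p ≠ q) (x : ι → F) :
    (y * sg F {p, q} * y⁻¹) x - x ∈ Submodule.span F ({y (ee F p), y (ee F q)} : Set (ι → F)) := by
  rw [conj_sg_apply hy hpq]
  have e1 : x - (2 * (x ⬝ᵥ y (ee F p))) • y (ee F p)
    - (2 * (x ⬝ᵥ y (ee F q))) • y (ee F q) - x =
    (- (2 * (x ⬝ᵥ y (ee F p)))) • y (ee F p) + (- (2 * (x ⬝ᵥ y (ee F q)))) • y (ee F q) := by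
    rw [neg_smul, neg_smul]; abel
  rw [e1]
  exact Submodule.add_mem _ (Submodule.smul_mem _ _ (Submodule.subset_span (by simp)))
    (Submodule.smul_mem _ _ (Submodule.subset_span (by simp)))

theorem conj_sg_apply_mem {y : (ι → F) ≃ₗ[F] (ι → F)} (hy : IsIso y) {p q : ι} (hpq : p ≠ q) {x : ι → F}
    (hx : x ∈ Submodule.span F ({y (ee F p), y (ee F q)} : Set (ι → F))) :
    (y * sg F {p, q} * y⁻¹) x = - x := by
  obtain ⟨α, β, rfl⟩ := Submodule.mem_span_pair.1 hx
  rw [LinearEquiv.mul_apply, LinearEquiv.mul_apply]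
  have e : y⁻¹ (α • y (ee F p) + β • y (ee F q)) = α • ee F p + β • ee F q := by
    rw [← map_smul, ← map_smul, ← map_add, ← LinearEquiv.mul_apply, inv_mul_cancel]; rfl
  rw [e, map_add, map_smul, map_smul, sg_ee_mem (by simp), sg_ee_mem (by simp)]
  simp only [map_add, map_smul, map_neg, smul_neg]
  abel

theorem mono_pow_apply {b : (ι → F) ≃ₗ[F] (ι → F)} {β : Equiv.Perm ι}
    (hβ : ∀ i, b (ee F i) = ee F (β i) ∨ b (ee F i) = - ee F (β i)) (n : ℕ) (i : ι) :
    (b ^ n) (ee F i) = ee F ((β ^ n) i) ∨ (b ^ n) (ee F i) = - ee F ((β ^ n) i) := by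
  induction n generalizing i with
  | zero => left; rfl
  | succ n ih =>
    rw [pow_succ, LinearEquiv.mul_apply, pow_succ, Equiv.Perm.mul_apply]
    rcases hβ i with h | h <;> rw [h]
    · exact ih (β i)
    · rw [map_neg]
      rcases ih (β i) with h' | h' <;> rw [h']
      · right; rfl
      · left; rw [neg_neg]

theorem perm_pow_eq_one (h2 : (2 : F) ≠ 0) {b : (ι → F) ≃ₗ[F] (ι → F)} {β : Equiv.Perm ι}
    (hβ : ∀ i, b (ee F i) = ee F (β i) ∨ b (ee F i) = - ee F (β i)) {n : ℕ} (hn : b ^ n = 1) (i : ι) :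
    (β ^ n) i = i := by
  symm
  apply ee_inj_or h2 (F := F)
  have h := mono_pow_apply hβ n i
  rw [hn] at h
  exact h

/-- **Part I**: a rigid group is monomial. -/
theorem Rig.mono_all (R : Rig X) (hfin : ∀ g ∈ X, IsOfFinOrder g) : ∀ x ∈ X, Mono x := by
  classical
  intro x hx
  by_contra hM
  have hn := R.card
  have h2 := R.two
  obtain ⟨i, _, _⟩ := exists_not_mem_of_card (J := (∅ : Finset ι)) (n := 0) (by rw [Finset.card_empty]; omega)
    (∅ : Finset ι) (by simp)
  obtain ⟨j, _, hj⟩ := exists_not_mem_of_card (J := (∅ : Finset ι)) (n := 1) (by rw [Finset.card_empty]; omega)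
    ({i} : Finset ι) (by simp)
  obtain ⟨k, _, hk⟩ := exists_not_mem_of_card (J := (∅ : Finset ι)) (n := 2) (by rw [Finset.card_empty]; omega)
    ({i, j} : Finset ι) (Finset.card_le_two)
  obtain ⟨l, _, hl⟩ := exists_not_mem_of_card (J := (∅ : Finset ι)) (n := 3) (by rw [Finset.card_empty]; omega)
    ({i, j, k} : Finset ι) (Finset.card_le_three)
  simp only [Finset.mem_insert, Finset.mem_singleton, not_or] at hj hk hl
  have hij : i ≠ j := Ne.symm hj
  have hik : i ≠ k := Ne.symm hk.1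
  have hjk : j ≠ k := Ne.symm hk.2
  have hil : i ≠ l := Ne.symm hl.1
  have hjl : j ≠ l := Ne.symm hl.2.1
  have hkl : k ≠ l := Ne.symm hl.2.2
  obtain ⟨g0, hg0, hM0, hs0⟩ := R.exists_inv hfin hx hM hij hij
  have hI0 := R.iso g0 hg0
  have hMg0 : ¬ Mono g0 := fun h => hM0 ((h.mul (sg_mono _)).mul h.inv)
  have hs0X : g0 * sg F {i, j} * g0⁻¹ ∈ X := X.mul_mem (X.mul_mem hg0 (R.hsg i j hij)) (X.inv_mem hg0)
  obtain ⟨g, hg, hM1, hs1⟩ := R.exists_inv hfin hs0X hM0 hij hkl
  have hIg := R.iso g hg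
  have hs00 := conj_sg_mul_self g0 ({i, j} : Finset ι)
  have hss := conj_sg_mul_self g ({i, j} : Finset ι)
  have hsX : g * sg F {i, j} * g⁻¹ ∈ X := X.mul_mem (X.mul_mem hg (R.hsg i j hij)) (X.inv_mem hg)
  have hW0 : ∀ z, (g0 * sg F {i, j} * g0⁻¹) z - z ∈ Submodule.span F ({g0 (ee F i), g0 (ee F j)} : Set (ι → F)) :=
    apply_conj_sg_sub_mem hI0 hij
  have hW1 : ∀ z, (g * sg F {i, j} * g⁻¹) z - z ∈ Submodule.span F ({g (ee F i), g (ee F j)} : Set (ι → F)) :=
    apply_conj_sg_sub_mem hIg hij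
  have hW0n : ∀ z, z ∈ Submodule.span F ({g0 (ee F i), g0 (ee F j)} : Set (ι → F)) →
      (g0 * sg F {i, j} * g0⁻¹) z = - z := fun z hz => conj_sg_apply_mem hI0 hij hz
  have hW1n : ∀ z, z ∈ Submodule.span F ({g (ee F i), g (ee F j)} : Set (ι → F)) →
      (g * sg F {i, j} * g⁻¹) z = - z := fun z hz => conj_sg_apply_mem hIg hij hz
  have hf0 := finrank_span_pair_le (g0 (ee F i)) (g0 (ee F j))
  have hf1 := finrank_span_pair_le (g (ee F i)) (g (ee F j))
  have hodd' : ¬ Mono (g0⁻¹ * g) → Odd (orderOf ((g0 * sg F {i, j} * g0⁻¹) * (g * sg F {i, j} * g⁻¹))) :=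
    fun h => R.F3 hfin hg0 hg hij hij h
  have hcf : Mono (g0⁻¹ * g) → ∃ K : Finset ι, K.card = 2 ∧
      (g0 * sg F {i, j} * g0⁻¹) * (g * sg F {i, j} * g⁻¹) = g0 * sg F (symmDiff {i, j} K) * g0⁻¹ := by
    rintro ⟨σ, hσ⟩
    refine ⟨Finset.image σ {i, j}, ?_, ?_⟩
    · rw [Finset.card_image_of_injective _ σ.injective, Finset.card_pair hij]
    · rw [← sg_mul, ← mono_mul_sg hσ]; group
  generalize hW0' : Submodule.span F ({g0 (ee F i), g0 (ee F j)} : Set (ι → F)) = W0 at *
  generalize hW1' : Submodule.span F ({g (ee F i), g (ee F j)} : Set (ι → F)) = W1 at *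
  have hdef0 : ∀ m n, m ≠ n → Mono (g0 * sg F {m, n} * g0⁻¹) → False :=
    fun m n hmn h => hMg0 (R.F1 hg0 hmn h)
  have hF2g0 : ∀ m n, m ≠ n → ∀ I : Finset ι, I.card = 4 → Commute (sg F {m, n}) (g0 * sg F I * g0⁻¹) → False := by
    intro m n hmn I hI h
    apply hMg0
    rw [← mono_inv_iff]
    apply R.F2 (X.inv_mem hg0) hmn hI
    rw [inv_inv]
    exact (commute_conj_iff.1 h.symm).symm
  generalize hs0d : g0 * sg F {i, j} * g0⁻¹ = s0 at *
  generalize hs1d : g * sg F {i, j} * g⁻¹ = s at *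
  have hs0inv : s0⁻¹ = s0 := by rw [inv_eq_iff_mul_eq_one, hs00]
  have hsinv : s⁻¹ = s := by rw [inv_eq_iff_mul_eq_one, hss]
  -- b
  have hbX : s0 * s ∈ X := X.mul_mem hs0X hsX
  have hbconj : (s0 * s) * sg F {i, j} * (s0 * s)⁻¹ = sg F {k, l} := by
    have e : (s0 * s) * sg F {i, j} * (s0 * s)⁻¹ = s0 * (s * sg F {i, j} * s⁻¹) * s0⁻¹ := by group
    rw [e, hs1]
    have e' : s0 * (s0 * sg F {k, l} * s0⁻¹) * s0⁻¹ = (s0 * s0) * sg F {k, l} * (s0 * s0)⁻¹ := by group
    rw [e', hs00, one_mul, inv_one, mul_one]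
  have hbM : Mono (s0 * s) := R.F1 hbX hij (by rw [hbconj]; exact sg_mono _)
  have hbI := R.iso _ hbX
  have hMb := hbM
  obtain ⟨β, hβ⟩ := hbM
  have himg : Finset.image β {i, j} = {k, l} := by
    apply sg_injective h2
    rw [← mono_mul_sg hβ, hbconj]
  have hβi : β i = k ∨ β i = l := by
    have : β i ∈ Finset.image β {i, j} := Finset.mem_image_of_mem _ (by simp)
    rw [himg] at this
    simpa using this
  have hβj : β j = k ∨ β j = l := by
    have : β j ∈ Finset.image β {i, j} := Finset.mem_image_of_mem _ (by simp)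
    rw [himg] at this
    simpa using this
  have hβi' : β i ≠ i := by
    rcases hβi with h | h <;> rw [h]
    · exact Ne.symm hik
    · exact Ne.symm hil
  have hβj' : β j ≠ j := by
    rcases hβj with h | h <;> rw [h]
    · exact Ne.symm hjk
    · exact Ne.symm hjl
  have hne : ({i, j} : Finset ι) ≠ {k, l} := by
    intro h
    have : i ∈ ({k, l} : Finset ι) := by rw [← h]; simp
    simp only [Finset.mem_insert, Finset.mem_singleton] at this
    rcases this with h | h
    · exact hik h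
    · exact hil h
  -- not a common frame
  have hodd : Odd (orderOf (s0 * s)) := by
    apply hodd'
    intro hm
    obtain ⟨K, hK2, hK⟩ := hcf hm
    rcases card_symmDiff_pairs (Finset.card_pair hij) hK2 with h0 | h0 | h0
    · rw [Finset.card_eq_zero] at h0
      rw [h0, sg_empty, mul_one, mul_inv_cancel] at hK
      rw [hK, one_mul, inv_one, mul_one] at hbconj
      exact hne (sg_injective h2 hbconj)
    · rw [Finset.card_eq_two] at h0
      obtain ⟨m, n, hmn, h0⟩ := h0
      rw [h0] at hK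
      exact hdef0 m n hmn (hK ▸ hMb)
    · apply hF2g0 i (β i) (Ne.symm hβi') _ h0
      rw [← hK]
      have hbb : (s0 * s) * (s0 * s) = 1 := by rw [hK]; exact conj_sg_mul_self _ _
      have hββ : β (β i) = i := by
        have e1 : (s0 * s) ((s0 * s) (ee F i)) = ee F i := by
          rw [← LinearEquiv.mul_apply, hbb]; rfl
        symm
        apply ee_inj_or h2 (F := F)
        rw [← e1]
        rcases hβ i with h | h <;> rw [h]
        · exact hβ (β i)
        · rw [map_neg]
          rcases hβ (β i) with h' | h' <;> rw [h']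
          · right; rfl
          · left; rw [neg_neg]
      have e2 := mono_mul_sg hβ ({i, β i} : Finset ι)
      rw [Finset.image_insert, Finset.image_singleton, hββ, Finset.pair_comm (β i) i] at e2
      exact (mul_inv_eq_iff_eq_mul.1 e2).symm
  -- the fixed coordinates of `s0`
  set J0 : Finset ι := Finset.univ.filter (fun u => s0 (ee F u) ≠ ee F u) with hJ0
  have hs0I := R.iso s0 hs0X
  have hJ0card : Fintype.card ι ≤ J0.card + 1 := by
    by_contra hlt
    obtain ⟨u, huJ, _⟩ := exists_not_mem_of_card (J := J0) (n := 0) (by omega) (∅ : Finset ι) (by simp)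
    obtain ⟨v, hvJ, hv⟩ := exists_not_mem_of_card (J := J0) (n := 1) (by omega) ({u} : Finset ι) (by simp)
    rw [Finset.mem_singleton] at hv
    have fixof : ∀ u, u ∉ J0 → s0 (ee F u) = ee F u := by
      intro u hu
      by_contra h
      exact hu (Finset.mem_filter.2 ⟨Finset.mem_univ _, h⟩)
    apply hM0
    apply R.H s0 hs0X u v (Ne.symm hv)
    apply comm_sg_of_pm hs0I
    intro j hj
    simp only [Finset.mem_insert, Finset.mem_singleton] at hj
    rcases hj with rfl | rfl
    · exact Or.inl (fixof _ huJ)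
    · exact Or.inl (fixof _ hvJ)
  have hbW : ∀ z, (s0 * s) z - z ∈ W0 ⊔ W1 := by
    intro z
    have e : (s0 * s) z - z = (s0 (s z) - s z) + (s z - z) := by rw [LinearEquiv.mul_apply]; abel
    rw [e]
    exact Submodule.add_mem_sup (hW0 _) (hW1 _)
  have hsum := Submodule.finrank_sup_add_finrank_inf_eq W0 W1
  set Sb : Finset ι := Finset.univ.filter (fun u => (s0 * s) (ee F u) ≠ ee F u) with hSb
  obtain ⟨m, hm⟩ := hodd
  have hpow : (s0 * s) ^ (2 * m + 1) = 1 := by rw [← hm, pow_orderOf_eq_one]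
  by_cases hinf : W0 ⊓ W1 = ⊥
  · have hsub : J0 ⊆ Sb := by
      intro u hu
      have hu' := (Finset.mem_filter.1 hu).2
      refine Finset.mem_filter.2 ⟨Finset.mem_univ _, fun h => hu' ?_⟩
      have e1 : s (ee F u) = s0 (ee F u) := by
        have : s0 ((s0 * s) (ee F u)) = s0 (ee F u) := by rw [h]
        rw [← LinearEquiv.mul_apply, ← mul_assoc, hs00, one_mul] at this
        exact this
      have e2 : s0 (ee F u) - ee F u ∈ W0 ⊓ W1 := by
        refine Submodule.mem_inf.2 ⟨hW0 _, ?_⟩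
        rw [← e1]; exact hW1 _
      rw [hinf, Submodule.mem_bot] at e2
      exact sub_eq_zero.1 e2
    have hββ : β (β i) ≠ i := by
      intro hββ
      have h3 := perm_pow_eq_one h2 hβ hpow i
      have h4 : (β ^ 2) i = i := by rw [pow_two, Equiv.Perm.mul_apply, hββ]
      have h5 : ∀ m : ℕ, (β ^ (2 * m)) i = i := by
        intro m
        induction m with
        | zero => rfl
        | succ m ih => rw [Nat.mul_succ, pow_add, Equiv.Perm.mul_apply, h4, ih]
      rw [pow_succ', Equiv.Perm.mul_apply, h5 m] at h3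
      exact hβi' h3
    have hβ3 : β i ≠ β (β i) := fun h => hβi' (β.injective h).symm
    have key := card_lt_of_three (W0 ⊔ W1) Sb ?_ (u1 := i) (u2 := β i) (u3 := β (β i)) (Ne.symm hβi')
      (Ne.symm hββ) hβ3 (w1 := (s0 * s) (ee F i) - ee F i) (w2 := (s0 * s) (ee F (β i)) - ee F (β i))
      (hbW _) (hbW _) ?_ ?_ ?_ ?_
    · have := Finset.card_le_card hsub
      omega
    · intro u hu
      have hu' := (Finset.mem_filter.1 hu).2
      refine ⟨(s0 * s) (ee F u) - ee F u, hbW _, ?_, β u, ?_⟩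
      · by_cases hσk : β u = u
        · rcases hβ u with h | h
          · rw [hσk] at h; exact absurd h hu'
          · rw [hσk] at h
            rw [h, Pi.sub_apply, Pi.neg_apply]
            simp only [ee, Pi.single_eq_same]
            intro h'
            exact h2 (by linear_combination -h')
        · rcases hβ u with h | h <;> rw [h] <;>
            simp [ee, Pi.single_apply, Ne.symm hσk]
      · intro c hck hcs
        rcases hβ u with h | h <;> rw [h] <;>
            simp [ee, Pi.single_apply, hck, hcs]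
    · rcases hβ i with h | h <;> rw [h] <;>
        simp [ee, Pi.single_apply, Ne.symm hβi']
    · intro c hc1 hc2
      rcases hβ i with h | h <;> rw [h] <;>
        simp [ee, Pi.single_apply, hc1, hc2]
    · rcases hβ (β i) with h | h <;> rw [h] <;>
        simp [ee, Pi.single_apply, hβ3]
    · intro c hc1 hc2
      rcases hβ (β i) with h | h <;> rw [h] <;>
        simp [ee, Pi.single_apply, hc1, hc2]
  · obtain ⟨w0, hw0, hw0ne⟩ := Submodule.exists_mem_ne_zero_of_ne_bot hinf
    have hw00 := (Submodule.mem_inf.1 hw0).1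
    have hw01 := (Submodule.mem_inf.1 hw0).2
    have hpos : 1 ≤ Module.finrank F ↥(W0 ⊓ W1) := by
      rw [Nat.one_le_iff_ne_zero]
      intro h
      exact hinf (Submodule.finrank_eq_zero.1 h)
    -- the functional w0·
    let φ : (ι → F) →ₗ[F] F := dotProductBilin F F w0
    have hφ : ∀ z, φ z = w0 ⬝ᵥ z := fun z => rfl
    have hlt : Module.finrank F ↥((W0 ⊔ W1) ⊓ LinearMap.ker φ) < Module.finrank F ↥(W0 ⊔ W1) := by
      apply Submodule.finrank_lt_finrank_of_lt
      refine lt_of_le_of_ne inf_le_left ?_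
      intro h
      apply hw0ne
      have h0 : ∀ z, z ∈ W0 → w0 ⬝ᵥ z = 0 := by
        intro z hz
        have : z ∈ (W0 ⊔ W1) ⊓ LinearMap.ker φ := by
          rw [h]; exact Submodule.mem_sup_left hz
        exact LinearMap.mem_ker.1 (Submodule.mem_inf.1 this).2
      funext c
      rw [Pi.zero_apply, ← dot_ee w0 c]
      have e1 := h0 _ (hW0 (ee F c))
      rw [dotProduct_sub] at e1
      have e2 : w0 ⬝ᵥ s0 (ee F c) = - (w0 ⬝ᵥ ee F c) := by
        have h3 := hs0I w0 (ee F c)
        rw [hW0n w0 hw00, neg_dotProduct] at h3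
        rw [← h3, neg_neg]
      rw [e2] at e1
      have h' : 2 * (w0 ⬝ᵥ ee F c) = 0 := by linear_combination -e1
      exact (mul_eq_zero.1 h').resolve_left h2
    have hbw0 : (s0 * s) w0 = w0 := by
      rw [LinearEquiv.mul_apply, hW1n w0 hw01, map_neg, hW0n w0 hw00, neg_neg]
    have hbU : ∀ z, (s0 * s) (ee F z) - ee F z ∈ (W0 ⊔ W1) ⊓ LinearMap.ker φ := by
      intro z
      refine Submodule.mem_inf.2 ⟨hbW _, ?_⟩
      rw [LinearMap.mem_ker, hφ, dotProduct_sub]
      have h3 := hbI w0 (ee F z)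
      rw [hbw0] at h3
      rw [h3, sub_self]
    have hSb4 := card_moved_le h2 hMb _ hbU Sb (fun u hu => (Finset.mem_filter.1 hu).2)
    have hSb4' : Sb.card ≤ 4 := by omega
    have hmoved : ∀ u, β u ≠ u → u ∈ Sb := by
      intro u hu
      refine Finset.mem_filter.2 ⟨Finset.mem_univ _, fun h => hu ?_⟩
      symm
      apply ee_inj_or h2 (F := F)
      rcases hβ u with h' | h'
      · left; rw [← h', h]
      · right; rw [← h', h]
    have hβk' : β k ≠ k := by
      intro h
      have : k ∈ Finset.image β {i, j} := by rw [himg]; simp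
      simp only [Finset.mem_image, Finset.mem_insert, Finset.mem_singleton] at this
      obtain ⟨c, hc, hck⟩ := this
      have hck' : c = k := β.injective (hck.trans h.symm)
      rcases hc with rfl | rfl
      · exact hik hck'
      · exact hjk hck'
    have hβl' : β l ≠ l := by
      intro h
      have : l ∈ Finset.image β {i, j} := by rw [himg]; simp
      simp only [Finset.mem_image, Finset.mem_insert, Finset.mem_singleton] at this
      obtain ⟨c, hc, hck⟩ := this
      have hck' : c = l := β.injective (hck.trans h.symm)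
      rcases hc with rfl | rfl
      · exact hil hck'
      · exact hjl hck'
    have h4set : ({i, j, k, l} : Finset ι) = Sb := by
      apply Finset.eq_of_subset_of_card_le
      · intro u hu
        simp only [Finset.mem_insert, Finset.mem_singleton] at hu
        rcases hu with rfl | rfl | rfl | rfl
        · exact hmoved _ hβi'
        · exact hmoved _ hβj'
        · exact hmoved _ hβk'
        · exact hmoved _ hβl'
      · have : ({i, j, k, l} : Finset ι).card = 4 := by
          rw [Finset.card_insert_of_notMem, Finset.card_insert_of_notMem, Finset.card_pair hkl]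
          · simp [hjk, hjl]
          · simp [hij, hik, hil]
        omega
    have hfixo : ∀ u, u ∉ ({i, j, k, l} : Finset ι) → β u = u := by
      intro u hu
      by_contra h
      exact hu (h4set ▸ hmoved u h)
    have hβset : ∀ u, u = k ∨ u = l → β u = i ∨ β u = j := by
      intro u hu
      have hui : u ≠ i ∧ u ≠ j := by
        rcases hu with rfl | rfl
        · exact ⟨Ne.symm hik, Ne.symm hjk⟩
        · exact ⟨Ne.symm hil, Ne.symm hjl⟩
      by_contra hno
      push Not at hno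
      have hβu' : β u ≠ u := by
        rcases hu with rfl | rfl <;> assumption
      by_cases hin : β u ∈ ({i, j, k, l} : Finset ι)
      · simp only [Finset.mem_insert, Finset.mem_singleton] at hin
        have hin' : β u ∈ Finset.image β {i, j} := by
          rw [himg]
          simp only [Finset.mem_insert, Finset.mem_singleton]
          rcases hin with h | h | h | h
          · exact absurd h hno.1
          · exact absurd h hno.2
          · exact Or.inl h
          · exact Or.inr h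
        simp only [Finset.mem_image, Finset.mem_insert, Finset.mem_singleton] at hin'
        obtain ⟨c, hc, hcu⟩ := hin'
        have hcu' : c = u := β.injective hcu
        rcases hc with rfl | rfl
        · exact hui.1 hcu'.symm
        · exact hui.2 hcu'.symm
      · exact hβu' (β.injective (hfixo _ hin))
    have himg2 : Finset.image (⇑(β ^ 2)) ({i, j} : Finset ι) = {i, j} := by
      apply Finset.eq_of_subset_of_card_le
      · intro u hu
        simp only [Finset.mem_image, Finset.mem_insert, Finset.mem_singleton] at hu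
        obtain ⟨c, hc, hcu⟩ := hu
        rw [pow_two, Equiv.Perm.mul_apply] at hcu
        simp only [Finset.mem_insert, Finset.mem_singleton]
        rw [← hcu]
        rcases hc with rfl | rfl
        · exact hβset _ hβi
        · exact hβset _ hβj
      · rw [Finset.card_image_of_injective _ (β ^ 2).injective]
    have hcomm2 : Commute ((s0 * s) ^ 2) (sg F {i, j}) := by
      have e2 := mono_mul_sg (mono_pow_apply hβ 2) ({i, j} : Finset ι)
      rw [himg2] at e2
      exact mul_inv_eq_iff_eq_mul.1 e2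
    have hb : s0 * s = ((s0 * s) ^ 2) ^ (m + 1) := by
      have : (s0 * s) ^ (2 * m + 1 + 1) = s0 * s := by rw [pow_succ, hpow, one_mul]
      rw [← pow_mul, ← this]
      conv_lhs => rw [this]
      rw [show 2 * (m + 1) = 2 * m + 1 + 1 by ring, this]
      rw [this]
    have hcomm1 : Commute (s0 * s) (sg F {i, j}) := by
      rw [hb]; exact hcomm2.pow_left (m + 1)
    apply hne
    apply sg_injective h2
    rw [← hbconj]
    exact (mul_inv_eq_iff_eq_mul.2 hcomm1.eq).symm

end Cfsg.Agent.H928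
end

-- part: H928/FrameF
section
/-!
# Orthogonal frames VI: roots; if all roots have support at most two, the group is rigid
-/

set_option autoImplicit false
set_option linter.unusedSectionVars false
set_option linter.unusedSimpArgs false
set_option linter.unusedVariables false

namespace Cfsg.Agent.H928

open Matrix

variable {ι : Type*} [Fintype ι] [DecidableEq ι] {F : Type*} [Field F]

/-- the reflection in a vector of norm one -/
noncomputable def rf (u : ι → F) : (ι → F) ≃ₗ[F] (ι → F) :=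
  open Classical in
  if h : u ⬝ᵥ u = 1 then
    LinearEquiv.ofInvolutive
      (LinearMap.id - (2 : F) • (dotProductBilin F F u).smulRight u) (by
        intro x
        simp only [LinearMap.sub_apply, LinearMap.id_apply, LinearMap.smul_apply, LinearMap.smulRight_apply]
        have e : ∀ y : ι → F, (dotProductBilin F F u) y = u ⬝ᵥ y := fun y => rfl
        rw [e, e, dotProduct_sub, dotProduct_smul, dotProduct_smul, h]
        module)
  else 1

theorem rf_apply {u : ι → F} (h : u ⬝ᵥ u = 1) (x : ι → F) : rf u x = x - (2 * (x ⬝ᵥ u)) • u := by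
  rw [rf, dif_pos h]
  show x - (2 : F) • ((u ⬝ᵥ x) • u) = _
  rw [smul_smul, dotProduct_comm u x]

theorem rf_isIso {u : ι → F} (h : u ⬝ᵥ u = 1) : IsIso (rf u) := by
  intro x y
  rw [rf_apply h, rf_apply h]
  simp only [sub_dotProduct, dotProduct_sub, smul_dotProduct, dotProduct_smul, smul_eq_mul, h]
  rw [dotProduct_comm u y]
  ring

theorem rf_mul_self {u : ι → F} (h : u ⬝ᵥ u = 1) : rf u * rf u = 1 := by
  apply LinearEquiv.ext
  intro x
  rw [LinearEquiv.mul_apply, rf_apply h, rf_apply h, sub_dotProduct, smul_dotProduct, h]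
  show _ = x
  simp only [smul_eq_mul, mul_one]
  module

theorem rf_inv {u : ι → F} (h : u ⬝ᵥ u = 1) : (rf u)⁻¹ = rf u := by
  rw [inv_eq_iff_mul_eq_one, rf_mul_self h]

theorem IsIso.map_rf {g : (ι → F) ≃ₗ[F] (ι → F)} (hg : IsIso g) {u : ι → F} (h : u ⬝ᵥ u = 1) :
    rf (g u) = g * rf u * g⁻¹ := by
  have h' : g u ⬝ᵥ g u = 1 := by rw [hg, h]
  apply LinearEquiv.ext
  intro x
  rw [rf_apply h', LinearEquiv.mul_apply, LinearEquiv.mul_apply, rf_apply h, map_sub, map_smul]
  rw [← LinearEquiv.mul_apply g g⁻¹, mul_inv_cancel]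
  have e : g⁻¹ x ⬝ᵥ u = x ⬝ᵥ g u := by
    rw [← hg (g⁻¹ x) u, ← LinearEquiv.mul_apply g g⁻¹, mul_inv_cancel]; rfl
  rw [e]; rfl

theorem rf_neg {u : ι → F} (h : u ⬝ᵥ u = 1) : rf (-u) = rf u := by
  have h' : (-u) ⬝ᵥ (-u) = 1 := by rw [neg_dotProduct, dotProduct_neg, neg_neg, h]
  apply LinearEquiv.ext
  intro x
  rw [rf_apply h, rf_apply h', dotProduct_neg]
  module

theorem ee_norm (k : ι) : (ee F k : ι → F) ⬝ᵥ ee F k = 1 := by rw [dot_ee]; simp [ee]

theorem ee_same (k : ι) : (ee F k : ι → F) k = 1 := by simp [ee]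

theorem ee_ne {i k : ι} (h : i ≠ k) : (ee F k : ι → F) i = 0 := by simp [ee, Pi.single_apply, h]

theorem rf_ee (k : ι) : rf (ee F k) = sg F {k} := by
  apply LinearEquiv.ext
  intro x
  rw [rf_apply (ee_norm k), dot_ee]
  funext j
  rw [Pi.sub_apply, Pi.smul_apply, smul_eq_mul, sg_apply]
  by_cases h : j = k
  · subst h; simp [ee]; ring
  · simp [ee, Pi.single_apply, h]

/-- roots of `X` -/
def Root (X : Subgroup ((ι → F) ≃ₗ[F] (ι → F))) (u : ι → F) : Prop :=
  u ⬝ᵥ u = 1 ∧ ∀ k, rf u * rf (ee F k) ∈ X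

/-- the basic situation -/
structure Base (X : Subgroup ((ι → F) ≃ₗ[F] (ι → F))) : Prop where
  two : (2 : F) ≠ 0
  iso : ∀ g ∈ X, IsIso g
  hsg : ∀ i j, i ≠ j → sg F {i, j} ∈ X
  hc3 : ∀ i j k, i ≠ j → i ≠ k → j ≠ k → c3 F i j k ∈ X

variable {X : Subgroup ((ι → F) ≃ₗ[F] (ι → F))}

theorem sg_single_mul {k l : ι} (h : k ≠ l) : sg F {k} * sg F {l} = sg F {k, l} := by
  rw [sg_mul]
  congr 1
  ext c
  simp only [Finset.mem_symmDiff, Finset.mem_singleton, Finset.mem_insert]
  constructor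
  · rintro (⟨h1, _⟩ | ⟨h1, _⟩)
    · exact Or.inl h1
    · exact Or.inr h1
  · rintro (rfl | rfl)
    · exact Or.inl ⟨rfl, h⟩
    · exact Or.inr ⟨rfl, Ne.symm h⟩

theorem Base.rfee (B : Base X) (k l : ι) : rf (ee F k) * rf (ee F l) ∈ X := by
  rw [rf_ee, rf_ee]
  by_cases h : k = l
  · subst h; rw [sg_mul_self]; exact X.one_mem
  · rw [sg_single_mul h]; exact B.hsg k l h

theorem Base.root_of (B : Base X) {u : ι → F} (h : u ⬝ᵥ u = 1) {k : ι} (hk : rf u * rf (ee F k) ∈ X) :
    Root X u := by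
  refine ⟨h, fun l => ?_⟩
  have e : rf u * rf (ee F l) = (rf u * rf (ee F k)) * (rf (ee F k) * rf (ee F l)) := by
    calc rf u * rf (ee F l) = rf u * 1 * rf (ee F l) := by rw [mul_one]
      _ = rf u * (rf (ee F k) * rf (ee F k)) * rf (ee F l) := by rw [rf_mul_self (ee_norm k)]
      _ = _ := by simp only [mul_assoc]
  rw [e]
  exact X.mul_mem hk (B.rfee k l)

theorem Base.root_ee (B : Base X) (i : ι) : Root X (ee F i) := ⟨ee_norm i, fun k => B.rfee i k⟩

theorem Root.neg {u : ι → F} (h : Root X u) : Root X (-u) := by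
  refine ⟨by rw [neg_dotProduct, dotProduct_neg, neg_neg, h.1], fun k => ?_⟩
  rw [rf_neg h.1]; exact h.2 k

theorem Base.mul_mem_of_roots (B : Base X) {u v : ι → F} (hu : Root X u) (hv : Root X v) [Nonempty ι] :
    rf u * rf v ∈ X := by
  obtain ⟨k⟩ := ‹Nonempty ι›
  have e : rf u * rf v = (rf u * rf (ee F k)) * (rf v * rf (ee F k))⁻¹ := by
    rw [_root_.mul_inv_rev, rf_inv hv.1]; group
  rw [e]
  exact X.mul_mem (hu.2 k) (X.inv_mem (hv.2 k))

/-- roots are closed under conjugation by elements of `X` normalising a root reflection -/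
theorem Base.root_map' (B : Base X) {g : (ι → F) ≃ₗ[F] (ι → F)} (hg : g ∈ X) {u v : ι → F}
    (hu : Root X u) (hv : Root X v) (hgv : Root X (g v)) : Root X (g u) := by
  have hI := B.iso g hg
  by_cases hne : Nonempty ι
  · obtain ⟨k⟩ := hne
    haveI : Nonempty ι := ⟨k⟩
    refine B.root_of (k := k) (by rw [hI, hu.1]) ?_
    have e : rf (g u) * rf (ee F k) = (g * (rf u * rf v) * g⁻¹) * (rf (g v) * rf (ee F k)) := by
      rw [hI.map_rf hu.1, hI.map_rf hv.1]
      have h1 := rf_mul_self hv.1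
      calc g * rf u * g⁻¹ * rf (ee F k) = g * rf u * 1 * g⁻¹ * rf (ee F k) := by rw [mul_one]
        _ = g * rf u * (rf v * rf v) * g⁻¹ * rf (ee F k) := by rw [h1]
        _ = _ := by group
    rw [e]
    exact X.mul_mem (X.mul_mem (X.mul_mem hg (B.mul_mem_of_roots hu hv)) (X.inv_mem hg)) (hgv.2 k)
  · exact ⟨by rw [hI, hu.1], fun k => absurd ⟨k⟩ hne⟩

theorem Base.root_map (B : Base X) {g : (ι → F) ≃ₗ[F] (ι → F)} (hg : g ∈ X) {m : ι}
    (hm : g (ee F m) = ee F m ∨ g (ee F m) = - ee F m) {u : ι → F} (hu : Root X u) : Root X (g u) := by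
  apply B.root_map' hg hu (B.root_ee m)
  rcases hm with h | h <;> rw [h]
  · exact B.root_ee m
  · exact (B.root_ee m).neg

theorem Base.root_rf (B : Base X) {u v : ι → F} (hu : Root X u) (hv : Root X v) : Root X (rf u v) := by
  refine ⟨by rw [rf_isIso hu.1, hv.1], fun k => ?_⟩
  have e : rf (rf u v) * rf (ee F k) = (rf u * rf (ee F k)) * (rf v * rf (ee F k))⁻¹ * (rf u * rf (ee F k)) := by
    rw [(rf_isIso hu.1).map_rf hv.1, _root_.mul_inv_rev, rf_inv hu.1, rf_inv hv.1]
    have h1 := rf_mul_self (ee_norm (F := F) k)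
    have h3 : rf (ee F k) * (rf (ee F k))⁻¹ = 1 := mul_inv_cancel _
    group
  rw [e]
  exact X.mul_mem (X.mul_mem (hu.2 k) (X.inv_mem (hv.2 k))) (hu.2 k)

theorem exists_not_mem (T : Finset ι) (h : T.card < Fintype.card ι) : ∃ k, k ∉ T := by
  obtain ⟨k, hk⟩ := Finset.exists_mem_notMem_of_card_lt_card (s := T) (t := Finset.univ)
    (by rwa [Finset.card_univ])
  exact ⟨k, hk.2⟩

theorem Base.root_sg (B : Base X) (hn : 3 ≤ Fintype.card ι) {i j : ι} (hij : i ≠ j) {u : ι → F}
    (hu : Root X u) : Root X (sg F {i, j} u) := by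
  obtain ⟨k, hk⟩ := exists_not_mem ({i, j} : Finset ι) (lt_of_le_of_lt Finset.card_le_two (by omega))
  exact B.root_map (B.hsg i j hij) (m := k) (Or.inl (sg_ee_not_mem hk)) hu

theorem Base.root_c3 (B : Base X) (hn : 4 ≤ Fintype.card ι) {i j k : ι} (hij : i ≠ j) (hik : i ≠ k)
    (hjk : j ≠ k) {u : ι → F} (hu : Root X u) : Root X (c3 F i j k u) := by
  obtain ⟨m, hm⟩ := exists_not_mem ({i, j, k} : Finset ι) (lt_of_le_of_lt Finset.card_le_three (by omega))
  simp only [Finset.mem_insert, Finset.mem_singleton, not_or] at hm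
  exact B.root_map (B.hc3 i j k hij hik hjk) (m := m) (Or.inl (c3_other hm.1 hm.2.1 hm.2.2)) hu

/-- support at most two -/
def Supp2 (u : ι → F) : Prop := ∃ a b, ∀ c, c ≠ a → c ≠ b → u c = 0

theorem supp2_three {u : ι → F} (h : Supp2 u) {a b c : ι} (hab : a ≠ b) (hac : a ≠ c) (hbc : b ≠ c)
    (ha : u a ≠ 0) (hb : u b ≠ 0) : u c = 0 := by
  obtain ⟨x, y, hxy⟩ := h
  by_contra hc
  have h1 : a = x ∨ a = y := by
    by_contra h; push Not at h; exact ha (hxy a h.1 h.2)
  have h2 : b = x ∨ b = y := by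
    by_contra h; push Not at h; exact hb (hxy b h.1 h.2)
  have h3 : c = x ∨ c = y := by
    by_contra h; push Not at h; exact hc (hxy c h.1 h.2)
  rcases h1 with rfl | rfl <;> rcases h2 with rfl | rfl <;> rcases h3 with rfl | rfl <;>
    first | exact hab rfl | exact hac rfl | exact hbc rfl

theorem eq_two_of_supp {u : ι → F} {m l : ι} (hml : m ≠ l) (h : ∀ c, c ≠ m → c ≠ l → u c = 0) :
    u = (u m) • ee F m + (u l) • ee F l := by
  funext c
  rw [Pi.add_apply, Pi.smul_apply, Pi.smul_apply, smul_eq_mul, smul_eq_mul]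
  by_cases h1 : c = m
  · subst h1; rw [ee_same, ee_ne hml]; ring
  · by_cases h2 : c = l
    · subst h2; rw [ee_same, ee_ne h1]; ring
    · rw [ee_ne h1, ee_ne h2, h c h1 h2]; ring

theorem Base.move_pair (B : Base X) (hn : 7 ≤ Fintype.card ι) {m l k k' : ι} (hml : m ≠ l) (hkk : k ≠ k')
    {β γ : F} (hu : Root X (β • ee F m + γ • ee F l)) : Root X (β • ee F k + γ • ee F k') := by
  obtain ⟨r, hr⟩ := exists_not_mem ({m, l, k, k'} : Finset ι)
    (lt_of_le_of_lt Finset.card_le_four (by omega))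
  obtain ⟨s, hs⟩ := exists_not_mem ({r, m, l, k, k'} : Finset ι)
    (lt_of_le_of_lt Finset.card_le_five (by omega))
  simp only [Finset.mem_insert, Finset.mem_singleton, not_or] at hr hs
  obtain ⟨hrm, hrl, hrk, hrk'⟩ := hr
  obtain ⟨hsr, hsm, hsl, hsk, hsk'⟩ := hs
  have h1 := B.root_c3 (by omega) (Ne.symm hrm) (Ne.symm hsm) (Ne.symm hsr) hu
  rw [map_add, map_smul, map_smul, c3_left (Ne.symm hrm) (Ne.symm hsm),
    c3_other (Ne.symm hml) (Ne.symm hrl) (Ne.symm hsl)] at h1
  have h2 := B.root_c3 (by omega) (Ne.symm hsl) (Ne.symm hml) hsm h1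
  rw [map_add, map_smul, map_smul, c3_left (Ne.symm hsl) (Ne.symm hml), c3_other hrl (Ne.symm hsr) hrm] at h2
  have h3 := B.root_c3 (by omega) hrk hrk' hkk h2
  rw [map_add, map_smul, map_smul, c3_left hrk hrk', c3_other hsr hsk hsk'] at h3
  have h4 := B.root_c3 (by omega) hsk' hsr (Ne.symm hrk') h3
  rw [map_add, map_smul, map_smul, c3_left hsk' hsr, c3_other (Ne.symm hsk) hkk (Ne.symm hrk)] at h4
  exact h4

section Two

variable (B : Base X) (hn : 9 ≤ Fintype.card ι) (hT : ∀ u, Root X u → Supp2 u)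

include B hn hT

theorem half_of_root {u : ι → F} (hu : Root X u) {m l : ι} (hml : m ≠ l) (hm : u m ≠ 0) (hl : u l ≠ 0) :
    2 * (u l) ^ 2 = 1 := by
  have h0 : ∀ c, c ≠ m → c ≠ l → u c = 0 := fun c h1 h2 =>
    supp2_three (hT u hu) hml (Ne.symm h1) (Ne.symm h2) hm hl
  have hu2 := eq_two_of_supp hml h0
  obtain ⟨p, hp⟩ := exists_not_mem ({m, l} : Finset ι) (lt_of_le_of_lt Finset.card_le_two (by omega))
  simp only [Finset.mem_insert, Finset.mem_singleton, not_or] at hp
  have h1 := B.root_c3 (by omega) hml (Ne.symm hp.1) (Ne.symm hp.2) hu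
  have e1 : c3 F m l p u = (u m) • ee F l + (u l) • ee F p := by
    conv_lhs => rw [hu2]
    rw [map_add, map_smul, map_smul, c3_left hml (Ne.symm hp.1), c3_mid (Ne.symm hp.1) (Ne.symm hp.2)]
  rw [e1] at h1
  have h2 := B.root_rf hu h1
  have e2 : ((u m) • ee F l + (u l) • ee F p) ⬝ᵥ u = u m * u l := by
    rw [add_dotProduct, smul_dotProduct, smul_dotProduct, ee_dot, ee_dot, h0 p hp.1 hp.2]
    simp
  have h3 := supp2_three (hT _ h2) (a := m) (b := p) (c := l) (Ne.symm hp.1) hml hp.2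
  rw [rf_apply hu.1, e2] at h3
  simp only [Pi.sub_apply, Pi.add_apply, Pi.smul_apply, smul_eq_mul] at h3
  rw [ee_same, ee_ne hml, ee_ne (Ne.symm hp.1), ee_ne hp.2, ee_same, ee_ne (Ne.symm hp.2), h0 p hp.1 hp.2] at h3
  have h4 := h3 (by
      have : u m * 0 + u l * 0 - 2 * (u m * u l) * u m = - (2 * (u m * u l * u m)) := by ring
      rw [this]
      exact neg_ne_zero.2 (mul_ne_zero B.two (mul_ne_zero (mul_ne_zero hm hl) hm)))
    (by simpa using hl)
  have h5 : u m * (1 - 2 * (u l) ^ 2) = 0 := by linear_combination h4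
  have h6 := (mul_eq_zero.1 h5).resolve_left hm
  linear_combination -h6

theorem mono_of_fix_two {h : (ι → F) ≃ₗ[F] (ι → F)} (hX : h ∈ X) {i j : ι} (hij : i ≠ j)
    (hi : h (ee F i) = ee F i) (hj : h (ee F j) = ee F j) : Mono h := by
  have hI := B.iso h hX
  have hinv : ∀ {i : ι}, h (ee F i) = ee F i → h⁻¹ (ee F i) = ee F i := by
    intro i hi
    have : h⁻¹ (h (ee F i)) = h⁻¹ (ee F i) := by rw [hi]
    rw [← LinearEquiv.mul_apply, inv_mul_cancel] at this
    exact this.symm
  apply mono_of_forall B.two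
  intro k
  by_cases hki : k = i
  · subst hki; exact ⟨_, Or.inl hi⟩
  by_cases hkj : k = j
  · subst hkj; exact ⟨_, Or.inl hj⟩
  have hroot : Root X (h (ee F k)) := B.root_map hX (m := i) (Or.inl hi) (B.root_ee k)
  have hne : h (ee F k) ≠ 0 := by
    intro h0
    have := hroot.1
    rw [h0, dotProduct_zero] at this
    exact zero_ne_one this
  obtain ⟨m, hm⟩ := Function.ne_iff.1 hne
  rw [Pi.zero_apply] at hm
  by_cases hex : ∃ l, l ≠ m ∧ h (ee F k) l ≠ 0
  · exfalso
    obtain ⟨l, hlm, hl⟩ := hex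
    have h0 : ∀ c, c ≠ m → c ≠ l → h (ee F k) c = 0 := fun c h1 h2 =>
      supp2_three (hT _ hroot) (Ne.symm hlm) (Ne.symm h1) (Ne.symm h2) hm hl
    have hu2 := eq_two_of_supp (Ne.symm hlm) h0
    set β := h (ee F k) m with hβ
    set γ := h (ee F k) l with hγ
    -- supports of `h⁻¹ e_m`, `h⁻¹ e_l`
    have hrm : Root X (h⁻¹ (ee F m)) := B.root_map (X.inv_mem hX) (m := i) (Or.inl (hinv hi)) (B.root_ee m)
    have hrl : Root X (h⁻¹ (ee F l)) := B.root_map (X.inv_mem hX) (m := i) (Or.inl (hinv hi)) (B.root_ee l)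
    obtain ⟨a1, a2, ha⟩ := hT _ hrm
    obtain ⟨b1, b2, hb⟩ := hT _ hrl
    obtain ⟨k', hk'⟩ := exists_not_mem (({a1, a2, b1, b2} : Finset ι) ∪ {i, j, k})
      (lt_of_le_of_lt (Finset.card_union_le _ _) (by
        have h1 : ({a1, a2, b1, b2} : Finset ι).card ≤ 4 := Finset.card_le_four
        have h2 : ({i, j, k} : Finset ι).card ≤ 3 := Finset.card_le_three
        omega))
    simp only [Finset.mem_union, Finset.mem_insert, Finset.mem_singleton, not_or] at hk'
    obtain ⟨⟨h1, h2, h3, h4⟩, h5, h6, h7⟩ := hk'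
    have hm' : h (ee F k') m = 0 := by rw [hI.apply_eq, ee_dot]; exact ha k' h1 h2
    have hl' : h (ee F k') l = 0 := by rw [hI.apply_eq, ee_dot]; exact hb k' h3 h4
    have hne' : h (ee F k') ≠ 0 := by
      intro h0
      have := hI (ee F k') (ee F k')
      rw [h0, dotProduct_zero, ee_norm] at this
      exact zero_ne_one this
    obtain ⟨r, hr⟩ := Function.ne_iff.1 hne'
    rw [Pi.zero_apply] at hr
    have hrm' : r ≠ m := fun h => hr (h ▸ hm')
    have hrl' : r ≠ l := fun h => hr (h ▸ hl')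
    have hx : Root X (β • ee F k + γ • ee F k') :=
      B.move_pair (by omega) (Ne.symm hlm) (Ne.symm h7) (by rw [← hu2]; exact hroot)
    have hx' := B.root_map hX (m := i) (Or.inl hi) hx
    have h8 := supp2_three (hT _ hx') (a := m) (b := l) (c := r) (Ne.symm hlm) (Ne.symm hrm') (Ne.symm hrl')
    rw [map_add, map_smul, map_smul] at h8
    simp only [Pi.add_apply, Pi.smul_apply, smul_eq_mul] at h8
    rw [hm', hl', h0 r hrm' hrl'] at h8
    have h9 := h8 (by rw [← hβ]; simpa using hm) (by rw [← hγ]; simpa using ⟨hm, hl⟩)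
    have : γ * h (ee F k') r = 0 := by linear_combination h9
    rcases mul_eq_zero.1 this with h' | h'
    · exact hl h'
    · exact hr h'
  · push Not at hex
    refine ⟨m, ?_⟩
    have e1 : h (ee F k) = (h (ee F k) m) • ee F m := by
      funext c
      rw [Pi.smul_apply, smul_eq_mul]
      by_cases hc : c = m
      · subst hc; rw [ee_same, mul_one]
      · rw [ee_ne hc, mul_zero]; exact hex c hc
    have e2 : (h (ee F k) m) ^ 2 = 1 := by
      have h3 := hroot.1
      have h4 : h (ee F k) ⬝ᵥ h (ee F k) = (h (ee F k) m) ^ 2 := by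
        conv_lhs => rw [e1]
        rw [dotProduct_smul, dot_ee, Pi.smul_apply, ee_same, smul_eq_mul, smul_eq_mul]; ring
      rw [← h4, h3]
    rcases sq_eq_one_iff_of_ne_zero' e2 with h3 | h3
    · left; rw [e1, h3, one_smul]
    · right; rw [e1, h3, neg_smul, one_smul]

theorem mono_of_comm {g : (ι → F) ≃ₗ[F] (ι → F)} (hX : g ∈ X) {i j : ι} (hij : i ≠ j)
    (hcomm : Commute g (sg F {i, j})) : Mono g := by
  classical
  have hI := B.iso g hX
  have h2 := B.two
  have zero_out : ∀ a, a ∉ ({i, j} : Finset ι) → ∀ c ∈ ({i, j} : Finset ι), g (ee F a) c = 0 := by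
    intro a ha c hc
    have h := congrArg (fun f : (ι → F) ≃ₗ[F] (ι → F) => f (ee F a) c) hcomm.eq
    simp only [LinearEquiv.mul_apply] at h
    rw [sg_ee_not_mem ha, sg_apply, if_pos hc] at h
    have h' : 2 * g (ee F a) c = 0 := by linear_combination h
    exact (mul_eq_zero.1 h').resolve_left h2
  have zero_in : ∀ a, a ∈ ({i, j} : Finset ι) → ∀ c, c ∉ ({i, j} : Finset ι) → g (ee F a) c = 0 := by
    intro a ha c hc
    have h := congrArg (fun f : (ι → F) ≃ₗ[F] (ι → F) => f (ee F a) c) hcomm.eq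
    simp only [LinearEquiv.mul_apply] at h
    rw [sg_ee_mem ha, map_neg, Pi.neg_apply, sg_apply, if_neg hc] at h
    have h' : 2 * g (ee F a) c = 0 := by linear_combination -h
    exact (mul_eq_zero.1 h').resolve_left h2
  have perms : ∀ κ ∈ X, (∀ a ∈ ({i, j} : Finset ι), κ (ee F a) = ee F a) → Perms (fun a => g (ee F a)) κ := by
    intro κ hκ hfix a
    have hfix' : ∀ a ∈ ({i, j} : Finset ι), (g⁻¹ * κ * g) (ee F a) = ee F a := by
      intro a ha
      rw [LinearEquiv.mul_apply, LinearEquiv.mul_apply, fix_supported hfix (zero_in a ha),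
        ← LinearEquiv.mul_apply, inv_mul_cancel]
      rfl
    obtain ⟨σ, hσ⟩ := mono_of_fix_two B hn hT (X.mul_mem (X.mul_mem (X.inv_mem hX) hκ) hX) hij
      (hfix' i (by simp)) (hfix' j (by simp))
    refine ⟨σ a, ?_⟩
    have key : κ (g (ee F a)) = g ((g⁻¹ * κ * g) (ee F a)) := by
      rw [← LinearEquiv.mul_apply, ← LinearEquiv.mul_apply]
      congr 1
      group
    rcases hσ a with h | h
    · left
      show κ (g (ee F a)) = _
      rw [key, h]
    · right
      show κ (g (ee F a)) = _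
      rw [key, h, map_neg]
  have hJ : ({i, j} : Finset ι).card ≤ 2 := Finset.card_le_two
  have core := frame_core h2 (fun a => g (ee F a)) (fun a b => hI.ee_dot_ee a b) {i, j} (by omega)
    (by
      intro k l hk hl hkl
      apply perms _ (B.hsg k l hkl)
      intro a ha
      apply sg_ee_not_mem
      simp only [Finset.mem_insert, Finset.mem_singleton, not_or] at hk hl ha ⊢
      rcases ha with rfl | rfl
      · exact ⟨Ne.symm hk.1, Ne.symm hl.1⟩
      · exact ⟨Ne.symm hk.2, Ne.symm hl.2⟩)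
    (by
      intro k l m hk hl hm hkl hkm hlm
      apply perms _ (B.hc3 k l m hkl hkm hlm)
      intro a ha
      apply c3_other
      · exact fun h => hk (h ▸ ha)
      · exact fun h => hl (h ▸ ha)
      · exact fun h => hm (h ▸ ha))
  have out : ∀ a, a ∉ ({i, j} : Finset ι) → ∃ k, g (ee F a) = ee F k ∨ g (ee F a) = - ee F k := by
    intro a ha
    rcases core a with ⟨k, _, hk⟩ | h
    · exact ⟨k, hk⟩
    · exfalso
      have h0 : g (ee F a) = 0 := by
        funext c
        by_cases hc : c ∈ ({i, j} : Finset ι)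
        · exact zero_out a ha c hc
        · exact h c hc
      have := hI (ee F a) (ee F a)
      rw [h0, dotProduct_zero, ee_norm] at this
      exact zero_ne_one this
  obtain ⟨a, ha⟩ := exists_not_mem ({i, j} : Finset ι) (lt_of_le_of_lt hJ (by omega))
  obtain ⟨ka, hka⟩ := out a ha
  have hga : Root X (g (ee F a)) := by
    rcases hka with h | h <;> rw [h]
    · exact B.root_ee _
    · exact (B.root_ee _).neg
  have hmap : ∀ u, Root X u → Root X (g u) := fun u hu => B.root_map' hX hu (B.root_ee a) hga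
  have hkaJ : ka ∉ ({i, j} : Finset ι) := by
    intro hmem
    have h0 := zero_out a ha ka hmem
    rcases hka with h | h
    · rw [h, ee_same] at h0; exact one_ne_zero h0
    · rw [h, Pi.neg_apply, ee_same] at h0; exact one_ne_zero (neg_eq_zero.1 h0)
  have inn : ∀ c ∈ ({i, j} : Finset ι), ∃ k, g (ee F c) = ee F k ∨ g (ee F c) = - ee F k := by
    intro c hc
    have hrc := hmap _ (B.root_ee c)
    have hz := zero_in c hc
    have hsupp : ∀ d, d ≠ i → d ≠ j → g (ee F c) d = 0 := by
      intro d h1 h3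
      apply hz d
      simp only [Finset.mem_insert, Finset.mem_singleton, not_or]
      exact ⟨h1, h3⟩
    have hu2 := eq_two_of_supp hij hsupp
    have norm2 : (g (ee F c) i) ^ 2 + (g (ee F c) j) ^ 2 = 1 := by
      have h3 := hrc.1
      have h4 : g (ee F c) ⬝ᵥ g (ee F c) = (g (ee F c) i) ^ 2 + (g (ee F c) j) ^ 2 := by
        conv_lhs =>
          rw [hu2]
        rw [dotProduct_add, dotProduct_smul, dotProduct_smul, dot_ee, dot_ee]
        simp only [Pi.add_apply, Pi.smul_apply, smul_eq_mul]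
        rw [ee_same, ee_same, ee_ne hij, ee_ne (Ne.symm hij)]
        ring
      rw [← h4, h3]
    by_cases hi0 : g (ee F c) i = 0
    · refine ⟨j, ?_⟩
      rw [hi0] at norm2
      have e2 : (g (ee F c) j) ^ 2 = 1 := by linear_combination norm2
      rw [hi0, zero_smul, zero_add] at hu2
      rcases sq_eq_one_iff_of_ne_zero' e2 with h3 | h3
      · left; rw [hu2, h3, one_smul]
      · right; rw [hu2, h3, neg_smul, one_smul]
    · by_cases hj0 : g (ee F c) j = 0
      · refine ⟨i, ?_⟩
        rw [hj0] at norm2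
        have e2 : (g (ee F c) i) ^ 2 = 1 := by linear_combination norm2
        rw [hj0, zero_smul, add_zero] at hu2
        rcases sq_eq_one_iff_of_ne_zero' e2 with h3 | h3
        · left; rw [hu2, h3, one_smul]
        · right; rw [hu2, h3, neg_smul, one_smul]
      · exfalso
        have hca : c ≠ a := fun h => ha (h ▸ hc)
        have hx : Root X ((g (ee F c) i) • ee F c + (g (ee F c) j) • ee F a) :=
          B.move_pair (by omega) hij hca (by rw [← hu2]; exact hrc)
        have hx' := hmap _ hx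
        simp only [Finset.mem_insert, Finset.mem_singleton, not_or] at hkaJ
        have h8 := supp2_three (hT _ hx') (a := i) (b := j) (c := ka) hij (Ne.symm hkaJ.1) (Ne.symm hkaJ.2)
        rw [map_add, map_smul, map_smul] at h8
        simp only [Pi.add_apply, Pi.smul_apply, smul_eq_mul] at h8
        rw [zero_out a ha i (by simp), zero_out a ha j (by simp), hsupp ka hkaJ.1 hkaJ.2] at h8
        have h9 := h8 (by simpa using hi0) (by simpa using ⟨hi0, hj0⟩)
        have h10 : g (ee F a) ka ≠ 0 := by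
          rcases hka with h | h <;> rw [h]
          · rw [ee_same]; exact one_ne_zero
          · rw [Pi.neg_apply, ee_same]; exact neg_ne_zero.2 one_ne_zero
        have : g (ee F c) j * g (ee F a) ka = 0 := by linear_combination h9
        rcases mul_eq_zero.1 this with h' | h'
        · exact hj0 h'
        · exact h10 h'
  apply mono_of_forall h2
  intro c
  by_cases hc : c ∈ ({i, j} : Finset ι)
  · exact inn c hc
  · exact out c hc

/-- **Part II**: if all roots have support at most two, the group is monomial. -/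
theorem mono_of_roots (hfin : ∀ g ∈ X, IsOfFinOrder g) : ∀ x ∈ X, Mono x :=
  Rig.mono_all ⟨B.two, hn, B.iso, B.hsg, B.hc3, fun g hg i j hij hc => mono_of_comm B hn hT hg hij hc⟩ hfin

end Two

end Cfsg.Agent.H928
end
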