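import Cfsg.Agent.H928.FrameH
set_option linter.all false

/-!
# Orthogonal frames IX: the `SL₂` model of a three dimensional subspace
-/

set_option autoImplicit false
set_option linter.unusedSectionVars false
set_option linter.unusedSimpArgs false
set_option linter.unusedVariables false

namespace Cfsg.Agent.H928

open Matrix

variable {ι : Type*} [Fintype ι] [DecidableEq ι] {F : Type*} [Field F]

section Model

variable (i j : ι) (w : ι → F) (N a b : F)

/-- the third coordinate -/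
def tc (v : ι → F) : F := (v ⬝ᵥ w) / N

/-- from vectors to trace zero matrices -/
def cA : (ι → F) →ₗ[F] Matrix (Fin 2) (Fin 2) F where
  toFun v := !![v i * a - N * b * tc w N v, v i * b + v j + a * tc w N v;
    N * (b * v i - v j + a * tc w N v), - (v i * a - N * b * tc w N v)]
  map_add' x y := by
    ext r s
    fin_cases r <;> fin_cases s <;>
      simp [tc, add_dotProduct, add_div] <;> ring
  map_smul' c x := by
    ext r s
    fin_cases r <;> fin_cases s <;>
      simp [tc, smul_dotProduct, mul_div_assoc] <;> ring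

/-- from matrices to vectors of the three space -/
def cB : Matrix (Fin 2) (Fin 2) F →ₗ[F] (ι → F) where
  toFun M := (-(a * M 0 0 + N * b * ((M 0 1 + M 1 0 / N) / 2)) / N) • ee F i +
    ((M 0 1 - M 1 0 / N) / 2) • ee F j + (-(a * ((M 0 1 + M 1 0 / N) / 2) - b * M 0 0) / N) • w
  map_add' x y := by
    simp only [Matrix.add_apply]
    module
  map_smul' c x := by
    simp only [Matrix.smul_apply, smul_eq_mul, RingHom.id_apply, smul_add, smul_smul]
    congr 1
    · congr 1
      · congr 1; ring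
      · congr 1; ring
    · congr 1; ring

/-- the projection -/
def pr (v : ι → F) : ι → F := v i • ee F i + v j • ee F j + tc w N v • w

/-- the form of the projection -/
def fo (x y : ι → F) : F := x i * y i + x j * y j + N * (tc w N x * tc w N y)

variable {i j w N a b}

section Hyp

variable (h2 : (2 : F) ≠ 0) (hij : i ≠ j) (hwi : w i = 0) (hwj : w j = 0) (hN : w ⬝ᵥ w = N) (hN0 : N ≠ 0)
  (hab : a ^ 2 + N * b ^ 2 = - N)

include h2 hN0 hab in
theorem cB_cA (v : ι → F) : cB i j w N a b (cA i j w N a b v) = pr i j w N v := by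
  show (-(a * (v i * a - N * b * tc w N v) + N * b * ((v i * b + v j + a * tc w N v +
    N * (b * v i - v j + a * tc w N v) / N) / 2)) / N) • ee F i +
    ((v i * b + v j + a * tc w N v - N * (b * v i - v j + a * tc w N v) / N) / 2) • ee F j +
    (-(a * ((v i * b + v j + a * tc w N v + N * (b * v i - v j + a * tc w N v) / N) / 2) -
      b * (v i * a - N * b * tc w N v)) / N) • w = v i • ee F i + v j • ee F j + tc w N v • w
  congr 1
  · congr 1
    · congr 1
      field_simp
      linear_combination (-2 * v i) * hab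
    · congr 1
      field_simp
      ring
  · congr 1
    field_simp
    linear_combination (-2 * tc w N v) * hab

theorem cA_apply_11 (v : ι → F) : cA i j w N a b v 1 1 = - cA i j w N a b v 0 0 := rfl

include h2 hij hwi hwj hN hN0 hab in
theorem cA_cB {M : Matrix (Fin 2) (Fin 2) F} (hM : M 1 1 = - M 0 0) : cA i j w N a b (cB i j w N a b M) = M := by
  have e1 : (cB i j w N a b M) i = -(a * M 0 0 + N * b * ((M 0 1 + M 1 0 / N) / 2)) / N := by
    show (_ • ee F i + _ • ee F j + _ • w) i = _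
    simp only [Pi.add_apply, Pi.smul_apply, smul_eq_mul]
    rw [ee_same, ee_ne hij, hwi]; ring
  have e2 : (cB i j w N a b M) j = (M 0 1 - M 1 0 / N) / 2 := by
    show (_ • ee F i + _ • ee F j + _ • w) j = _
    simp only [Pi.add_apply, Pi.smul_apply, smul_eq_mul]
    rw [ee_same, ee_ne (Ne.symm hij), hwj]; ring
  have e3 : tc w N (cB i j w N a b M) = -(a * ((M 0 1 + M 1 0 / N) / 2) - b * M 0 0) / N := by
    show ((_ • ee F i + _ • ee F j + _ • w) ⬝ᵥ w) / N = _
    simp only [add_dotProduct, smul_dotProduct, smul_eq_mul, ee_dot, hwi, hwj, hN]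
    field_simp
    ring
  ext r s
  fin_cases r <;> fin_cases s
  · show (cB i j w N a b M) i * a - N * b * tc w N (cB i j w N a b M) = M 0 0
    rw [e1, e3]
    field_simp
    linear_combination (-2 * M 0 0) * hab
  · show (cB i j w N a b M) i * b + (cB i j w N a b M) j + a * tc w N (cB i j w N a b M) = M 0 1
    rw [e1, e2, e3]
    field_simp
    linear_combination (-(M 0 1 * N + M 1 0)) * hab
  · show N * (b * (cB i j w N a b M) i - (cB i j w N a b M) j + a * tc w N (cB i j w N a b M)) = M 1 0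
    rw [e1, e2, e3]
    field_simp
    linear_combination (-(M 0 1 * N + M 1 0)) * hab
  · show -((cB i j w N a b M) i * a - N * b * tc w N (cB i j w N a b M)) = M 1 1
    rw [e1, e3, hM]
    field_simp
    linear_combination (2 * M 0 0) * hab

include hN0 hab in
theorem cA_mul_add (x y : ι → F) : cA i j w N a b x * cA i j w N a b y + cA i j w N a b y * cA i j w N a b x =
    (-(2 * N * fo i j w N x y)) • (1 : Matrix (Fin 2) (Fin 2) F) := by
  have e : ∀ v, cA i j w N a b v = !![v i * a - N * b * tc w N v, v i * b + v j + a * tc w N v;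
    N * (b * v i - v j + a * tc w N v), - (v i * a - N * b * tc w N v)] := fun v => rfl
  rw [e, e, fo]
  generalize tc w N x = x3
  generalize tc w N y = y3
  ext r s
  fin_cases r <;> fin_cases s <;>
    simp [Matrix.mul_apply, Fin.sum_univ_two]
  · linear_combination (2 * x i * y i + 2 * N * x3 * y3) * hab
  · ring
  · ring
  · linear_combination (2 * x i * y i + 2 * N * x3 * y3) * hab

include h2 hN0 hab in
theorem cA_sq (x : ι → F) : cA i j w N a b x * cA i j w N a b x =
    (-(N * fo i j w N x x)) • (1 : Matrix (Fin 2) (Fin 2) F) := by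
  have h := cA_mul_add (w := w) hN0 hab (i := i) (j := j) x x
  have h3 : (2 : F) • (cA i j w N a b x * cA i j w N a b x) =
      (2 : F) • ((-(N * fo i j w N x x)) • (1 : Matrix (Fin 2) (Fin 2) F)) := by
    rw [two_smul, h, smul_smul]
    congr 1; ring
  exact smul_right_injective _ h2 h3

/-- for `z` in the three space the form is the dot product -/
theorem fo_eq {z : ι → F} (hz : z = pr i j w N z) (x : ι → F) : fo i j w N x z = x ⬝ᵥ z := by
  conv_rhs => rw [hz]
  rw [pr, dotProduct_add, dotProduct_add, dotProduct_smul, dotProduct_smul, dotProduct_smul, dot_ee, dot_ee, fo]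
  simp only [smul_eq_mul]
  by_cases hN0 : N = 0
  · rw [tc, tc, hN0]; simp; ring
  · rw [show x ⬝ᵥ w = N * tc w N x by rw [tc]; field_simp]
    ring

include h2 hN0 hab in
theorem cA_conj {z : ι → F} (hz : z = pr i j w N z) (hz1 : z ⬝ᵥ z = 1) (v : ι → F) :
    cA i j w N a b z * cA i j w N a b v * cA i j w N a b z = N • cA i j w N a b (rf z v) := by
  have h1 := cA_mul_add (w := w) hN0 hab (i := i) (j := j) z v
  have h3 := cA_sq h2 hN0 hab (w := w) (i := i) (j := j) z
  have hfz : fo i j w N z v = v ⬝ᵥ z := by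
    rw [← fo_eq hz v, fo, fo]; ring
  rw [fo_eq hz z, hz1] at h3
  rw [hfz] at h1
  have h4 : cA i j w N a b z * cA i j w N a b v =
      (-(2 * N * (v ⬝ᵥ z))) • (1 : Matrix (Fin 2) (Fin 2) F) - cA i j w N a b v * cA i j w N a b z := by
    rw [← h1]; abel
  rw [h4, sub_mul, mul_assoc (cA i j w N a b v), h3, rf_apply hz1, map_sub, map_smul]
  simp only [smul_mul_assoc, one_mul, mul_smul_comm, mul_one]
  module

end Hyp

/-- the data of the model -/
structure Mod (i j : ι) (w : ι → F) (N a b : F) : Prop where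
  h2 : (2 : F) ≠ 0
  hij : i ≠ j
  hwi : w i = 0
  hwj : w j = 0
  hN : w ⬝ᵥ w = N
  hN0 : N ≠ 0
  hab : a ^ 2 + N * b ^ 2 = - N

/-- the action of `g` -/
def act (i j : ι) (w : ι → F) (N a b : F) (g : Matrix.SpecialLinearGroup (Fin 2) F) (v : ι → F) : ι → F :=
  v + cB i j w N a b ((g : Matrix (Fin 2) (Fin 2) F) * cA i j w N a b v *
    ((g⁻¹ : Matrix.SpecialLinearGroup (Fin 2) F) : Matrix (Fin 2) (Fin 2) F) - cA i j w N a b v)

theorem sl_inv_mul (g : Matrix.SpecialLinearGroup (Fin 2) F) :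
    ((g⁻¹ : Matrix.SpecialLinearGroup (Fin 2) F) : Matrix (Fin 2) (Fin 2) F) * (g : Matrix (Fin 2) (Fin 2) F) = 1 := by
  rw [← Matrix.SpecialLinearGroup.coe_mul, inv_mul_cancel, Matrix.SpecialLinearGroup.coe_one]

theorem sl_mul_inv (g : Matrix.SpecialLinearGroup (Fin 2) F) :
    (g : Matrix (Fin 2) (Fin 2) F) * ((g⁻¹ : Matrix.SpecialLinearGroup (Fin 2) F) : Matrix (Fin 2) (Fin 2) F) = 1 := by
  rw [← Matrix.SpecialLinearGroup.coe_mul, mul_inv_cancel, Matrix.SpecialLinearGroup.coe_one]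

theorem trace_conj (g : Matrix.SpecialLinearGroup (Fin 2) F) {M : Matrix (Fin 2) (Fin 2) F} (hM : M 1 1 = - M 0 0) :
    ((g : Matrix (Fin 2) (Fin 2) F) * M * ((g⁻¹ : Matrix.SpecialLinearGroup (Fin 2) F) : Matrix (Fin 2) (Fin 2) F)) 1 1 =
    - ((g : Matrix (Fin 2) (Fin 2) F) * M * ((g⁻¹ : Matrix.SpecialLinearGroup (Fin 2) F) : Matrix (Fin 2) (Fin 2) F)) 0 0 := by
  have h1 : Matrix.trace ((g : Matrix (Fin 2) (Fin 2) F) * M *
      ((g⁻¹ : Matrix.SpecialLinearGroup (Fin 2) F) : Matrix (Fin 2) (Fin 2) F)) = Matrix.trace M := by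
    rw [Matrix.trace_mul_cycle, sl_inv_mul, one_mul]
  rw [Matrix.trace_fin_two, Matrix.trace_fin_two, hM] at h1
  linear_combination h1

section ModLemmas

variable (m : Mod i j w N a b)

include m

theorem Mod.cA_act (g : Matrix.SpecialLinearGroup (Fin 2) F) (v : ι → F) :
    cA i j w N a b (act i j w N a b g v) = (g : Matrix (Fin 2) (Fin 2) F) * cA i j w N a b v *
    ((g⁻¹ : Matrix.SpecialLinearGroup (Fin 2) F) : Matrix (Fin 2) (Fin 2) F) := by
  rw [act, map_add, cA_cB m.h2 m.hij m.hwi m.hwj m.hN m.hN0 m.hab]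
  · abel
  · rw [Matrix.sub_apply, Matrix.sub_apply, trace_conj g (cA_apply_11 v), cA_apply_11]; ring

theorem Mod.act_mul (g h : Matrix.SpecialLinearGroup (Fin 2) F) (v : ι → F) :
    act i j w N a b (g * h) v = act i j w N a b g (act i j w N a b h v) := by
  conv_rhs => rw [act, m.cA_act h v]
  rw [act, act, _root_.mul_inv_rev, Matrix.SpecialLinearGroup.coe_mul, Matrix.SpecialLinearGroup.coe_mul]
  rw [add_assoc, ← map_add]
  congr 2
  simp only [mul_assoc]
  abel

theorem Mod.act_one (v : ι → F) : act i j w N a b 1 v = v := by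
  rw [act, inv_one, Matrix.SpecialLinearGroup.coe_one, one_mul, mul_one, sub_self, map_zero, add_zero]

/-- the group of the model -/
def Mod.slH (X : Subgroup ((ι → F) ≃ₗ[F] (ι → F))) : Subgroup (Matrix.SpecialLinearGroup (Fin 2) F) where
  carrier := {g | ∃ y ∈ X, ∀ v, y v = act i j w N a b g v}
  one_mem' := ⟨1, X.one_mem, fun v => (m.act_one v).symm⟩
  mul_mem' := by
    rintro g h ⟨y, hy, hyv⟩ ⟨z, hz, hzv⟩
    refine ⟨y * z, X.mul_mem hy hz, fun v => ?_⟩
    rw [LinearEquiv.mul_apply, hzv, hyv, m.act_mul]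
  inv_mem' := by
    rintro g ⟨y, hy, hyv⟩
    refine ⟨y⁻¹, X.inv_mem hy, fun v => ?_⟩
    apply y.injective
    rw [hyv (act i j w N a b g⁻¹ v), ← m.act_mul, mul_inv_cancel, m.act_one, ← LinearEquiv.mul_apply,
      mul_inv_cancel]
    rfl

theorem Mod.mem_slH {X : Subgroup ((ι → F) ≃ₗ[F] (ι → F))} {g : Matrix.SpecialLinearGroup (Fin 2) F} :
    g ∈ m.slH X ↔ ∃ y ∈ X, ∀ v, y v = act i j w N a b g v := Iff.rfl

theorem Mod.det_cA {z : ι → F} (hz : z = pr i j w N z) (hz1 : z ⬝ᵥ z = 1) : (cA i j w N a b z).det = N := by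
  have h := cA_sq m.h2 m.hN0 m.hab (w := w) (i := i) (j := j) z
  rw [fo_eq hz z, hz1] at h
  have h00 := congrFun (congrFun h 0) 0
  rw [Matrix.mul_apply, Fin.sum_univ_two, Matrix.smul_apply, Matrix.one_apply_eq, smul_eq_mul] at h00
  rw [Matrix.det_fin_two, cA_apply_11]
  linear_combination -h00

/-- the element of `SL₂` attached to two norm one vectors -/
def Mod.ge {z u : ι → F} (hz : z = pr i j w N z) (hz1 : z ⬝ᵥ z = 1) (hu : u = pr i j w N u) (hu1 : u ⬝ᵥ u = 1) :
    Matrix.SpecialLinearGroup (Fin 2) F :=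
  ⟨N⁻¹ • (cA i j w N a b z * cA i j w N a b u), by
    rw [Matrix.det_smul, Matrix.det_mul, m.det_cA hz hz1, m.det_cA hu hu1, Fintype.card_fin]
    have := m.hN0
    field_simp⟩

theorem Mod.ge_inv {z u : ι → F} (hz : z = pr i j w N z) (hz1 : z ⬝ᵥ z = 1) (hu : u = pr i j w N u)
    (hu1 : u ⬝ᵥ u = 1) : (m.ge hz hz1 hu hu1)⁻¹ = m.ge hu hu1 hz hz1 := by
  rw [inv_eq_iff_mul_eq_one]
  apply Subtype.ext
  show (N⁻¹ • (cA i j w N a b z * cA i j w N a b u)) * (N⁻¹ • (cA i j w N a b u * cA i j w N a b z)) = 1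
  have h1 := cA_sq m.h2 m.hN0 m.hab (w := w) (i := i) (j := j) z
  have h3 := cA_sq m.h2 m.hN0 m.hab (w := w) (i := i) (j := j) u
  rw [fo_eq hz z, hz1] at h1
  rw [fo_eq hu u, hu1] at h3
  rw [smul_mul_smul_comm, ← mul_assoc, mul_assoc (cA i j w N a b z), h3]
  simp only [mul_smul_comm, smul_mul_assoc, mul_one]
  rw [h1, smul_smul, smul_smul]
  have := m.hN0
  have e : N⁻¹ * N⁻¹ * -N * -(N * 1) = 1 := by field_simp
  rw [e, one_smul]

theorem Mod.act_ge {z u : ι → F} (hz : z = pr i j w N z) (hz1 : z ⬝ᵥ z = 1) (hu : u = pr i j w N u)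
    (hu1 : u ⬝ᵥ u = 1) (v : ι → F) : act i j w N a b (m.ge hz hz1 hu hu1) v = (rf z * rf u) v := by
  have h1 := cA_conj m.h2 m.hN0 m.hab hu hu1 v
  have h3 := cA_conj m.h2 m.hN0 m.hab hz hz1 (rf u v)
  have e : ((m.ge hz hz1 hu hu1 : Matrix.SpecialLinearGroup (Fin 2) F) : Matrix (Fin 2) (Fin 2) F) *
      cA i j w N a b v * (((m.ge hz hz1 hu hu1)⁻¹ : Matrix.SpecialLinearGroup (Fin 2) F) : Matrix (Fin 2) (Fin 2) F) =
      cA i j w N a b ((rf z * rf u) v) := by
    rw [m.ge_inv]
    show (N⁻¹ • (cA i j w N a b z * cA i j w N a b u)) * cA i j w N a b v *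
      (N⁻¹ • (cA i j w N a b u * cA i j w N a b z)) = _
    have e1 : (N⁻¹ • (cA i j w N a b z * cA i j w N a b u)) * cA i j w N a b v *
      (N⁻¹ • (cA i j w N a b u * cA i j w N a b z)) = (N⁻¹ * N⁻¹) • (cA i j w N a b z *
        (cA i j w N a b u * cA i j w N a b v * cA i j w N a b u) * cA i j w N a b z) := by
      simp only [smul_mul_assoc, mul_smul_comm, smul_smul, mul_assoc]
    rw [e1, h1]
    simp only [smul_mul_assoc, mul_smul_comm]
    rw [h3, smul_smul, smul_smul, LinearEquiv.mul_apply]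
    have := m.hN0
    have e2 : N⁻¹ * N⁻¹ * (N * N) = 1 := by field_simp
    have e3 : N⁻¹ * N⁻¹ * N * N = 1 := by field_simp
    first
      | rw [e2, one_smul]
      | rw [e3, one_smul]
  rw [act, e, ← map_sub, cB_cA m.h2 m.hN0 m.hab]
  have hd : ∃ α β : F, (rf z * rf u) v - v = α • z + β • u := by
    refine ⟨-(2 * (rf u v ⬝ᵥ z)), -(2 * (v ⬝ᵥ u)), ?_⟩
    rw [LinearEquiv.mul_apply, rf_apply hz1]
    conv_lhs => rw [rf_apply hu1]
    rw [rf_apply hu1]
    module
  obtain ⟨α, β, hd⟩ := hd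
  have hpr : pr i j w N (α • z + β • u) = α • z + β • u := by
    conv_rhs => rw [hz, hu]
    simp only [pr, tc, Pi.add_apply, Pi.smul_apply, smul_eq_mul, add_dotProduct, smul_dotProduct]
    have e4 : ∀ p q : F, (α * p + β * q) / N = α * (p / N) + β * (q / N) := fun p q => by ring
    rw [e4]
    module
  rw [hd, hpr, ← hd]
  abel

/-- elements of the group of the model attached to norm one vectors -/
theorem Mod.ge_mem {X : Subgroup ((ι → F) ≃ₗ[F] (ι → F))} {z u : ι → F} (hz : z = pr i j w N z)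
    (hz1 : z ⬝ᵥ z = 1) (hu : u = pr i j w N u) (hu1 : u ⬝ᵥ u = 1) :
    m.ge hz hz1 hu hu1 ∈ m.slH X ↔ rf z * rf u ∈ X := by
  rw [m.mem_slH]
  constructor
  · rintro ⟨y, hy, hyv⟩
    have : y = rf z * rf u := by
      apply LinearEquiv.ext
      intro v
      rw [hyv, m.act_ge]
    rwa [← this]
  · intro h
    exact ⟨_, h, fun v => (m.act_ge hz hz1 hu hu1 v).symm⟩

theorem Mod.trace_ge {z u : ι → F} (hz : z = pr i j w N z) (hz1 : z ⬝ᵥ z = 1) (hu : u = pr i j w N u)
    (hu1 : u ⬝ᵥ u = 1) : Matrix.trace ((m.ge hz hz1 hu hu1 : Matrix.SpecialLinearGroup (Fin 2) F) :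
      Matrix (Fin 2) (Fin 2) F) = - (2 * (z ⬝ᵥ u)) := by
  show Matrix.trace (N⁻¹ • (cA i j w N a b z * cA i j w N a b u)) = _
  have h1 := cA_mul_add (w := w) m.hN0 m.hab (i := i) (j := j) z u
  have h3 := congrArg Matrix.trace h1
  rw [Matrix.trace_add, Matrix.trace_mul_comm (cA i j w N a b u), Matrix.trace_smul, Matrix.trace_one,
    Fintype.card_fin, fo_eq hu z] at h3
  rw [Matrix.trace_smul, smul_eq_mul]
  have h4 : 2 * Matrix.trace (cA i j w N a b z * cA i j w N a b u) = 2 * (-(2 * N * (z ⬝ᵥ u))) := by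
    rw [two_mul, h3]
    simp only [smul_eq_mul, Nat.cast_ofNat]
    ring
  rw [mul_left_cancel₀ m.h2 h4]
  have := m.hN0
  field_simp

end ModLemmas

end Model

end Cfsg.Agent.H928
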