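import Cfsg.Agent.H928.DicksonFix
set_option linter.all false

/-!
# Subgroups of `SL₂(p)`: the form of Dickson's theorem used for orthogonal frames
-/

set_option autoImplicit false
set_option linter.unusedSectionVars false
set_option linter.unusedSimpArgs false
set_option linter.unusedVariables false

namespace Cfsg.Agent.H928

open Matrix MulAction OnePoint
open Cfsg.Agent.ClassicalGeometry.PoleBridge
open Cfsg.Agent.ClassicalGeometry.PSL2Basic
open Cfsg.Agent.Lib.Mobius

theorem a5_orders : ∀ g : Equiv.Perm (Fin 5), Equiv.Perm.sign g = 1 → g ^ 2 = 1 ∨ g ^ 3 = 1 ∨ g ^ 5 = 1 := by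
  decide +kernel

theorem s4_orders : ∀ g : Equiv.Perm (Fin 4), g ^ 3 = 1 ∨ g ^ 4 = 1 := by
  decide +kernel

section sl

variable {R : Type*} [Field R]

/-- the trace -/
abbrev tr (A : Matrix.SpecialLinearGroup (Fin 2) R) : R := (A : Matrix (Fin 2) (Fin 2) R).trace

theorem center_of_smul {A : Matrix.SpecialLinearGroup (Fin 2) R} {U V : R} (hU : U ≠ 0)
    (h : U • (A : Matrix (Fin 2) (Fin 2) R) = V • (1 : Matrix (Fin 2) (Fin 2) R)) :
    A ∈ Subgroup.center (Matrix.SpecialLinearGroup (Fin 2) R) := by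
  have h1 : (A : Matrix (Fin 2) (Fin 2) R) = (U⁻¹ * V) • (1 : Matrix (Fin 2) (Fin 2) R) := by
    rw [mul_smul, ← h, smul_smul, inv_mul_cancel₀ hU, one_smul]
  rw [Matrix.SpecialLinearGroup.mem_center_iff]
  refine ⟨U⁻¹ * V, ?_, ?_⟩
  · have h3 := A.2
    rw [h1, det_smul, det_one, mul_one] at h3
    exact h3
  · rw [h1, Matrix.smul_one_eq_diagonal]; rfl

theorem coe_of_center {A : Matrix.SpecialLinearGroup (Fin 2) R} (h : A ∈ Subgroup.center (Matrix.SpecialLinearGroup (Fin 2) R)) :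
    ∃ e : R, (A : Matrix (Fin 2) (Fin 2) R) = e • (1 : Matrix (Fin 2) (Fin 2) R) := by
  rcases mem_center_SL2_iff.1 h with rfl | rfl
  · exact ⟨1, by rw [Matrix.SpecialLinearGroup.coe_one, one_smul]⟩
  · exact ⟨-1, by rw [Matrix.SpecialLinearGroup.coe_neg, Matrix.SpecialLinearGroup.coe_one, neg_smul, one_smul]⟩

theorem pow_two_center {A : Matrix.SpecialLinearGroup (Fin 2) R} (h : A ^ 2 ∈ Subgroup.center (Matrix.SpecialLinearGroup (Fin 2) R))
    (hA : A ∉ Subgroup.center (Matrix.SpecialLinearGroup (Fin 2) R)) : tr A = 0 := by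
  obtain ⟨e, he⟩ := coe_of_center h
  by_contra ht
  apply hA
  apply center_of_smul ht (V := e + 1)
  have h1 := sl2_mul_self A
  rw [pow_two, Matrix.SpecialLinearGroup.coe_mul, h1] at he
  rw [add_smul, one_smul, ← he]
  abel

theorem pow_three_center {A : Matrix.SpecialLinearGroup (Fin 2) R} (h : A ^ 3 ∈ Subgroup.center (Matrix.SpecialLinearGroup (Fin 2) R))
    (hA : A ∉ Subgroup.center (Matrix.SpecialLinearGroup (Fin 2) R)) : tr A ^ 2 = 1 := by
  obtain ⟨e, he⟩ := coe_of_center h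
  by_contra ht
  apply hA
  have ht' : tr A ^ 2 - 1 ≠ 0 := sub_ne_zero.2 ht
  apply center_of_smul ht' (V := e + tr A)
  have h1 := sl2_mul_self A
  rw [pow_succ, pow_two, Matrix.SpecialLinearGroup.coe_mul, Matrix.SpecialLinearGroup.coe_mul, h1, sub_mul, smul_mul_assoc, h1,
    one_mul] at he
  rw [add_smul, ← he]
  show (tr A ^ 2 - 1) • (A : Matrix (Fin 2) (Fin 2) R) = _
  module

theorem pow_four_center {A : Matrix.SpecialLinearGroup (Fin 2) R} (h : A ^ 4 ∈ Subgroup.center (Matrix.SpecialLinearGroup (Fin 2) R))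
    (hA : A ∉ Subgroup.center (Matrix.SpecialLinearGroup (Fin 2) R)) : tr A * (tr A ^ 2 - 2) = 0 := by
  obtain ⟨e, he⟩ := coe_of_center h
  by_contra ht
  apply hA
  apply center_of_smul ht (V := e + (tr A ^ 2 - 1))
  have h1 := sl2_mul_self A
  have h2 : (A ^ 4 : Matrix.SpecialLinearGroup (Fin 2) R) = (A * A) * A * A := by
    simp only [pow_succ, pow_zero, one_mul, mul_assoc]
  rw [h2, Matrix.SpecialLinearGroup.coe_mul, Matrix.SpecialLinearGroup.coe_mul, Matrix.SpecialLinearGroup.coe_mul, h1, sub_mul,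
    smul_mul_assoc, h1, one_mul, sub_mul, smul_mul_assoc, sub_mul, smul_mul_assoc, h1, one_mul] at he
  rw [add_smul, ← he]
  show (tr A * (tr A ^ 2 - 2)) • (A : Matrix (Fin 2) (Fin 2) R) = _
  module

theorem pow_five_center {A : Matrix.SpecialLinearGroup (Fin 2) R} (h : A ^ 5 ∈ Subgroup.center (Matrix.SpecialLinearGroup (Fin 2) R))
    (hA : A ∉ Subgroup.center (Matrix.SpecialLinearGroup (Fin 2) R)) : tr A ^ 4 - 3 * tr A ^ 2 + 1 = 0 := by
  obtain ⟨e, he⟩ := coe_of_center h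
  by_contra ht
  apply hA
  apply center_of_smul ht (V := e + (tr A ^ 3 - 2 * tr A))
  have h1 := sl2_mul_self A
  have h2 : (A ^ 5 : Matrix.SpecialLinearGroup (Fin 2) R) = (A * A) * A * A * A := by
    simp only [pow_succ, pow_zero, one_mul, mul_assoc]
  have h3 : ((A * A * A * A : Matrix.SpecialLinearGroup (Fin 2) R) : Matrix (Fin 2) (Fin 2) R) =
      (tr A ^ 3 - 2 * tr A) • (A : Matrix (Fin 2) (Fin 2) R) - (tr A ^ 2 - 1) • (1 : Matrix (Fin 2) (Fin 2) R) := by
    rw [Matrix.SpecialLinearGroup.coe_mul, Matrix.SpecialLinearGroup.coe_mul, Matrix.SpecialLinearGroup.coe_mul, h1, sub_mul,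
      smul_mul_assoc, h1, one_mul, sub_mul, smul_mul_assoc, sub_mul, smul_mul_assoc, h1, one_mul]
    module
  rw [h2, Matrix.SpecialLinearGroup.coe_mul, h3, sub_mul, smul_mul_assoc, smul_mul_assoc, h1, one_mul] at he
  rw [add_smul e, ← he]
  show (tr A ^ 4 - 3 * tr A ^ 2 + 1) • (A : Matrix (Fin 2) (Fin 2) R) = _
  module

theorem tr_comm (A B : Matrix.SpecialLinearGroup (Fin 2) R) : tr (A * B) = tr (B * A) := by
  show Matrix.trace _ = Matrix.trace _
  rw [Matrix.SpecialLinearGroup.coe_mul, Matrix.SpecialLinearGroup.coe_mul, Matrix.trace_mul_comm]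

theorem tr_conj (A B : Matrix.SpecialLinearGroup (Fin 2) R) : tr (B⁻¹ * A * B) = tr A := by
  rw [tr_comm, ← mul_assoc, mul_inv_cancel, one_mul]

/-- a pair of upper triangular matrices -/
theorem tr_upper {A B : Matrix.SpecialLinearGroup (Fin 2) R} (hA : A 1 0 = 0) (hB : B 1 0 = 0) :
    tr A ^ 2 + tr B ^ 2 + tr (A * B) ^ 2 - tr A * tr B * tr (A * B) = 4 := by
  have dA := A.2
  have dB := B.2
  rw [det_fin_two] at dA dB
  have hA' : (A : Matrix (Fin 2) (Fin 2) R) 1 0 = 0 := hA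
  have hB' : (B : Matrix (Fin 2) (Fin 2) R) 1 0 = 0 := hB
  show Matrix.trace _ ^ 2 + Matrix.trace _ ^ 2 + Matrix.trace _ ^ 2 - Matrix.trace _ * Matrix.trace _ * Matrix.trace _ = 4
  rw [Matrix.SpecialLinearGroup.coe_mul, trace_fin_two, trace_fin_two, trace_fin_two, Matrix.mul_apply, Matrix.mul_apply,
    Fin.sum_univ_two, Fin.sum_univ_two, hA', hB']
  rw [hA', mul_zero, sub_zero] at dA
  rw [hB', mul_zero, sub_zero] at dB
  set a := (A : Matrix (Fin 2) (Fin 2) R) 0 0
  set a' := (A : Matrix (Fin 2) (Fin 2) R) 1 1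
  set b := (B : Matrix (Fin 2) (Fin 2) R) 0 0
  set b' := (B : Matrix (Fin 2) (Fin 2) R) 1 1
  linear_combination (2 - b ^ 2 - b' ^ 2) * dA + (2 - a ^ 2 - a' ^ 2) * dB

theorem tr_fix [DecidableEq R] {A B : Matrix.SpecialLinearGroup (Fin 2) R} {x : OnePoint R} (hA : slHom R A x = x)
    (hB : slHom R B x = x) : tr A ^ 2 + tr B ^ 2 + tr (A * B) ^ 2 - tr A * tr B * tr (A * B) = 4 := by
  obtain ⟨b, hb⟩ := exists_slHom_infty x
  have key : ∀ C : Matrix.SpecialLinearGroup (Fin 2) R, slHom R C x = x → (b⁻¹ * C * b) 1 0 = 0 := by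
    intro C hC
    rw [← slHom_infty_iff, map_mul, map_mul, Equiv.Perm.mul_apply, Equiv.Perm.mul_apply, hb, hC, map_inv,
      Equiv.Perm.inv_eq_iff_eq, hb]
  have h := tr_upper (key A hA) (key B hB)
  have e : (b⁻¹ * A * b) * (b⁻¹ * B * b) = b⁻¹ * (A * B) * b := by group
  rw [e, tr_conj, tr_conj, tr_conj] at h
  exact h

/-- the trace of a commutator -/
theorem tr_add_inv (A B : Matrix.SpecialLinearGroup (Fin 2) R) : tr (A * B) + tr (A * B⁻¹) = tr A * tr B := by
  show Matrix.trace _ + Matrix.trace _ = Matrix.trace _ * Matrix.trace _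
  rw [Matrix.SpecialLinearGroup.coe_mul, Matrix.SpecialLinearGroup.coe_mul, Matrix.SpecialLinearGroup.coe_inv, adjugate_fin_two,
    trace_fin_two, trace_fin_two, trace_fin_two, trace_fin_two]
  simp [Matrix.mul_apply, Fin.sum_univ_two]
  ring

theorem tr_one : tr (1 : Matrix.SpecialLinearGroup (Fin 2) R) = 2 := by
  show Matrix.trace _ = 2
  rw [Matrix.SpecialLinearGroup.coe_one, trace_one, Fintype.card_fin]; norm_num

theorem tr_inv (A : Matrix.SpecialLinearGroup (Fin 2) R) : tr A⁻¹ = tr A := by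
  have h := tr_add_inv (1 : Matrix.SpecialLinearGroup (Fin 2) R) A
  rw [one_mul, one_mul, tr_one] at h
  linear_combination h

/-- commuting elements -/
theorem tr_commute {A B : Matrix.SpecialLinearGroup (Fin 2) R} (h : A * B = B * A) :
    tr A ^ 2 + tr B ^ 2 + tr (A * B) ^ 2 - tr A * tr B * tr (A * B) = 4 := by
  -- tr (A B A⁻¹ B⁻¹) = 2
  have h0 : tr (A * B * A⁻¹ * B⁻¹) = 2 := by
    rw [h]
    have : B * A * A⁻¹ * B⁻¹ = 1 := by group
    rw [this, tr_one]
  have h1 := tr_add_inv (A * B * A⁻¹) B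
  have h2 : tr (A * B * A⁻¹) = tr B := by
    have := tr_conj B A⁻¹
    rwa [inv_inv] at this
  have h3 := tr_add_inv (A * B) (A⁻¹ * B)
  have e1 : A * B * (A⁻¹ * B) = A * B * A⁻¹ * B := by group
  have e2 : A * B * (A⁻¹ * B)⁻¹ = A * A := by group
  rw [e1, e2] at h3
  have h4 := tr_add_inv A⁻¹ B⁻¹
  rw [inv_inv, ← _root_.mul_inv_rev, tr_inv, tr_inv, tr_inv, tr_comm B A] at h4
  have h5 := tr_add_inv A A
  rw [mul_inv_cancel, tr_one] at h5
  rw [h0, h2] at h1
  linear_combination -h1 + h3 - h5 + tr (A * B) * h4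

end sl

section main

variable {F : Type*} [Field F]

theorem mk_eq_mk_iff {A B : Matrix.SpecialLinearGroup (Fin 2) F} :
    (QuotientGroup.mk A : ProjectiveSpecialLinearGroup (Fin 2) F) = QuotientGroup.mk B ↔ B = A ∨ B = -A := by
  rw [QuotientGroup.eq, mem_center_SL2_iff, inv_mul_eq_iff_eq_mul, inv_mul_eq_iff_eq_mul, mul_one, mul_neg, mul_one]

theorem not_commute_mk (h2 : (2 : F) ≠ 0) {C1 C2 : Matrix.SpecialLinearGroup (Fin 2) F} (t2 : tr C2 ≠ 0)
    (hJ : tr (C1⁻¹ * C2) = 0) (hc : tr C1 ^ 2 + tr C2 ^ 2 ≠ 4) :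
    (QuotientGroup.mk C1 : ProjectiveSpecialLinearGroup (Fin 2) F) * QuotientGroup.mk C2 ≠
      QuotientGroup.mk C2 * QuotientGroup.mk C1 := by
  intro h
  rw [← QuotientGroup.mk_mul, ← QuotientGroup.mk_mul, mk_eq_mk_iff] at h
  rcases h with h | h
  · apply hc
    have h1 : C1 * (C1⁻¹ * C2) = (C1⁻¹ * C2) * C1 := by
      have : (C1⁻¹ * C2) * C1 = C1⁻¹ * (C2 * C1) := by group
      rw [this, h]; group
    have h3 := tr_commute h1
    rw [hJ] at h3
    have e : C1 * (C1⁻¹ * C2) = C2 := by group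
    rw [e] at h3
    linear_combination h3
  · apply t2
    have h1 : tr (C1⁻¹ * (C2 * C1)) = tr C2 := by
      rw [← mul_assoc]; exact tr_conj C2 C1
    rw [h] at h1
    have e : C1⁻¹ * -(C1 * C2) = - C2 := by rw [mul_neg]; group
    rw [e] at h1
    have h3 : tr (-C2) = - tr C2 := by
      show Matrix.trace _ = - Matrix.trace _
      rw [Matrix.SpecialLinearGroup.coe_neg, Matrix.trace_neg]
    rw [h3] at h1
    have h4 : 2 * tr C2 = 0 := by linear_combination -h1
    exact (mul_eq_zero.1 h4).resolve_left h2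

theorem not_center_of (h2 : (2 : F) ≠ 0) {C1 C2 : Matrix.SpecialLinearGroup (Fin 2) F} (t2 : tr C2 ≠ 0)
    (hJ : tr (C1⁻¹ * C2) = 0) (hc : tr C1 ^ 2 + tr C2 ^ 2 ≠ 4) : C1 ∉ Subgroup.center _ := by
  intro h
  apply not_commute_mk h2 t2 hJ hc
  have : (QuotientGroup.mk C1 : ProjectiveSpecialLinearGroup (Fin 2) F) = 1 := (QuotientGroup.eq_one_iff C1).2 h
  rw [this, one_mul, mul_one]

theorem tr_map {K : Type*} [Field K] (f : F →+* K) (A : Matrix.SpecialLinearGroup (Fin 2) F) :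
    tr (Matrix.SpecialLinearGroup.map f A) = f (tr A) := by
  show Matrix.trace _ = f (Matrix.trace _)
  rw [trace_fin_two, trace_fin_two, map_add]
  rfl

open Classical in
/-- **Dickson's theorem** in the form used here. -/
theorem sl_dickson [Fintype F] {p : ℕ} (hp : p.Prime) (hF : Fintype.card F = p) (h2 : (2 : F) ≠ 0)
    (H : Subgroup (Matrix.SpecialLinearGroup (Fin 2) F)) {C1 C2 : Matrix.SpecialLinearGroup (Fin 2) F} (hC1 : C1 ∈ H) (hC2 : C2 ∈ H)
    (t1 : tr C1 ≠ 0) (t2 : tr C2 ≠ 0) (hJ : tr (C1⁻¹ * C2) = 0) (hc : tr C1 ^ 2 + tr C2 ^ 2 ≠ 4) :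
    H = ⊤ ∨ ∀ C ∈ H, C ∉ Subgroup.center (Matrix.SpecialLinearGroup (Fin 2) F) →
      tr C ^ 2 = 0 ∨ tr C ^ 2 = 1 ∨ tr C ^ 2 = 2 ∨ tr C ^ 4 - 3 * tr C ^ 2 + 1 = 0 := by
  have : Fact p.Prime := ⟨hp⟩
  have : CharP F p := by
    obtain ⟨n, hp', hn⟩ := FiniteField.card F (ringChar F)
    have : p = ringChar F := by
      have h3 : p = ringChar F ^ (n : ℕ) := by rw [← hF, hn]
      have h4 : ringChar F ∣ p := by rw [h3]; exact dvd_pow_self _ n.ne_zero
      exact ((Nat.prime_dvd_prime_iff_eq hp' hp).1 h4).symm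
    rw [this]
    exact ringChar.charP F
  let π : Matrix.SpecialLinearGroup (Fin 2) F →* ProjectiveSpecialLinearGroup (Fin 2) F := QuotientGroup.mk' _
  have hπ : ∀ g, π g = QuotientGroup.mk g := fun _ => rfl
  have hJ' : tr (C2⁻¹ * C1) = 0 := by
    have : (C2⁻¹ * C1) = (C1⁻¹ * C2)⁻¹ := by group
    rw [this, tr_inv, hJ]
  have hc' : tr C2 ^ 2 + tr C1 ^ 2 ≠ 4 := by rw [add_comm]; exact hc
  have nc1 := not_center_of h2 t2 hJ hc
  have nc2 := not_center_of h2 t1 hJ' hc'
  have ncomm := not_commute_mk h2 t2 hJ hc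
  have m1 : π C1 ∈ H.map π := Subgroup.mem_map_of_mem π hC1
  have m2 : π C2 ∈ H.map π := Subgroup.mem_map_of_mem π hC2
  have pow_center : ∀ (C : Matrix.SpecialLinearGroup (Fin 2) F) (k : ℕ), (π C) ^ k = 1 →
      C ^ k ∈ Subgroup.center (Matrix.SpecialLinearGroup (Fin 2) F) := by
    intro C k h
    rw [← map_pow] at h
    exact (QuotientGroup.eq_one_iff (C ^ k)).1 h
  have order_of : ∀ (k : ℕ) (C) (hC : C ∈ H) {G : Type} [Group G] (e : H.map π ≃* G)
      (h : (e ⟨π C, Subgroup.mem_map_of_mem π hC⟩) ^ k = 1), C ^ k ∈ Subgroup.center (Matrix.SpecialLinearGroup (Fin 2) F) := by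
    intro k C hC G _ e h
    apply pow_center
    rw [← map_pow, e.map_eq_one_iff] at h
    exact congrArg Subtype.val h
  rcases dickson_fix hF p (H.map π) with (hcyc | ⟨k, ⟨e⟩⟩) | ⟨x, hx⟩ | ⟨⟨e⟩⟩ | ⟨⟨e⟩⟩ | ⟨⟨e⟩⟩ | ⟨L, _, _, m, hm, hL⟩
  · -- cyclic
    exfalso
    apply ncomm
    obtain ⟨g, hg⟩ := hcyc.exists_generator
    obtain ⟨a, ha⟩ := Subgroup.mem_zpowers_iff.1 (hg ⟨π C1, m1⟩)
    obtain ⟨b, hb⟩ := Subgroup.mem_zpowers_iff.1 (hg ⟨π C2, m2⟩)
    have h3 : (⟨π C1, m1⟩ : H.map π) * ⟨π C2, m2⟩ = ⟨π C2, m2⟩ * ⟨π C1, m1⟩ := by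
      rw [← ha, ← hb, ← _root_.zpow_add, ← _root_.zpow_add, add_comm]
    exact congrArg Subtype.val h3
  · -- dihedral
    exfalso
    have rot : ∀ C (hC : C ∈ H), tr C ≠ 0 → C ∉ Subgroup.center (Matrix.SpecialLinearGroup (Fin 2) F) →
        ∃ i, e ⟨π C, Subgroup.mem_map_of_mem π hC⟩ = DihedralGroup.r i := by
      intro C hC ht hcen
      rcases h : e ⟨π C, Subgroup.mem_map_of_mem π hC⟩ with i | i
      · exact ⟨i, rfl⟩
      · exfalso
        apply ht
        apply pow_two_center _ hcen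
        apply order_of 2 C hC e
        rw [h, pow_two, DihedralGroup.sr_mul_self]
    obtain ⟨i, hi⟩ := rot C1 hC1 t1 nc1
    obtain ⟨i', hi'⟩ := rot C2 hC2 t2 nc2
    apply ncomm
    have h3 : (⟨π C1, m1⟩ : H.map π) * ⟨π C2, m2⟩ = ⟨π C2, m2⟩ * ⟨π C1, m1⟩ := by
      apply e.injective
      rw [map_mul, map_mul]
      have hi2 : e ⟨π C1, m1⟩ = DihedralGroup.r i := hi
      have hi3 : e ⟨π C2, m2⟩ = DihedralGroup.r i' := hi'
      rw [hi2, hi3, DihedralGroup.r_mul_r, DihedralGroup.r_mul_r, add_comm]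
    exact congrArg Subtype.val h3
  · -- fixed point
    exfalso
    apply hc
    have fx : ∀ C ∈ H, slHom (AlgebraicClosure F) (Matrix.SpecialLinearGroup.map (algebraMap F (AlgebraicClosure F)) C) x = x := by
      intro C hC
      exact hx (π C) (Subgroup.mem_map_of_mem π hC)
    have h3 := tr_fix (fx C1 hC1) (fx _ (H.mul_mem (H.inv_mem hC1) hC2))
    rw [← map_mul, tr_map, tr_map, tr_map, hJ] at h3
    have e : C1 * (C1⁻¹ * C2) = C2 := by group
    rw [e, map_zero] at h3
    apply (algebraMap F (AlgebraicClosure F)).injective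
    rw [map_add, map_pow, map_pow, map_ofNat]
    linear_combination h3
  · -- A4
    right
    intro C hC hcen
    have h3 := s4_orders ((e ⟨π C, Subgroup.mem_map_of_mem π hC⟩ : alternatingGroup (Fin 4)) : Equiv.Perm (Fin 4))
    rcases h3 with h3 | h3
    · right; left
      apply pow_three_center (order_of 3 C hC e (Subtype.ext h3)) hcen
    · have := pow_four_center (order_of 4 C hC e (Subtype.ext h3)) hcen
      rcases mul_eq_zero.1 this with h4 | h4
      · left; rw [h4]; ring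
      · right; right; left; linear_combination h4
  · -- S4
    right
    intro C hC hcen
    rcases s4_orders (e ⟨π C, Subgroup.mem_map_of_mem π hC⟩) with h3 | h3
    · right; left
      apply pow_three_center (order_of 3 C hC e h3) hcen
    · have := pow_four_center (order_of 4 C hC e h3) hcen
      rcases mul_eq_zero.1 this with h4 | h4
      · left; rw [h4]; ring
      · right; right; left; linear_combination h4
  · -- A5
    right
    intro C hC hcen
    have h3 := a5_orders ((e ⟨π C, Subgroup.mem_map_of_mem π hC⟩ : alternatingGroup (Fin 5)) : Equiv.Perm (Fin 5))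
      (Equiv.Perm.mem_alternatingGroup.1 (e ⟨π C, Subgroup.mem_map_of_mem π hC⟩).2)
    rcases h3 with h3 | h3 | h3
    · left
      rw [pow_two_center (order_of 2 C hC e (Subtype.ext h3)) hcen]; ring
    · right; left
      exact pow_three_center (order_of 3 C hC e (Subtype.ext h3)) hcen
    · right; right; right
      exact pow_five_center (order_of 5 C hC e (Subtype.ext h3)) hcen
  · -- everything
    left
    have hLp : Fintype.card L = p := by
      have h1 : 1 < Fintype.card L := Fintype.one_lt_card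
      have hm0 : m ≠ 0 := by
        rintro rfl
        rw [pow_zero] at hm
        exact hp.one_lt.ne hm
      have h3 : Fintype.card L ∣ p := by rw [← hm]; exact dvd_pow_self _ hm0
      rcases (Nat.dvd_prime hp).1 h3 with h4 | h4
      · omega
      · exact h4
    have hodd : Odd (Fintype.card F) := (two_ne_zero_iff_odd F).1 h2
    have cF := card_PSL2_odd F hodd
    have hcard : Nat.card (ProjectiveSpecialLinearGroup (Fin 2) F) ≤ Nat.card (H.map π) := by
      rcases hL with ⟨⟨e⟩⟩ | ⟨⟨e⟩⟩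
      · rw [Nat.card_congr e.toEquiv]
        have cL := card_PSL2_odd L (by rw [hLp, ← hF]; exact hodd)
        rw [hLp, ← hF, ← cF] at cL
        omega
      · rw [Nat.card_congr e.toEquiv]
        have cL := card_PGL2 L
        rw [hLp, ← hF] at cL
        rw [cL, ← cF]
        omega
    have htop : H.map π = ⊤ := by
      apply Subgroup.eq_top_of_card_eq
      apply le_antisymm _ hcard
      exact Subgroup.card_le_card_group _
    rw [eq_top_iff]
    intro g _
    have hg : π g ∈ H.map π := by rw [htop]; trivial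
    obtain ⟨h, hh, hhg⟩ := Subgroup.mem_map.1 hg
    have hneg : (-1 : Matrix.SpecialLinearGroup (Fin 2) F) ∈ H := by
      rw [← sl2_sq_of_trace_zero hJ]
      exact H.pow_mem (H.mul_mem (H.inv_mem hC1) hC2) 2
    rcases mk_eq_mk_iff.1 hhg with h4 | h4
    · rw [h4]; exact hh
    · rw [h4]
      have : -h = (-1) * h := by rw [neg_mul, one_mul]
      rw [this]
      exact H.mul_mem hneg hh

end main

end Cfsg.Agent.H928
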