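import Cfsg.Agent.H928.FrameK
set_option linter.all false

/-!
# Orthogonal frames XI: minimal roots, `p ≥ 7`
-/

set_option autoImplicit false
set_option linter.unusedSectionVars false
set_option linter.unusedSimpArgs false
set_option linter.unusedVariables false

namespace Cfsg.Agent.H928

open Matrix

variable {ι : Type*} [Fintype ι] [DecidableEq ι] {F : Type*} [Field F]
variable {X : Subgroup ((ι → F) ≃ₗ[F] (ι → F))}

open Classical in
/-- the size of the support -/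
noncomputable def sz (u : ι → F) : ℕ := (Finset.univ.filter (fun k => u k ≠ 0)).card

theorem sz_congr {u v : ι → F} (h : ∀ k, v k = 0 ↔ u k = 0) : sz v = sz u := by
  classical
  unfold sz
  congr 1
  ext k
  simp only [Finset.mem_filter, Finset.mem_univ, true_and, ne_eq, h k]

theorem sz_erase {u v : ι → F} {i : ι} (hi : u i ≠ 0) (hvi : v i = 0) (h : ∀ k, k ≠ i → (v k = 0 ↔ u k = 0)) :
    sz v + 1 = sz u := by
  classical
  unfold sz
  have e : (Finset.univ.filter (fun k => v k ≠ 0)) = (Finset.univ.filter (fun k => u k ≠ 0)).erase i := by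
    ext k
    simp only [Finset.mem_filter, Finset.mem_univ, true_and, ne_eq, Finset.mem_erase]
    by_cases hk : k = i
    · subst hk; simp [hvi]
    · simp [hk, h k hk]
  rw [e]
  exact Finset.card_erase_add_one (Finset.mem_filter.2 ⟨Finset.mem_univ _, hi⟩)

theorem supp2_of_sz {u : ι → F} (h : sz u ≤ 2) (hne : Nonempty ι) : Supp2 u := by
  classical
  obtain ⟨T, hST, hT⟩ : ∃ T : Finset ι, (Finset.univ.filter (fun k => u k ≠ 0)) ⊆ T ∧ T.card ≤ 2 := ⟨_, subset_refl _, h⟩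
  obtain ⟨i0⟩ := hne
  have key : ∀ c, c ∉ T → u c = 0 := by
    intro c hc
    by_contra h'
    exact hc (hST (Finset.mem_filter.2 ⟨Finset.mem_univ _, h'⟩))
  rcases Nat.lt_or_ge T.card 1 with h1 | h1
  · have : T = ∅ := Finset.card_eq_zero.1 (by omega)
    exact ⟨i0, i0, fun c _ _ => key c (by rw [this]; simp)⟩
  · rcases Nat.lt_or_ge T.card 2 with h3 | h3
    · obtain ⟨a, ha⟩ := Finset.card_eq_one.1 (show T.card = 1 by omega)
      exact ⟨a, a, fun c h _ => key c (by rw [ha]; simpa using h)⟩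
    · obtain ⟨a, b, _, hab⟩ := Finset.card_eq_two.1 (show T.card = 2 by omega)
      exact ⟨a, b, fun c h h' => key c (by rw [hab]; simp [h, h'])⟩

theorem exists_three_of_sz {u : ι → F} (h : 4 ≤ sz u) (i : ι) : ∃ j k l, j ≠ i ∧ k ≠ i ∧ l ≠ i ∧ j ≠ k ∧ j ≠ l ∧ k ≠ l ∧
    u j ≠ 0 ∧ u k ≠ 0 ∧ u l ≠ 0 := by
  classical
  have h1 : 2 < ((Finset.univ.filter (fun k => u k ≠ 0)).erase i).card := by
    have := le_card_erase (Finset.univ.filter (fun k => u k ≠ 0)) i
    unfold sz at h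
    omega
  obtain ⟨j, k, l, hj, hk, hl, hjk, hjl, hkl⟩ := Finset.two_lt_card_iff.1 h1
  simp only [Finset.mem_erase, Finset.mem_filter, Finset.mem_univ, true_and] at hj hk hl
  exact ⟨j, k, l, hj.1, hk.1, hl.1, hjk, hjl, hkl, hj.2, hk.2, hl.2⟩

/-- the quadratic condition -/
def Gd (a : F) : Prop := a = 1 ∨ a ^ 2 - 3 * a + 1 = 0

theorem Gd_sq (h2 : (2 : F) ≠ 0) (h5 : (5 : F) ≠ 0) {b : F} (h : Gd b) (h' : Gd (b ^ 2)) : b = 1 := by
  rcases h with h | h
  · exact h
  exfalso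
  rcases h' with h' | h'
  · apply h5
    have : 3 * b = 2 := by linear_combination -h + h'
    linear_combination (3 * b + 2) * this - 9 * h'
  · have h12 : 2 * 2 * (3 * b - 1) = 0 := by
      linear_combination h' - (b ^ 2 + 3 * b + 5) * h
    have h3b := (mul_eq_zero.1 h12).resolve_left (mul_ne_zero h2 h2)
    have hb2 : b ^ 2 = 0 := by linear_combination h + h3b
    have hb : b = 0 := pow_eq_zero_iff two_ne_zero |>.1 hb2
    rw [hb] at h3b
    exact one_ne_zero (α := F) (by linear_combination -h3b)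

/-- rational points of the conic -/
theorem exists_conic (h2 : (2 : F) ≠ 0) (h3 : (3 : F) ≠ 0) (h5 : (5 : F) ≠ 0) {N : F} (hN : N ≠ 0) :
    ∃ α γ : F, α ≠ 0 ∧ γ ≠ 0 ∧ α ^ 2 + N * γ ^ 2 = 1 := by
  have key : ∀ t : F, t ≠ 0 → N * t ^ 2 - 1 ≠ 0 → N * t ^ 2 + 1 ≠ 0 →
      ∃ α γ : F, α ≠ 0 ∧ γ ≠ 0 ∧ α ^ 2 + N * γ ^ 2 = 1 := by
    intro t ht h1 h4
    refine ⟨(N * t ^ 2 - 1) / (N * t ^ 2 + 1), 2 * t / (N * t ^ 2 + 1), div_ne_zero h1 h4,
      div_ne_zero (mul_ne_zero h2 ht) h4, ?_⟩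
    field_simp
    ring
  by_cases hN2 : N ^ 2 = 1
  · apply key 2 h2
    · intro h
      have h16 : (16 : F) = 1 := by linear_combination (4 * N + 1) * h - 16 * hN2
      have : (3 : F) * 5 = 0 := by linear_combination h16
      exact (mul_ne_zero h3 h5) this
    · intro h
      have h16 : (16 : F) = 1 := by linear_combination (4 * N - 1) * h - 16 * hN2
      have : (3 : F) * 5 = 0 := by linear_combination h16
      exact (mul_ne_zero h3 h5) this
  · apply key 1 one_ne_zero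
    · intro h; apply hN2; linear_combination (N + 1) * h
    · intro h; apply hN2; linear_combination (N - 1) * h

section Min

variable (B : Base X) [Fintype F] {p : ℕ} (hp : p.Prime) (hF : Fintype.card F = p)
  (h3 : (3 : F) ≠ 0) (h5 : (5 : F) ≠ 0) (hn : 7 ≤ Fintype.card ι) {s : ℕ} (hs : 4 ≤ s)
  (hmin : ∀ v, Root X v → sz v < s → sz v ≤ 2)

include B hp hF h3 h5 hn hs hmin

theorem nf_of_min {u : ι → F} (hu : Root X u) (hus : sz u = s) {i j : ι} (hij : i ≠ j) (hi : u i ≠ 0) (hj : u j ≠ 0)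
    (hN : u i ^ 2 + u j ^ 2 ≠ 1) {w : ι → F} (hw : w = u - u i • ee F i - u j • ee F j) :
    (∀ z z', Root X z → Root X z' → InP i j w z → InP i j w z' → z' = z ∨ z' = -z ∨
      4 * (z ⬝ᵥ z') ^ 2 = 0 ∨ 4 * (z ⬝ᵥ z') ^ 2 = 1 ∨ 4 * (z ⬝ᵥ z') ^ 2 = 2 ∨
      (4 * (z ⬝ᵥ z') ^ 2) ^ 2 - 3 * (4 * (z ⬝ᵥ z') ^ 2) + 1 = 0) := by
  rcases B.lemD hp hF hu hij hi hj hN hw with h | h
  · exfalso
    have h2 := B.two
    have hN0 : 1 - u i ^ 2 - u j ^ 2 ≠ 0 := by
      intro h; apply hN; linear_combination -h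
    obtain ⟨α, γ, hα, hγ, hc⟩ := exists_conic h2 h3 h5 hN0
    have hwi : w i = 0 := by
      rw [hw]; simp only [Pi.sub_apply, Pi.smul_apply, smul_eq_mul]; rw [ee_same, ee_ne hij]; ring
    have hwj : w j = 0 := by
      rw [hw]; simp only [Pi.sub_apply, Pi.smul_apply, smul_eq_mul]; rw [ee_same, ee_ne (Ne.symm hij)]; ring
    have hwk : ∀ k, k ≠ i → k ≠ j → w k = u k := by
      intro k h1 h4
      rw [hw]; simp only [Pi.sub_apply, Pi.smul_apply, smul_eq_mul]; rw [ee_ne h1, ee_ne h4]; ring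
    have hwu : w ⬝ᵥ u = 1 - u i ^ 2 - u j ^ 2 := by
      rw [hw, sub_dotProduct, sub_dotProduct, smul_dotProduct, smul_dotProduct, ee_dot, ee_dot, hu.1]
      simp only [smul_eq_mul]; ring
    have hww : w ⬝ᵥ w = 1 - u i ^ 2 - u j ^ 2 := by
      have : w ⬝ᵥ w = w ⬝ᵥ u - u i * w i - u j * w j := by
        conv_lhs => rw [hw]
        rw [sub_dotProduct, sub_dotProduct, smul_dotProduct, smul_dotProduct, ee_dot, ee_dot, ← hw,
          dotProduct_comm u w]
        rfl
      rw [this, hwi, hwj, hwu]; ring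
    have hz1 : (α • ee F i + γ • w) ⬝ᵥ (α • ee F i + γ • w) = 1 := by
      simp only [add_dotProduct, dotProduct_add, smul_dotProduct, dotProduct_smul, smul_eq_mul, ee_dot, dot_ee,
        hwi, hww, Pi.add_apply, Pi.smul_apply]
      rw [ee_same]
      linear_combination hc
    have hr := h (α • ee F i + γ • w) hz1 ⟨α, 0, γ, by module⟩
    have hsz : sz (α • ee F i + γ • w) + 1 = sz u := by
      apply sz_erase hj
      · simp only [Pi.add_apply, Pi.smul_apply, smul_eq_mul]; rw [ee_ne (Ne.symm hij), hwj]; ring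
      · intro k hk
        simp only [Pi.add_apply, Pi.smul_apply, smul_eq_mul]
        by_cases hki : k = i
        · subst hki
          rw [ee_same, hwi, mul_one, mul_zero, add_zero]
          exact ⟨fun h => absurd h hα, fun h => absurd h hi⟩
        · rw [ee_ne hki, hwk k hki hk, mul_zero, zero_add, mul_eq_zero]
          exact ⟨fun h => h.resolve_left hγ, fun h => Or.inr h⟩
    have := hmin _ hr (by omega)
    omega
  · exact h

theorem two_sq_ne {u : ι → F} (hu : Root X u) (hus : sz u = s) {i : ι} (hi : u i ≠ 0) : 2 * u i ^ 2 ≠ 1 := by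
  intro h
  have h2 := B.two
  have hr := B.root_rf hu (B.root_ee i)
  have e : ∀ k, rf u (ee F i) k = (ee F i : ι → F) k - 2 * u i * u k := by
    intro k; rw [rf_apply hu.1, ee_dot]; rfl
  have hsz : sz (rf u (ee F i)) + 1 = sz u := by
    apply sz_erase hi
    · rw [e, ee_same]; linear_combination -h
    · intro k hk
      rw [e, ee_ne hk, zero_sub, neg_eq_zero, mul_eq_zero]
      exact ⟨fun h => h.resolve_left (mul_ne_zero h2 hi), fun h => Or.inr h⟩
  have := hmin _ hr (by omega)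
  omega

theorem rf_coord {u : ι → F} (hu : Root X u) (hus : sz u = s) {i : ι} (hi : u i ≠ 0) :
    Root X (rf u (ee F i)) ∧ sz (rf u (ee F i)) = s ∧ rf u (ee F i) i = 1 - 2 * u i ^ 2 ∧
    ∀ k, k ≠ i → rf u (ee F i) k = - (2 * u i * u k) := by
  have h2 := B.two
  have hr := B.root_rf hu (B.root_ee i)
  have e : ∀ k, rf u (ee F i) k = (ee F i : ι → F) k - 2 * u i * u k := by
    intro k; rw [rf_apply hu.1, ee_dot]; rfl
  have hne := two_sq_ne B hp hF h3 h5 hn hs hmin hu hus hi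
  have e1 : rf u (ee F i) i = 1 - 2 * u i ^ 2 := by rw [e, ee_same]; ring
  have e2 : ∀ k, k ≠ i → rf u (ee F i) k = - (2 * u i * u k) := by
    intro k hk
    rw [e, ee_ne hk, zero_sub]
  refine ⟨hr, ?_, e1, e2⟩
  rw [← hus]
  apply sz_congr
  intro k
  by_cases hk : k = i
  · subst hk
    rw [e1]
    exact ⟨fun h => absurd (by linear_combination -h) hne, fun h => absurd h hi⟩
  · rw [e2 k hk, neg_eq_zero, mul_eq_zero]
    exact ⟨fun h => h.resolve_left (mul_ne_zero h2 hi), fun h => Or.inr h⟩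

theorem Gd_of_pair {u : ι → F} (hu : Root X u) (hus : sz u = s) {i j : ι} (hij : i ≠ j) (hi : u i ≠ 0) (hj : u j ≠ 0)
    (hN : u i ^ 2 + u j ^ 2 ≠ 1) : Gd (4 * u i ^ 2) := by
  have h2 := B.two
  have hne := two_sq_ne B hp hF h3 h5 hn hs hmin hu hus hi
  rcases nf_of_min B hp hF h3 h5 hn hs hmin hu hus hij hi hj hN rfl u (ee F i) hu (B.root_ee i)
    ⟨u i, u j, 1, by module⟩ ⟨1, 0, 0, by module⟩ with h | h | h | h | h | h
  · exfalso
    apply hj
    rw [← h, ee_ne (Ne.symm hij)]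
  · exfalso
    apply hj
    have := congrFun h j
    rw [ee_ne (Ne.symm hij), Pi.neg_apply] at this
    exact neg_eq_zero.1 this.symm
  · exfalso
    rw [dot_ee] at h
    have : 2 * 2 * u i ^ 2 = 0 := by linear_combination h
    exact hi (pow_eq_zero_iff two_ne_zero |>.1 ((mul_eq_zero.1 this).resolve_left (mul_ne_zero h2 h2)))
  · left; rw [dot_ee] at h; exact h
  · exfalso
    apply hne
    rw [dot_ee] at h
    apply mul_left_cancel₀ h2
    linear_combination h
  · right; rw [dot_ee] at h; exact h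

theorem Gd_all {u : ι → F} (hu : Root X u) (hus : sz u = s) {i : ι} (hi : u i ≠ 0) : Gd (4 * u i ^ 2) := by
  have h2 := B.two
  by_contra hG
  have hall : ∀ j, j ≠ i → u j ≠ 0 → u i ^ 2 + u j ^ 2 = 1 := by
    intro j hji hj
    by_contra h
    exact hG (Gd_of_pair B hp hF h3 h5 hn hs hmin hu hus (Ne.symm hji) hi hj h)
  obtain ⟨j, k, l, hji, hki, hli, hjk, hjl, hkl, hj, hk, hl⟩ := exists_three_of_sz (by omega : 4 ≤ sz u) i
  have ej := hall j hji hj
  have ek := hall k hki hk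
  have el := hall l hli hl
  have nj := two_sq_ne B hp hF h3 h5 hn hs hmin hu hus hj
  have g1 : Gd (4 * u j ^ 2) := Gd_of_pair B hp hF h3 h5 hn hs hmin hu hus hjk hj hk (by
    intro h; apply nj; linear_combination h - ek + ej)
  obtain ⟨r1, s1, _, c1⟩ := rf_coord B hp hF h3 h5 hn hs hmin hu hus hj
  have hk1 := c1 k (Ne.symm hjk)
  have hl1 := c1 l (Ne.symm hjl)
  have hk1' : rf u (ee F j) k ≠ 0 := by rw [hk1]; exact neg_ne_zero.2 (mul_ne_zero (mul_ne_zero h2 hj) hk)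
  have hl1' : rf u (ee F j) l ≠ 0 := by rw [hl1]; exact neg_ne_zero.2 (mul_ne_zero (mul_ne_zero h2 hj) hl)
  have nk1 := two_sq_ne B hp hF h3 h5 hn hs hmin r1 s1 hk1'
  have g2 : Gd (4 * rf u (ee F j) k ^ 2) := Gd_of_pair B hp hF h3 h5 hn hs hmin r1 s1 hkl hk1' hl1' (by
    intro h; apply nk1; rw [hk1] at h ⊢; rw [hl1] at h
    linear_combination h - 4 * u j ^ 2 * (el - ek))
  have e2 : 4 * rf u (ee F j) k ^ 2 = (4 * u j ^ 2) ^ 2 := by
    rw [hk1]; linear_combination 16 * u j ^ 2 * (ek - ej)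
  rw [e2] at g2
  have hb := Gd_sq h2 h5 g1 g2
  obtain ⟨r3, s3, _, c3⟩ := rf_coord B hp hF h3 h5 hn hs hmin hu hus hi
  have hj3 := c3 j hji
  have hk3 := c3 k hki
  have hj3' : rf u (ee F i) j ≠ 0 := by rw [hj3]; exact neg_ne_zero.2 (mul_ne_zero (mul_ne_zero h2 hi) hj)
  have hk3' : rf u (ee F i) k ≠ 0 := by rw [hk3]; exact neg_ne_zero.2 (mul_ne_zero (mul_ne_zero h2 hi) hk)
  have nj3 := two_sq_ne B hp hF h3 h5 hn hs hmin r3 s3 hj3'
  have g3 : Gd (4 * rf u (ee F i) j ^ 2) := Gd_of_pair B hp hF h3 h5 hn hs hmin r3 s3 hjk hj3' hk3' (by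
    intro h; apply nj3; rw [hj3] at h ⊢; rw [hk3] at h
    linear_combination h - 4 * u i ^ 2 * (ek - ej))
  have e3 : 4 * rf u (ee F i) j ^ 2 = 3 := by
    rw [hj3]; linear_combination (4 * u i ^ 2 - 1) * hb + 4 * ej
  rw [e3] at g3
  rcases g3 with h | h
  · exact h2 (by linear_combination h)
  · exact one_ne_zero (α := F) (by linear_combination h)

theorem one_all {u : ι → F} (hu : Root X u) (hus : sz u = s) {i : ι} (hi : u i ≠ 0) : 4 * u i ^ 2 = 1 := by
  have h2 := B.two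
  by_contra hA
  have gi := Gd_all B hp hF h3 h5 hn hs hmin hu hus hi
  have hα : (4 * u i ^ 2) ^ 2 - 3 * (4 * u i ^ 2) + 1 = 0 := gi.resolve_left hA
  obtain ⟨r3, s3, _, c3⟩ := rf_coord B hp hF h3 h5 hn hs hmin hu hus hi
  -- the other coordinates
  have others : ∀ j, j ≠ i → u j ≠ 0 → 4 * u j ^ 2 = 1 ∨ 4 * u j ^ 2 = 3 - 4 * u i ^ 2 := by
    intro j hji hj
    rcases Gd_all B hp hF h3 h5 hn hs hmin hu hus hj with h | h
    · exact Or.inl h
    · right
      have hf : (4 * u j ^ 2 - 4 * u i ^ 2) * (4 * u j ^ 2 + 4 * u i ^ 2 - 3) = 0 := by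
        linear_combination h - hα
      rcases mul_eq_zero.1 hf with h' | h'
      · exfalso
        have hj3 := c3 j hji
        have hj3' : rf u (ee F i) j ≠ 0 := by
          rw [hj3]; exact neg_ne_zero.2 (mul_ne_zero (mul_ne_zero h2 hi) hj)
        have g3 := Gd_all B hp hF h3 h5 hn hs hmin r3 s3 hj3'
        have e3 : 4 * rf u (ee F i) j ^ 2 = (4 * u i ^ 2) ^ 2 := by
          rw [hj3]; linear_combination 4 * u i ^ 2 * h'
        rw [e3] at g3
        exact hA (Gd_sq h2 h5 gi g3)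
      · linear_combination h'
  obtain ⟨j, k, l, hji, hki, hli, hjk, hjl, hkl, hj, hk, hl⟩ := exists_three_of_sz (by omega : 4 ≤ sz u) i
  -- two ones are impossible
  have no_ones : ∀ j k, j ≠ i → k ≠ i → j ≠ k → u j ≠ 0 → u k ≠ 0 → 4 * u j ^ 2 = 1 → 4 * u k ^ 2 = 1 → False := by
    intro j k hji hki hjk hj hk ej ek
    have hj3 := c3 j hji
    have hk3 := c3 k hki
    have hj3' : rf u (ee F i) j ≠ 0 := by
      rw [hj3]; exact neg_ne_zero.2 (mul_ne_zero (mul_ne_zero h2 hi) hj)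
    have hk3' : rf u (ee F i) k ≠ 0 := by
      rw [hk3]; exact neg_ne_zero.2 (mul_ne_zero (mul_ne_zero h2 hi) hk)
    obtain ⟨r4, s4, _, c4⟩ := rf_coord B hp hF h3 h5 hn hs hmin r3 s3 hj3'
    have hk4 := c4 k (Ne.symm hjk)
    have hk4' : rf (rf u (ee F i)) (ee F j) k ≠ 0 := by
      rw [hk4]; exact neg_ne_zero.2 (mul_ne_zero (mul_ne_zero h2 hj3') hk3')
    have g4 := Gd_all B hp hF h3 h5 hn hs hmin r4 s4 hk4'
    have e4 : 4 * rf (rf u (ee F i)) (ee F j) k ^ 2 = (4 * u i ^ 2) ^ 2 := by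
      rw [hk4, hj3, hk3]
      linear_combination 16 * u i ^ 4 * (4 * u k ^ 2 * ej + ek)
    rw [e4] at g4
    exact hA (Gd_sq h2 h5 gi g4)
  have no_alpha : ∀ j k, j ≠ i → k ≠ i → j ≠ k → u j ≠ 0 → u k ≠ 0 → 4 * u j ^ 2 = 3 - 4 * u i ^ 2 →
      4 * u k ^ 2 = 3 - 4 * u i ^ 2 → False := by
    intro j k hji hki hjk hj hk ej ek
    obtain ⟨r4, s4, _, c4⟩ := rf_coord B hp hF h3 h5 hn hs hmin hu hus hj
    have hk4 := c4 k (Ne.symm hjk)
    have hk4' : rf u (ee F j) k ≠ 0 := by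
      rw [hk4]; exact neg_ne_zero.2 (mul_ne_zero (mul_ne_zero h2 hj) hk)
    have g4 := Gd_all B hp hF h3 h5 hn hs hmin r4 s4 hk4'
    have gj := Gd_all B hp hF h3 h5 hn hs hmin hu hus hj
    have e4 : 4 * rf u (ee F j) k ^ 2 = (4 * u j ^ 2) ^ 2 := by
      rw [hk4]; linear_combination 4 * u j ^ 2 * (ek - ej)
    rw [e4] at g4
    have h1 := Gd_sq h2 h5 gj g4
    -- then 4 u_i^2 = 2
    have h4 : 4 * u i ^ 2 = 2 := by linear_combination -h1 + ej
    rw [h4] at hα
    exact one_ne_zero (α := F) (by linear_combination -hα)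
  rcases others j hji hj with ej | ej <;> rcases others k hki hk with ek | ek <;> rcases others l hli hl with el | el
  · exact no_ones j k hji hki hjk hj hk ej ek
  · exact no_ones j k hji hki hjk hj hk ej ek
  · exact no_ones j l hji hli hjl hj hl ej el
  · exact no_alpha k l hki hli hkl hk hl ek el
  · exact no_ones k l hki hli hkl hk hl ek el
  · exact no_alpha j l hji hli hjl hj hl ej el
  · exact no_alpha j k hji hki hjk hj hk ej ek
  · exact no_alpha j k hji hki hjk hj hk ej ek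

end Min

end Cfsg.Agent.H928
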