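import Cfsg.Agent.H928.FrameM
import Cfsg.Agent.H928.FrameF
import Cfsg.Agent.H886.Decomp
set_option linter.all false

-- part: H928/FrameN
section
/-!
# Orthogonal frames XIII: roots with three non-zero coordinates, `p ≥ 7`
-/

set_option autoImplicit false
set_option linter.unusedSectionVars false
set_option linter.unusedSimpArgs false
set_option linter.unusedVariables false

namespace Cfsg.Agent.H928

open Matrix

variable {ι : Type*} [Fintype ι] [DecidableEq ι] {F : Type*} [Field F]
variable {X : Subgroup ((ι → F) ≃ₗ[F] (ι → F))}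

/-- moving a root with three coordinates -/
theorem Base.root_move3 (B : Base X) (hn : 5 ≤ Fintype.card ι) {i j k i' j' k' : ι} (hij : i ≠ j) (hik : i ≠ k)
    (hjk : j ≠ k) (hij' : i' ≠ j') (hik' : i' ≠ k') (hjk' : j' ≠ k') {u v : ι → F} (hu : Root X u)
    (hz : ∀ l, l ≠ i → l ≠ j → l ≠ k → u l = 0) (hz' : ∀ l, l ≠ i' → l ≠ j' → l ≠ k' → v l = 0)
    (h1 : v i' ^ 2 = u i ^ 2) (h2 : v j' ^ 2 = u j ^ 2) (h3 : v k' ^ 2 = u k ^ 2) : Root X v := by
  obtain ⟨σ, s1, s2, s3⟩ := exists_perm_three hij hik hjk hij' hik' hjk'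
  obtain ⟨m, hm⟩ := exists_not_mem ({i, j, k} : Finset ι) (lt_of_le_of_lt Finset.card_le_three (by omega))
  obtain ⟨n, hn'⟩ := exists_not_mem ({m, i, j, k} : Finset ι) (lt_of_le_of_lt Finset.card_le_four (by omega))
  simp only [Finset.mem_insert, Finset.mem_singleton, not_or] at hm hn'
  refine B.root_move (by omega) σ hu (m := m) (n := n) (Ne.symm hn'.1) (hz m hm.1 hm.2.1 hm.2.2)
    (hz n hn'.2.1 hn'.2.2.1 hn'.2.2.2) ?_
  intro l
  by_cases l1 : l = i
  · subst l1; rw [s1]; exact sq_eq_sq_iff_eq_or_eq_neg.1 h1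
  by_cases l2 : l = j
  · subst l2; rw [s2]; exact sq_eq_sq_iff_eq_or_eq_neg.1 h2
  by_cases l3 : l = k
  · subst l3; rw [s3]; exact sq_eq_sq_iff_eq_or_eq_neg.1 h3
  left
  rw [hz l l1 l2 l3]
  apply hz'
  · rw [← s1]; exact fun h => l1 (σ.injective h)
  · rw [← s2]; exact fun h => l2 (σ.injective h)
  · rw [← s3]; exact fun h => l3 (σ.injective h)

theorem supp3_dot {i j k : ι} (hij : i ≠ j) (hik : i ≠ k) (hjk : j ≠ k) {u : ι → F}
    (hz : ∀ l, l ≠ i → l ≠ j → l ≠ k → u l = 0) (v : ι → F) :
    u ⬝ᵥ v = u i * v i + u j * v j + u k * v k := by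
  have e : u = u i • ee F i + u j • ee F j + u k • ee F k := by
    funext l
    simp only [Pi.add_apply, Pi.smul_apply, smul_eq_mul]
    by_cases l1 : l = i
    · subst l1; rw [ee_same, ee_ne hij, ee_ne hik]; ring
    by_cases l2 : l = j
    · subst l2; rw [ee_same, ee_ne l1, ee_ne hjk]; ring
    by_cases l3 : l = k
    · subst l3; rw [ee_same, ee_ne l1, ee_ne l2]; ring
    rw [hz l l1 l2 l3, ee_ne l1, ee_ne l2, ee_ne l3]; ring
  conv_lhs => rw [e]
  simp only [add_dotProduct, smul_dotProduct, ee_dot, smul_eq_mul]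

/-- `p = 7` -/
theorem Base.seven (B : Base X) [Fintype F] (h7 : Fintype.card F = 7) (hn : 5 ≤ Fintype.card ι) {i j k : ι}
    (hij : i ≠ j) (hik : i ≠ k)
    (hjk : j ≠ k) {u : ι → F} (hu : Root X u) (hz : ∀ l, l ≠ i → l ≠ j → l ≠ k → u l = 0)
    (hi : u i ^ 2 = 2) (hj : u j ^ 2 = 2) (hk : u k ^ 2 = 4) : AllRoots X {i, j, k} := by
  have z7 : (7 : F) = 0 := by
    have := FiniteField.cast_card_eq_zero F
    rw [h7] at this
    exact_mod_cast this
  have hc7 : CharP F 7 := (CharP.charP_iff_prime_eq_zero (by norm_num)).2 (by exact_mod_cast z7)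
  have hsq : ∀ x : F, ∃ a : ℤ, x ^ 2 = (a : F) ∧ (a = 0 ∨ a = 1 ∨ a = 2 ∨ a = 4) := by
    intro x
    have h := FiniteField.pow_card x
    rw [h7] at h
    have h' : x * ((x ^ 2 - 1) * ((x ^ 2 - 2) * (x ^ 2 - 4))) = 0 := by
      linear_combination h - (x ^ 5 - 2 * x ^ 3 + x) * z7 + (2 * x - 1 * x ) * z7 * 0
    rcases mul_eq_zero.1 h' with h' | h'
    · exact ⟨0, by rw [h']; norm_num, by norm_num⟩
    rcases mul_eq_zero.1 h' with h' | h'
    · exact ⟨1, by push_cast; linear_combination h', by norm_num⟩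
    rcases mul_eq_zero.1 h' with h' | h'
    · exact ⟨2, by push_cast; linear_combination h', by norm_num⟩
    · exact ⟨4, by push_cast; linear_combination h', by norm_num⟩
  -- the root with coordinates of square `4, 4, 0`
  obtain ⟨y, hy⟩ : ∃ y, y = rf u (ee F k) := ⟨_, rfl⟩
  have ry : Root X y := by rw [hy]; exact B.root_rf hu (B.root_ee k)
  rw [rf_apply hu.1, ee_dot] at hy
  have yv : ∀ l, y l = ee F k l - 2 * u k * u l := by
    intro l; rw [hy]; rfl
  have yz : ∀ l, l ≠ i → l ≠ j → l ≠ k → y l = 0 := by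
    intro l l1 l2 l3
    rw [yv, ee_ne l3, hz l l1 l2 l3]; ring
  have yi : y i ^ 2 = 4 := by
    rw [yv, ee_ne hik]
    linear_combination 4 * u k ^ 2 * hi + 8 * hk + 4 * z7
  have yj : y j ^ 2 = 4 := by
    rw [yv, ee_ne hjk]
    linear_combination 4 * u k ^ 2 * hj + 8 * hk + 4 * z7
  have yk : y k ^ 2 = 0 := by
    rw [yv, ee_same]
    linear_combination (4 * u k ^ 2 + 12) * hk + 7 * z7
  intro z hzz hz1
  have zz : ∀ l, l ≠ i → l ≠ j → l ≠ k → z l = 0 := by
    intro l l1 l2 l3
    exact hzz l (by simp [l1, l2, l3])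
  rw [supp3_dot hij hik hjk zz] at hz1
  obtain ⟨a, ha, ha'⟩ := hsq (z i)
  obtain ⟨b, hb, hb'⟩ := hsq (z j)
  obtain ⟨c, hc, hc'⟩ := hsq (z k)
  have hd : (7 : ℤ) ∣ a + b + c - 1 := by
    apply (CharP.intCast_eq_zero_iff F 7 _).1
    push_cast
    rw [← ha, ← hb, ← hc]
    linear_combination hz1
  have eiz : ∀ l, l ≠ i → l ≠ j → l ≠ k → (ee F i : ι → F) l = 0 := fun l l1 _ _ => ee_ne l1
  have ei : (ee F i : ι → F) i ^ 2 = 1 := by rw [ee_same]; ring
  have ej : (ee F i : ι → F) j ^ 2 = 0 := by rw [ee_ne (Ne.symm hij)]; ring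
  have ek : (ee F i : ι → F) k ^ 2 = 0 := by rw [ee_ne (Ne.symm hik)]; ring
  have cases : (a = 1 ∧ b = 0 ∧ c = 0) ∨ (a = 0 ∧ b = 1 ∧ c = 0) ∨ (a = 0 ∧ b = 0 ∧ c = 1) ∨
      (a = 4 ∧ b = 4 ∧ c = 0) ∨ (a = 4 ∧ b = 0 ∧ c = 4) ∨ (a = 0 ∧ b = 4 ∧ c = 4) ∨
      (a = 2 ∧ b = 2 ∧ c = 4) ∨ (a = 2 ∧ b = 4 ∧ c = 2) ∨ (a = 4 ∧ b = 2 ∧ c = 2) := by
    clear ha hb hc
    rcases ha' with rfl | rfl | rfl | rfl <;> rcases hb' with rfl | rfl | rfl | rfl <;>
      rcases hc' with rfl | rfl | rfl | rfl <;> first | (exfalso; omega) | decide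
  rcases cases with ⟨rfl, rfl, rfl⟩ | ⟨rfl, rfl, rfl⟩ | ⟨rfl, rfl, rfl⟩ | ⟨rfl, rfl, rfl⟩ | ⟨rfl, rfl, rfl⟩ |
    ⟨rfl, rfl, rfl⟩ | ⟨rfl, rfl, rfl⟩ | ⟨rfl, rfl, rfl⟩ | ⟨rfl, rfl, rfl⟩ <;> push_cast at ha hb hc
  · exact B.root_move3 hn hij hik hjk hij hik hjk (B.root_ee i) eiz zz (by rw [ha, ei]) (by rw [hb, ej]) (by rw [hc, ek])
  · exact B.root_move3 hn hij hik hjk (Ne.symm hij) hjk hik (B.root_ee i) eiz (fun l a b c => zz l b a c)
      (by rw [hb, ei]) (by rw [ha, ej]) (by rw [hc, ek])
  · exact B.root_move3 hn hij hik hjk (Ne.symm hjk) (Ne.symm hik) (Ne.symm hij) (B.root_ee i) eiz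
      (fun l a b c => zz l c b a)
      (by rw [hc, ei]) (by rw [hb, ej]) (by rw [ha, ek])
  · exact B.root_move3 hn hij hik hjk hij hik hjk ry yz zz (by rw [ha, yi]) (by rw [hb, yj]) (by rw [hc, yk])
  · exact B.root_move3 hn hij hik hjk hik hij (Ne.symm hjk) ry yz (fun l a b c => zz l a c b)
      (by rw [ha, yi]) (by rw [hc, yj]) (by rw [hb, yk])
  · exact B.root_move3 hn hij hik hjk (Ne.symm hjk) (Ne.symm hik) (Ne.symm hij) ry yz
      (fun l a b c => zz l c b a)
      (by rw [hc, yi]) (by rw [hb, yj]) (by rw [ha, yk])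
  · exact B.root_move3 hn hij hik hjk hij hik hjk hu hz zz (by rw [ha, hi]) (by rw [hb, hj]) (by rw [hc, hk])
  · exact B.root_move3 hn hij hik hjk hik hij (Ne.symm hjk) hu hz (fun l a b c => zz l a c b)
      (by rw [ha, hi]) (by rw [hc, hj]) (by rw [hb, hk])
  · exact B.root_move3 hn hij hik hjk (Ne.symm hjk) (Ne.symm hik) (Ne.symm hij) hu hz
      (fun l a b c => zz l c b a)
      (by rw [hc, hi]) (by rw [hb, hj]) (by rw [ha, hk])

/-- the values of a coordinate -/
theorem three_values {A α : F} (h2 : (2 : F) ≠ 0) (h3 : (3 : F) ≠ 0) (h5 : (5 : F) ≠ 0) (hA0 : A ≠ 0)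
    (h1 : A = 0 ∨ A = 1 ∨ A = 2 ∨ A ^ 2 - 3 * A + 1 = 0)
    (h2' : A ^ 2 = 0 ∨ A ^ 2 = 4 ∨ A ^ 2 = 8 ∨ (A ^ 2) ^ 2 - 12 * A ^ 2 + 16 = 0) :
    (A = 1 ∧ (7 : F) = 0) ∨ A = 2 ∨ ((11 : F) = 0 ∧ (A = 5 ∨ A = 9)) := by
  have h15 : (1 : F) ≠ 0 := one_ne_zero
  rcases h1 with h | h | h | h
  · exact absurd h hA0
  · subst h
    rcases h2' with h | h | h | h
    · exfalso; apply h15; linear_combination h
    · exfalso; apply h3; linear_combination -h
    · left; exact ⟨rfl, by linear_combination -h⟩
    · exfalso; apply h5; linear_combination h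
  · right; left; exact h
  · right; right
    have h11 : (11 : F) = 0 := by
      rcases h2' with h' | h' | h' | h'
      · exact absurd (pow_eq_zero_iff (two_ne_zero) |>.1 h') hA0
      · -- A ^ 2 = 4, 3 A = 5
        have e : 3 * A = 5 := by linear_combination h' - h
        have : (11 : F) = 0 := by linear_combination -9 * h' + (3 * A + 5) * e
        exact this
      · have e : 3 * A = 9 := by linear_combination h' - h
        have e' : A = 3 := by
          apply mul_left_cancel₀ h3; linear_combination e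
        exfalso; apply h15; rw [e'] at h'; linear_combination h'
      · -- A ^ 2 = 3 A - 1
        have e : (A ^ 2) ^ 2 = 21 * A - 8 := by linear_combination (A ^ 2 + 3 * A + 8) * h
        have e' : 5 * (3 * A - 4) = 0 := by linear_combination e - h' - 12 * h
        have e'' : 3 * A = 4 := by linear_combination (mul_eq_zero.1 e').resolve_left h5
        linear_combination -9 * h + (3 * A - 5) * e''
    refine ⟨h11, ?_⟩
    have : (A - 5) * (A - 9) = 0 := by linear_combination h + (4 - A) * h11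
    rcases mul_eq_zero.1 this with h | h
    · left; linear_combination h
    · right; linear_combination h

theorem AllRoots.congr {J J' : Finset ι} (h : J = J') (hJ : AllRoots X J) : AllRoots X J' := h ▸ hJ

set_option maxHeartbeats 2000000 in
/-- roots with exactly three non-zero coordinates -/
theorem Base.three_case (B : Base X) [Fintype F] {p : ℕ} (hp : p.Prime) (hF : Fintype.card F = p)
    (h3 : (3 : F) ≠ 0) (h5 : (5 : F) ≠ 0) (hn : 5 ≤ Fintype.card ι) {u : ι → F} (hu : Root X u) {i j k : ι}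
    (hij : i ≠ j) (hik : i ≠ k) (hjk : j ≠ k) (hi : u i ≠ 0) (hj : u j ≠ 0) (hk : u k ≠ 0)
    (hz : ∀ l, l ≠ i → l ≠ j → l ≠ k → u l = 0) : AllRoots X {i, j, k} := by
  have h2 := B.two
  have hs : u i ^ 2 + u j ^ 2 + u k ^ 2 = 1 := by
    have := hu.1
    rw [supp3_dot hij hik hjk hz] at this
    linear_combination this
  have hN : u i ^ 2 + u j ^ 2 ≠ 1 := by
    intro h
    apply hk
    have : u k ^ 2 = 0 := by linear_combination hs - h
    exact (pow_eq_zero_iff two_ne_zero).1 this
  have inP : ∀ z : ι → F, (∀ l, l ≠ i → l ≠ j → l ≠ k → z l = 0) →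
      InP i j (u - u i • ee F i - u j • ee F j) z := by
    intro z hzz
    refine ⟨z i, z j, z k / u k, ?_⟩
    funext l
    simp only [Pi.add_apply, Pi.sub_apply, Pi.smul_apply, smul_eq_mul]
    by_cases l1 : l = i
    · subst l1; rw [ee_same, ee_ne hij]; ring
    by_cases l2 : l = j
    · subst l2; rw [ee_same, ee_ne l1]; ring
    by_cases l3 : l = k
    · subst l3; rw [ee_ne l1, ee_ne l2]; field_simp; ring
    rw [hzz l l1 l2 l3, hz l l1 l2 l3, ee_ne l1, ee_ne l2]; ring
  rcases B.lemD hp hF hu hij hi hj hN rfl with hfull | hnf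
  · intro z hz' hz1
    exact hfull z hz1 (inP z fun l l1 l2 l3 => hz' l (by simp [l1, l2, l3]))
  have val : ∀ a b c : ι, a ≠ b → a ≠ c → b ≠ c → u a ≠ 0 → u b ≠ 0 → u c ≠ 0 →
      (∀ l, (l ≠ i ∧ l ≠ j ∧ l ≠ k) ↔ (l ≠ a ∧ l ≠ b ∧ l ≠ c)) →
      ((4 * u c ^ 2 = 1 ∧ (7 : F) = 0) ∨ 4 * u c ^ 2 = 2 ∨ ((11 : F) = 0 ∧ (4 * u c ^ 2 = 5 ∨ 4 * u c ^ 2 = 9))) := by
    intro a b c hab hac hbc ha hb hc hl
    have hzabc : ∀ l, l ≠ a → l ≠ b → l ≠ c → u l = 0 := by
      intro l l1 l2 l3
      obtain ⟨m1, m2, m3⟩ := (hl l).2 ⟨l1, l2, l3⟩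
      exact hz l m1 m2 m3
    obtain ⟨v, hv⟩ : ∃ v : ι → F, v = u b • ee F a + (-u a) • ee F b + u c • ee F c := ⟨_, rfl⟩
    obtain ⟨va, vb, vc, v0⟩ := three_apply (F := F) hab hac hbc (u b) (-u a) (u c)
    rw [← hv] at va vb vc v0
    have rv : Root X v := B.root_move3 hn hab hac hbc (Ne.symm hab) hbc hac hu hzabc
      (fun l a b c => v0 l b a c) (by rw [vb]; ring) (by rw [va]) (by rw [vc])
    have c1 := hnf u (ee F c) hu (B.root_ee c) (inP u hz) (inP _ (fun l l1 l2 l3 => ee_ne ((hl l).1 ⟨l1, l2, l3⟩).2.2))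
    have c2 := hnf u v hu rv (inP u hz) (inP _ (fun l l1 l2 l3 => by
      obtain ⟨m1, m2, m3⟩ := (hl l).1 ⟨l1, l2, l3⟩
      exact v0 l m1 m2 m3))
    have uv : u ⬝ᵥ v = u c ^ 2 := by
      rw [supp3_dot hab hac hbc hzabc, va, vb, vc]; ring
    rw [dot_ee] at c1
    rw [uv] at c2
    have hA0 : 4 * u c ^ 2 ≠ 0 := by
      have : (4 : F) * u c ^ 2 = 2 * 2 * (u c ^ 2) := by ring
      rw [this]
      exact mul_ne_zero (mul_ne_zero h2 h2) (pow_ne_zero 2 hc)
    apply three_values (α := 0) h2 h3 h5 hA0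
    · rcases c1 with h | h | h | h | h | h
      · exfalso; apply ha; rw [← h, ee_ne hac]
      · exfalso; apply ha
        have := congrFun h a
        rw [ee_ne hac, Pi.neg_apply] at this
        exact neg_eq_zero.1 this.symm
      · left; exact h
      · right; left; exact h
      · right; right; left; exact h
      · right; right; right; exact h
    · rcases c2 with h | h | h | h | h | h
      · exfalso; apply ha
        have e1 := congrFun h a
        have e2 := congrFun h b
        rw [va] at e1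
        rw [vb] at e2
        have : 2 * u a = 0 := by linear_combination -e1 - e2
        exact (mul_eq_zero.1 this).resolve_left h2
      · exfalso; apply hc
        have e1 := congrFun h c
        rw [vc, Pi.neg_apply] at e1
        have : 2 * u c = 0 := by linear_combination e1
        exact (mul_eq_zero.1 this).resolve_left h2
      · left; linear_combination 4 * h
      · right; left; linear_combination 4 * h
      · right; right; left; linear_combination 4 * h
      · right; right; right; linear_combination 16 * h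
  have vi := val j k i hjk (Ne.symm hij) (Ne.symm hik) hj hk hi (fun l => by tauto)
  have vj := val i k j hik hij (Ne.symm hjk) hi hk hj (fun l => by tauto)
  have vk := val i j k hij hik hjk hi hj hk (fun l => by tauto)
  have hsum : 4 * u i ^ 2 + 4 * u j ^ 2 + 4 * u k ^ 2 = 4 := by linear_combination 4 * hs
  by_cases h7 : (7 : F) = 0
  · have h11 : (11 : F) ≠ 0 := by
      intro h
      apply mul_ne_zero h2 h2
      linear_combination h - h7
    have hp7 : Fintype.card F = 7 := by
      have hcp : CharP F p := (CharP.charP_iff_prime_eq_zero hp).2 (by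
        have := FiniteField.cast_card_eq_zero F
        rwa [hF] at this)
      have hd : p ∣ 7 := (CharP.cast_eq_zero_iff F p 7).1 (by exact_mod_cast h7)
      rw [hF]
      exact (Nat.prime_dvd_prime_iff_eq hp (by norm_num)).1 hd
    have s2 : ∀ x : F, 4 * x ^ 2 = 1 → x ^ 2 = 2 := fun x h => by linear_combination 2 * h - x ^ 2 * h7
    have s4 : ∀ x : F, 4 * x ^ 2 = 2 → x ^ 2 = 4 := fun x h => by linear_combination 2 * h - x ^ 2 * h7
    have red : ∀ x : F, ((4 * x ^ 2 = 1 ∧ (7 : F) = 0) ∨ 4 * x ^ 2 = 2 ∨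
        ((11 : F) = 0 ∧ (4 * x ^ 2 = 5 ∨ 4 * x ^ 2 = 9))) → 4 * x ^ 2 = 1 ∨ 4 * x ^ 2 = 2 := by
      intro x h
      rcases h with h | h | h
      · left; exact h.1
      · right; exact h
      · exact absurd h.1 h11
    have h1 : (1 : F) ≠ 0 := one_ne_zero
    rcases red _ vi with a | a <;> rcases red _ vj with b | b <;> rcases red _ vk with c | c
    · exfalso; apply h1; linear_combination a + b + c - hsum
    · exact B.seven hp7 hn hij hik hjk hu hz (s2 _ a) (s2 _ b) (s4 _ c)
    · exact (B.seven hp7 hn hik hij (Ne.symm hjk) hu (fun l a b c => hz l a c b) (s2 _ a) (s2 _ c) (s4 _ b)).congr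
        (by ext l; simp; tauto)
    · exfalso; apply h1; linear_combination hsum - a - b - c
    · exact (B.seven hp7 hn hjk (Ne.symm hij) (Ne.symm hik) hu (fun l a b c => hz l c a b) (s2 _ b) (s2 _ c)
        (s4 _ a)).congr (by ext l; simp; tauto)
    · exfalso; apply h1; linear_combination hsum - a - b - c
    · exfalso; apply h1; linear_combination hsum - a - b - c
    · exfalso; apply h2; linear_combination hsum - a - b - c
  · by_cases h11 : (11 : F) = 0
    · exfalso
      have hc11 : CharP F 11 := (CharP.charP_iff_prime_eq_zero (by norm_num)).2 (by exact_mod_cast h11)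
      have red : ∀ x : F, ((4 * x ^ 2 = 1 ∧ (7 : F) = 0) ∨ 4 * x ^ 2 = 2 ∨
          ((11 : F) = 0 ∧ (4 * x ^ 2 = 5 ∨ 4 * x ^ 2 = 9))) → ∃ a : ℤ, 4 * x ^ 2 = (a : F) ∧ (a = 2 ∨ a = 5 ∨ a = 9) := by
        intro x h
        rcases h with h | h | ⟨_, h | h⟩
        · exact absurd h.2 h7
        · exact ⟨2, by rw [h]; norm_num, by norm_num⟩
        · exact ⟨5, by rw [h]; norm_num, by norm_num⟩
        · exact ⟨9, by rw [h]; norm_num, by norm_num⟩
      obtain ⟨a, ha, ha'⟩ := red _ vi
      obtain ⟨b, hb, hb'⟩ := red _ vj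
      obtain ⟨c, hc, hc'⟩ := red _ vk
      have hd : (11 : ℤ) ∣ a + b + c - 4 := by
        apply (CharP.intCast_eq_zero_iff F 11 _).1
        push_cast
        rw [← ha, ← hb, ← hc]
        linear_combination hsum
      have hab : a = 5 ∧ b = 5 ∧ c = 5 := by
        clear ha hb hc
        rcases ha' with rfl | rfl | rfl <;> rcases hb' with rfl | rfl | rfl <;>
          rcases hc' with rfl | rfl | rfl <;> first | (exfalso; omega) | decide
      obtain ⟨rfl, rfl, rfl⟩ := hab
      push_cast at ha hb hc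
      have rz := B.root_rf hu (B.root_ee i)
      have zv : ∀ l, rf u (ee F i) l = ee F i l - 2 * u i * u l := by
        intro l
        rw [rf_apply hu.1, ee_dot]
        rfl
      have c1 := hnf _ (ee F j) rz (B.root_ee j) (inP _ (fun l l1 l2 l3 => by
        rw [zv, ee_ne l1, hz l l1 l2 l3]; ring)) (inP _ (fun l l1 l2 l3 => ee_ne l2))
      rw [dot_ee, zv, ee_ne (Ne.symm hij)] at c1
      have h1 : (1 : F) ≠ 0 := one_ne_zero
      have e0 : 4 * (0 - 2 * u i * u j) ^ 2 = 3 := by
        linear_combination 4 * u j ^ 2 * ha + 5 * hb + 2 * h11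
      rcases c1 with h | h | h | h | h | h
      · have e1 := congrFun h i
        rw [zv, ee_ne hij, ee_same] at e1
        apply h3
        linear_combination -ha + 2 * e1
      · have e1 := congrFun h i
        rw [Pi.neg_apply, zv, ee_ne hij, ee_same] at e1
        apply h3
        linear_combination -ha - 2 * e1
      · apply h3; linear_combination h - e0
      · apply h2; linear_combination h - e0
      · apply h1; linear_combination h - e0
      · rw [e0] at h
        apply h1; linear_combination h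
    · exfalso
      have red : ∀ x : F, ((4 * x ^ 2 = 1 ∧ (7 : F) = 0) ∨ 4 * x ^ 2 = 2 ∨
          ((11 : F) = 0 ∧ (4 * x ^ 2 = 5 ∨ 4 * x ^ 2 = 9))) → 4 * x ^ 2 = 2 := by
        intro x h
        rcases h with h | h | h
        · exact absurd h.2 h7
        · exact h
        · exact absurd h.1 h11
      apply h2
      linear_combination hsum - red _ vi - red _ vj - red _ vk

/-- **the dichotomy for `p ≥ 7`** -/
theorem Base.dich_seven (B : Base X) [Fintype F] {p : ℕ} (hp : p.Prime) (hF : Fintype.card F = p)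
    (h3 : (3 : F) ≠ 0) (h5 : (5 : F) ≠ 0) (hn : 7 ≤ Fintype.card ι) :
    (∀ u, Root X u → Supp2 u) ∨ (∀ u : ι → F, u ⬝ᵥ u = 1 → Root X u) := by
  classical
  have hne : Nonempty ι := Fintype.card_pos_iff.1 (by omega)
  by_cases hall : ∀ u, Root X u → Supp2 u
  · exact Or.inl hall
  right
  push Not at hall
  obtain ⟨u0, hu0, hs0⟩ := hall
  have hex : ∃ s, 3 ≤ s ∧ ∃ u, Root X u ∧ sz u = s := by
    refine ⟨sz u0, ?_, u0, hu0, rfl⟩
    by_contra h
    exact hs0 (supp2_of_sz (by omega) hne)
  obtain ⟨hs3, u, hu, hsu⟩ := Nat.find_spec hex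
  have hmin : ∀ v, Root X v → sz v < Nat.find hex → sz v ≤ 2 := by
    intro v hv hlt
    have := Nat.find_min hex hlt
    by_contra h
    exact this ⟨by omega, v, hv, rfl⟩
  rcases Nat.lt_or_ge (Nat.find hex) 4 with h4 | h4
  · have hcard : (Finset.univ.filter (fun k => u k ≠ 0)).card = 3 := by
      have : sz u = 3 := by omega
      rw [← this]; unfold sz; congr
    obtain ⟨i, j, k, hij, hik, hjk, hT⟩ := Finset.card_eq_three.1 hcard
    have hmem : ∀ k, k ∈ (Finset.univ.filter (fun k => u k ≠ 0)) ↔ u k ≠ 0 := by simp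
    have hi : u i ≠ 0 := (hmem i).1 (by rw [hT]; simp)
    have hj : u j ≠ 0 := (hmem j).1 (by rw [hT]; simp)
    have hk : u k ≠ 0 := (hmem k).1 (by rw [hT]; simp)
    have hz : ∀ l, l ≠ i → l ≠ j → l ≠ k → u l = 0 := by
      intro l l1 l2 l3
      by_contra h
      have := (hmem l).2 h
      rw [hT] at this
      simp only [Finset.mem_insert, Finset.mem_singleton] at this
      tauto
    have hA := B.three_case hp hF h3 h5 (by omega) hu hij hik hjk hi hj hk hz
    have h4' : 4 ≤ Nat.card F := by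
      rw [Nat.card_eq_fintype_card, hF]
      have h2 := B.two
      by_contra h
      have : p = 2 ∨ p = 3 := by
        have := hp.two_le
        omega
      have hc := FiniteField.cast_card_eq_zero F
      rw [hF] at hc
      rcases this with rfl | rfl
      · exact h2 (by exact_mod_cast hc)
      · exact h3 (by exact_mod_cast hc)
    intro v hv
    exact B.all_roots_of_three h4' h3 (by omega) (fun i' j' k' h1 h2' h3' =>
      B.allRoots_triples (by omega) hij hik hjk hA h1 h2' h3') v hv
  · exact (no_min B hp hF h3 h5 hn h4 hmin hu hsu).elim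

end Cfsg.Agent.H928
end

-- part: H916/FrameThree
section
/-!
# Orthogonal frames, `p = 3`: either all roots have support at most two, or all vectors of norm `1` are roots
-/

set_option autoImplicit false
set_option linter.unusedSectionVars false
set_option linter.unusedSimpArgs false
set_option linter.unusedVariables false

namespace Cfsg.Agent.H916.FrameThree

open Matrix
open Cfsg.Agent.H928

variable {ι : Type*} [Fintype ι] [DecidableEq ι] {F : Type*} [Field F]
variable {X : Subgroup ((ι → F) ≃ₗ[F] (ι → F))}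

theorem three_cases [Fintype F] (hF : Fintype.card F = 3) :
    (3 : F) = 0 ∧ ∀ a : F, a = 0 ∨ a = 1 ∨ a = -1 := by
  have h3 : (3 : F) = 0 := by
    have := FiniteField.cast_card_eq_zero F
    rw [hF] at this
    exact_mod_cast this
  refine ⟨h3, fun a => ?_⟩
  have h := FiniteField.pow_card a
  rw [hF] at h
  have h1 : a * ((a - 1) * (a + 1)) = 0 := by linear_combination h
  rcases mul_eq_zero.1 h1 with h2 | h2
  · exact Or.inl h2
  · rcases mul_eq_zero.1 h2 with h3 | h3
    · exact Or.inr (Or.inl (by linear_combination h3))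
    · exact Or.inr (Or.inr (by linear_combination h3))

section

variable (h3 : (3 : F) = 0) (hc : ∀ a : F, a = 0 ∨ a = 1 ∨ a = -1)

include h3 hc

theorem sq_eq_ite (a : F) (h : a ≠ 0) : a * a = 1 := by
  rcases hc a with h1 | h1 | h1
  · exact absurd h1 h
  · rw [h1]; ring
  · rw [h1]; ring

theorem norm_eq (u : ι → F) : u ⬝ᵥ u = (sz u : F) := by
  classical
  unfold sz
  rw [dotProduct, Finset.card_eq_sum_ones, Nat.cast_sum, Finset.sum_filter]
  refine Finset.sum_congr rfl fun k _ => ?_
  by_cases hk : u k = 0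
  · rw [if_neg (by simpa using hk), hk, mul_zero]
  · rw [if_pos hk, sq_eq_ite h3 hc _ hk, Nat.cast_one]

/-- flipping the coordinates of `T` -/
theorem dot_flip (u : ι → F) (T : Finset ι) (hT : ∀ k ∈ T, u k ≠ 0) (h4 : T.card = 4) :
    (sg F T u) ⬝ᵥ u = u ⬝ᵥ u + 1 := by
  classical
  have h1 : (sg F T u) ⬝ᵥ u = u ⬝ᵥ u - 2 * ∑ k ∈ T, u k * u k := by
    have e1 : ∑ k ∈ T, u k * u k = ∑ k, if k ∈ T then u k * u k else 0 := by
      rw [← Finset.sum_filter, Finset.filter_mem_eq_inter, Finset.univ_inter]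
    rw [dotProduct, dotProduct, e1, Finset.mul_sum, ← Finset.sum_sub_distrib]
    refine Finset.sum_congr rfl fun k _ => ?_
    rw [sg_apply]
    split_ifs
    · ring
    · ring
  have h2 : ∑ k ∈ T, u k * u k = 4 := by
    rw [Finset.sum_congr rfl (fun k hk => sq_eq_ite h3 hc _ (hT k hk)), Finset.sum_const, h4]
    simp
  rw [h1, h2]
  linear_combination -3 * h3

/-- restricting to a subset of four elements of the support -/
theorem restrict (B : Base X) {u : ι → F} (hu : Root X u) (T : Finset ι) (hT : ∀ k ∈ T, u k ≠ 0)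
    (h4 : T.card = 4) : Root X (fun k => if k ∈ T then u k else 0) := by
  classical
  have hv : Root X (sg F T u) := by
    obtain ⟨a, b, c, d, hab, hac, had, hbc, hbd, hcd, hTe⟩ := Finset.card_eq_four.1 h4
    have e : sg F T = sg F {a, b} * sg F {c, d} := by
      rw [sg_mul]
      congr 1
      rw [hTe]
      ext k
      simp only [Finset.mem_symmDiff, Finset.mem_insert, Finset.mem_singleton]
      constructor
      · rintro (rfl | rfl | rfl | rfl)
        · exact Or.inl ⟨Or.inl rfl, fun h => h.elim hac had⟩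
        · exact Or.inl ⟨Or.inr rfl, fun h => h.elim hbc hbd⟩
        · exact Or.inr ⟨Or.inl rfl, fun h => h.elim (Ne.symm hac) (Ne.symm hbc)⟩
        · exact Or.inr ⟨Or.inr rfl, fun h => h.elim (Ne.symm had) (Ne.symm hbd)⟩
      · rintro (⟨rfl | rfl, _⟩ | ⟨rfl | rfl, _⟩)
        · exact Or.inl rfl
        · exact Or.inr (Or.inl rfl)
        · exact Or.inr (Or.inr (Or.inl rfl))
        · exact Or.inr (Or.inr (Or.inr rfl))
    rw [e, LinearEquiv.mul_apply]
    have hm : sg F {a, b} (sg F {c, d} u) = (sg F {a, b} * sg F {c, d}) u := rfl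
    rw [hm]
    refine B.root_map' (X.mul_mem (B.hsg a b hab) (B.hsg c d hcd)) hu (B.root_ee a) ?_
    rw [LinearEquiv.mul_apply, sg_ee_not_mem (by simp [hac, had]), sg_ee_mem (by simp)]
    exact (B.root_ee a).neg
  have hr := B.root_rf hu hv
  have e : rf u (sg F T u) = fun k => if k ∈ T then u k else 0 := by
    funext k
    rw [rf_apply hu.1, dot_flip h3 hc u T hT h4, hu.1, Pi.sub_apply, Pi.smul_apply, smul_eq_mul,
      sg_apply]
    by_cases hk : k ∈ T
    · rw [if_pos hk, if_pos hk]
      linear_combination (-2 * u k) * h3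
    · rw [if_neg hk, if_neg hk]
      linear_combination (- u k) * h3
  rw [e] at hr
  exact hr

theorem sz_ite (u : ι → F) (T : Finset ι) (hT : ∀ k ∈ T, u k ≠ 0) :
    sz (fun k => if k ∈ T then u k else 0) = T.card := by
  classical
  unfold sz
  congr 1
  ext k
  simp only [Finset.mem_filter, Finset.mem_univ, true_and]
  constructor
  · intro h
    by_contra hk
    exact h (by rw [if_neg hk])
  · intro hk
    rw [if_pos hk]
    exact hT k hk

/-- all vectors of size four are roots as soon as one is -/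
theorem all_four (B : Base X) (hn : 6 ≤ Fintype.card ι) {u v : ι → F} (hu : Root X u) (h4 : sz u = 4)
    (hv4 : sz v = 4) : Root X v := by
  classical
  set S := Finset.univ.filter (fun k => u k ≠ 0) with hS
  set T := Finset.univ.filter (fun k => v k ≠ 0) with hT
  have hSc : S.card = 4 := by rw [← h4]; unfold sz; congr
  have hTc : T.card = 4 := by rw [← hv4]; unfold sz; congr
  have hSm : ∀ k, k ∈ S ↔ u k ≠ 0 := fun k => by simp [hS]
  have hTm : ∀ k, k ∈ T ↔ v k ≠ 0 := fun k => by simp [hT]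
  obtain ⟨e⟩ : Nonempty ({x // x ∈ S} ≃ {x // x ∈ T}) := by
    refine ⟨Fintype.equivOfCardEq ?_⟩
    rw [Fintype.card_coe, Fintype.card_coe, hSc, hTc]
  let σ : Equiv.Perm ι := e.extendSubtype
  obtain ⟨m, hm⟩ := exists_not_mem S (by omega)
  obtain ⟨n, hn'⟩ := exists_not_mem (insert m S) (lt_of_le_of_lt (Finset.card_insert_le _ _) (by omega))
  have hmn : m ≠ n := fun h => hn' (by rw [h]; exact Finset.mem_insert_self _ _)
  have hnS : n ∉ S := fun h => hn' (Finset.mem_insert_of_mem h)
  have hm0 : u m = 0 := by by_contra h; exact hm ((hSm m).2 h)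
  have hn0 : u n = 0 := by by_contra h; exact hnS ((hSm n).2 h)
  refine B.root_move (by omega) σ hu hmn hm0 hn0 fun k => ?_
  by_cases hk : k ∈ S
  · have h1 : σ k ∈ T := e.extendSubtype_mem k hk
    have h2 := (hTm _).1 h1
    have h3' := (hSm _).1 hk
    rcases hc (v (σ k)) with a | a | a
    · exact absurd a h2
    · rcases hc (u k) with b | b | b
      · exact absurd b h3'
      · left; rw [a, b]
      · right; rw [a, b, neg_neg]
    · rcases hc (u k) with b | b | b
      · exact absurd b h3'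
      · right; rw [a, b]
      · left; rw [a, b]
  · have h1 : σ k ∉ T := e.extendSubtype_not_mem k hk
    left
    have h2 : v (σ k) = 0 := by by_contra h; exact h1 ((hTm _).2 h)
    have h3' : u k = 0 := by by_contra h; exact hk ((hSm _).2 h)
    rw [h2, h3']

theorem all_roots (B : Base X) (h4 : ∀ v : ι → F, sz v = 4 → Root X v) :
    ∀ (n : ℕ) (x : ι → F), sz x = n → x ⬝ᵥ x = 1 → Root X x := by
  classical
  intro n
  induction n using Nat.strong_induction_on with
  | _ n ih =>
    intro x hx hx1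
    set S := Finset.univ.filter (fun k => x k ≠ 0) with hS
    have hSc : S.card = n := by rw [← hx]; unfold sz; congr
    have hSm : ∀ k, k ∈ S ↔ x k ≠ 0 := fun k => by simp [hS]
    have hcast : (n : F) = 1 := by rw [← hx, ← norm_eq h3 hc, hx1]
    by_cases hn4 : 4 ≤ n
    · obtain ⟨T, hTS, hT⟩ := Finset.exists_subset_card_eq (s := S) (n := 4) (by omega)
      obtain ⟨i, hi⟩ : ∃ i, i ∈ T := Finset.card_pos.1 (by omega)
      have hTx : ∀ k ∈ T, x k ≠ 0 := fun k hk => (hSm k).1 (hTS hk)
      let y : ι → F := fun k => if k ∈ T then (if k = i then - x k else x k) else 0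
      have hy4 : sz y = 4 := by
        rw [← hT, ← sz_ite h3 hc (fun k => if k = i then - x k else x k) T ?_]
        intro k hk
        split_ifs
        · exact neg_ne_zero.2 (hTx k hk)
        · exact hTx k hk
      have hy := h4 y hy4
      have hxy : x ⬝ᵥ y = -1 := by
        have e1 : x ⬝ᵥ y = ∑ k ∈ T, (if k = i then - (x k * x k) else x k * x k) := by
          rw [dotProduct, ← Finset.sum_subset (Finset.subset_univ T)]
          · refine Finset.sum_congr rfl fun k hk => ?_
            simp only [y, if_pos hk]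
            split_ifs
            · ring
            · rfl
          · intro k _ hk
            simp only [y, if_neg hk, mul_zero]
        rw [e1, ← Finset.add_sum_erase _ _ hi, if_pos rfl, sq_eq_ite h3 hc _ (hTx i hi)]
        have e2 : ∑ k ∈ T.erase i, (if k = i then - (x k * x k) else x k * x k) = 3 := by
          rw [Finset.sum_congr rfl (g := fun _ => (1 : F)) ?_]
          · rw [Finset.sum_const, Finset.card_erase_of_mem hi, hT]; simp
          · intro k hk
            rw [if_neg (Finset.ne_of_mem_erase hk)]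
            exact sq_eq_ite h3 hc _ (hTx k (Finset.mem_of_mem_erase hk))
        rw [e2]
        linear_combination h3
      have hr : ∀ k, rf y x k = if k ∈ T.erase i then 0 else x k * (if k = i then -1 else 1) := by
        intro k
        rw [rf_apply hy.1, hxy, Pi.sub_apply, Pi.smul_apply, smul_eq_mul]
        by_cases hki : k = i
        · have e1 : y k = - x k := by rw [hki]; simp [y, hi]
          rw [e1, if_neg (fun h => Finset.ne_of_mem_erase h hki), if_pos hki]
          ring
        · by_cases hkT : k ∈ T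
          · have e1 : y k = x k := by simp [y, hkT, hki]
            rw [e1, if_pos (Finset.mem_erase.2 ⟨hki, hkT⟩)]
            linear_combination (x k) * h3
          · have e1 : y k = 0 := by simp [y, hkT]
            rw [e1, if_neg (fun h => hkT (Finset.mem_of_mem_erase h)), if_neg hki]
            ring
      have hsz : sz (rf y x) = n - 3 := by
        have e1 : (Finset.univ.filter (fun k => rf y x k ≠ 0)) = S \ T.erase i := by
          ext k
          simp only [Finset.mem_filter, Finset.mem_univ, true_and, Finset.mem_sdiff]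
          rw [hr k, hSm]
          by_cases hk : k ∈ T.erase i
          · simp [hk]
          · rw [if_neg hk]
            constructor
            · intro h
              exact ⟨left_ne_zero_of_mul h, hk⟩
            · rintro ⟨h, _⟩
              apply mul_ne_zero h
              split_ifs
              · exact neg_ne_zero.2 one_ne_zero
              · exact one_ne_zero
        have e2 : sz (rf y x) = (S \ T.erase i).card := by
          rw [← e1]; unfold sz; congr
        rw [e2, Finset.card_sdiff_of_subset ((Finset.erase_subset _ _).trans hTS), Finset.card_erase_of_mem hi,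
          hT, hSc]
      have hroot := ih (n - 3) (by omega) (rf y x) hsz (by rw [rf_isIso hy.1, hx1])
      have h5 := B.root_rf hy hroot
      have e3 : rf y (rf y x) = x := by
        rw [← LinearEquiv.mul_apply, rf_mul_self hy.1]; rfl
      rwa [e3] at h5
    · -- small size
      have hn1 : n = 1 := by
        have h0 : n = 0 ∨ n = 1 ∨ n = 2 ∨ n = 3 := by omega
        rcases h0 with h | h | h | h
        · exfalso
          rw [h] at hcast
          simp at hcast
        · exact h
        · exfalso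
          rw [h] at hcast
          have : (1 : F) = 0 := by push_cast at hcast; linear_combination hcast
          exact one_ne_zero this
        · exfalso
          rw [h] at hcast
          push_cast at hcast
          rw [h3] at hcast
          exact zero_ne_one hcast
      obtain ⟨i, hi⟩ := Finset.card_eq_one.1 (hSc.trans hn1)
      have hx0 : ∀ k, k ≠ i → x k = 0 := by
        intro k hk
        by_contra h
        have := (hSm k).2 h
        rw [hi, Finset.mem_singleton] at this
        exact hk this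
      have hxi : x i ≠ 0 := (hSm i).1 (by rw [hi]; exact Finset.mem_singleton_self i)
      rcases hc (x i) with h | h | h
      · exact absurd h hxi
      · have : x = ee F i := by
          funext k
          by_cases hk : k = i
          · subst hk; rw [h, ee_same]
          · rw [hx0 k hk, ee_ne hk]
        rw [this]; exact B.root_ee i
      · have : x = - ee F i := by
          funext k
          rw [Pi.neg_apply]
          by_cases hk : k = i
          · subst hk; rw [h, ee_same]
          · rw [hx0 k hk, ee_ne hk, neg_zero]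
        rw [this]; exact (B.root_ee i).neg

end

/-- **`p = 3`** -/
theorem three (B : Base X) [Fintype F] (hF : Fintype.card F = 3) (hn : 6 ≤ Fintype.card ι) :
    (∀ u, Root X u → Supp2 u) ∨ (∀ u : ι → F, u ⬝ᵥ u = 1 → Root X u) := by
  classical
  obtain ⟨h3, hc⟩ := three_cases hF
  by_cases h : ∀ u, Root X u → Supp2 u
  · exact Or.inl h
  right
  push Not at h
  obtain ⟨u, hu, hu2⟩ := h
  have hne : Nonempty ι := Fintype.card_pos_iff.1 (by omega)
  have hsz3 : 3 ≤ sz u := by
    by_contra h
    exact hu2 (supp2_of_sz (by omega) hne)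
  have hsz4 : 4 ≤ sz u := by
    rcases Nat.lt_or_ge (sz u) 4 with h | h
    · exfalso
      have h1 : sz u = 3 := by omega
      have h2 := hu.1
      rw [norm_eq h3 hc, h1] at h2
      push_cast at h2
      rw [h3] at h2
      exact zero_ne_one h2
    · exact h
  obtain ⟨T, hTS, hT⟩ := Finset.exists_subset_card_eq (s := Finset.univ.filter (fun k => u k ≠ 0)) (n := 4)
    (by have := hsz4; unfold sz at this; convert this)
  have hTu : ∀ k ∈ T, u k ≠ 0 := fun k hk => (Finset.mem_filter.1 (hTS hk)).2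
  have hw := restrict h3 hc B hu T hTu hT
  have hw4 := (sz_ite h3 hc u T hTu).trans hT
  intro x hx
  exact all_roots h3 hc B (fun v hv => all_four h3 hc B hn hw hw4 hv) (sz x) x rfl hx

end Cfsg.Agent.H916.FrameThree
end

-- part: H916/FrameOdd
section
/-!
# Orthogonal frames in odd dimension `≥ 5`: if all roots have support at most two, the group is
monomial
-/

set_option autoImplicit false
set_option linter.unusedSectionVars false
set_option linter.unusedSimpArgs false
set_option linter.unusedVariables false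

namespace Cfsg.Agent.H916.FrameOdd

open Matrix
open Cfsg.Agent.H928

variable {ι : Type*} [Fintype ι] [DecidableEq ι] {F : Type*} [Field F]
variable {X : Subgroup ((ι → F) ≃ₗ[F] (ι → F))}

theorem sg_even (B : Base X) : ∀ (n : ℕ) (S : Finset ι), S.card = 2 * n → sg F S ∈ X := by
  intro n
  induction n with
  | zero =>
    intro S hS
    rw [Finset.card_eq_zero.1 (show S.card = 0 by simpa using hS), sg_empty]
    exact X.one_mem
  | succ n ih =>
    intro S hS
    obtain ⟨i, hi⟩ := Finset.card_pos.1 (show 0 < S.card by omega)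
    obtain ⟨j, hj⟩ := Finset.card_pos.1 (show 0 < (S.erase i).card by
      rw [Finset.card_erase_of_mem hi]; omega)
    have hji : j ≠ i := Finset.ne_of_mem_erase hj
    have hjS : j ∈ S := Finset.mem_of_mem_erase hj
    have h1 : ((S.erase i).erase j).card = 2 * n := by
      rw [Finset.card_erase_of_mem hj, Finset.card_erase_of_mem hi]; omega
    have e : sg F S = sg F {i, j} * sg F ((S.erase i).erase j) := by
      rw [sg_mul]
      congr 1
      ext c
      simp only [Finset.mem_symmDiff, Finset.mem_insert, Finset.mem_singleton, Finset.mem_erase]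
      constructor
      · intro hc
        by_cases h1 : c = i
        · exact Or.inl ⟨Or.inl h1, fun h => h.2.1 h1⟩
        · by_cases h2 : c = j
          · exact Or.inl ⟨Or.inr h2, fun h => h.1 h2⟩
          · exact Or.inr ⟨⟨h2, h1, hc⟩, fun h => h.elim h1 h2⟩
      · rintro (⟨rfl | rfl, _⟩ | ⟨h, _⟩)
        · exact hi
        · exact hjS
        · exact h.2.2
    rw [e]
    exact X.mul_mem (B.hsg i j (Ne.symm hji)) (ih _ h1)

/-- in odd dimension every `g e_i` is a root -/
theorem root_apply (B : Base X) (hodd : Odd (Fintype.card ι)) {g : (ι → F) ≃ₗ[F] (ι → F)} (hg : g ∈ X)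
    (i : ι) : Root X (g (ee F i)) := by
  have hI := B.iso g hg
  refine ⟨by rw [hI, ee_norm], fun k => ?_⟩
  obtain ⟨n, hn⟩ := hodd
  have hc : ∀ i : ι, sg F (Finset.univ.erase i) ∈ X := fun i => sg_even B n _ (by
    rw [Finset.card_erase_of_mem (Finset.mem_univ i), Finset.card_univ]; omega)
  have hneg : ∀ (i : ι) (x : ι → F), sg F {i} x = - sg F (Finset.univ.erase i) x := by
    intro i x
    funext c
    rw [Pi.neg_apply, sg_apply, sg_apply]
    by_cases h : c = i
    · simp [h]
    · simp [h]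
  have e : rf (g (ee F i)) * rf (ee F k) =
      (g * sg F (Finset.univ.erase i) * g⁻¹) * sg F (Finset.univ.erase k) := by
    rw [hI.map_rf (ee_norm i), rf_ee, rf_ee]
    apply LinearEquiv.ext
    intro x
    simp only [LinearEquiv.mul_apply]
    rw [hneg k x, map_neg g⁻¹, map_neg, map_neg, hneg i, map_neg, neg_neg]
  rw [e]
  exact X.mul_mem (X.mul_mem (X.mul_mem hg (hc i)) (X.inv_mem hg)) (hc k)

section

variable (B : Base X) (hn : 5 ≤ Fintype.card ι) (hT : ∀ u, Root X u → Supp2 u)

include B hn hT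

theorem half_of_root {u : ι → F} (hu : Root X u) {m l : ι} (hml : m ≠ l) (hm : u m ≠ 0) (hl : u l ≠ 0) :
    2 * (u l) ^ 2 = 1 := by
  have h0 : ∀ c, c ≠ m → c ≠ l → u c = 0 := fun c h1 h2 =>
    supp2_three (hT u hu) hml (Ne.symm h1) (Ne.symm h2) hm hl
  have hu2 := eq_two_of_supp hml h0
  obtain ⟨p, hp⟩ := exists_not_mem ({m, l} : Finset ι) (lt_of_le_of_lt Finset.card_le_two (by omega))
  simp only [Finset.mem_insert, Finset.mem_singleton, not_or] at hp
  have h1 := B.root_c3 (by omega) hml (Ne.symm hp.1) (Ne.symm hp.2) hu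
  have e1 : c3 F m l p u = (u m) • ee F l + (u l) • ee F p := by
    conv_lhs => rw [hu2]
    rw [map_add, map_smul, map_smul, c3_left hml (Ne.symm hp.1), c3_mid (Ne.symm hp.1) (Ne.symm hp.2)]
  rw [e1] at h1
  have h2 := B.root_rf hu h1
  have e2 : ((u m) • ee F l + (u l) • ee F p) ⬝ᵥ u = u m * u l := by
    rw [add_dotProduct, smul_dotProduct, smul_dotProduct, ee_dot, ee_dot, h0 p hp.1 hp.2]
    simp
  have h3 := supp2_three (hT _ h2) (a := m) (b := p) (c := l) (Ne.symm hp.1) hml hp.2
  rw [rf_apply hu.1, e2] at h3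
  simp only [Pi.sub_apply, Pi.add_apply, Pi.smul_apply, smul_eq_mul] at h3
  rw [ee_same, ee_ne hml, ee_ne (Ne.symm hp.1), ee_ne hp.2, ee_same, ee_ne (Ne.symm hp.2), h0 p hp.1 hp.2] at h3
  have h4 := h3 (by
      have : u m * 0 + u l * 0 - 2 * (u m * u l) * u m = - (2 * (u m * u l * u m)) := by ring
      rw [this]
      exact neg_ne_zero.2 (mul_ne_zero B.two (mul_ne_zero (mul_ne_zero hm hl) hm)))
    (by simpa using hl)
  have h5 : u m * (1 - 2 * (u l) ^ 2) = 0 := by linear_combination h4
  have h6 := (mul_eq_zero.1 h5).resolve_left hm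
  linear_combination -h6

/-- **odd dimension**: if all roots have support at most two, the group is monomial. -/
theorem mono_of_roots (hodd : Odd (Fintype.card ι)) (h3 : (3 : F) ≠ 0 ∨ ¬ IsSquare (2 : F)) :
    ∀ g ∈ X, Mono g := by
  intro g hg
  apply mono_of_forall B.two
  intro i
  have hu := root_apply B hodd hg i
  set u := g (ee F i) with hudef
  have hune : u ≠ 0 := by
    intro h
    have := hu.1
    rw [h, zero_dotProduct] at this
    exact zero_ne_one this
  obtain ⟨a, ha⟩ := Function.ne_iff.1 hune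
  rw [Pi.zero_apply] at ha
  have single : ∀ v : ι → F, v ⬝ᵥ v = 1 → ∀ a, (∀ c, c ≠ a → v c = 0) → v = ee F a ∨ v = - ee F a := by
    intro v hv a h
    have e : v = (v a) • ee F a := by
      funext c
      rw [Pi.smul_apply, smul_eq_mul]
      by_cases hc : c = a
      · subst hc; rw [ee_same, mul_one]
      · rw [ee_ne hc, mul_zero, h c hc]
    have h1 : (v a) ^ 2 = 1 := by
      rw [e, smul_dotProduct, dotProduct_smul, ee_norm, smul_eq_mul, smul_eq_mul, mul_one] at hv
      linear_combination hv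
    rcases sq_eq_one_iff_of_ne_zero' h1 with h2 | h2
    · left; rw [e, h2, one_smul]
    · right; rw [e, h2, neg_one_smul]
  by_cases hb : ∀ c, c ≠ a → u c = 0
  · exact ⟨a, single u hu.1 a hb⟩
  exfalso
  push Not at hb
  obtain ⟨b, hba, hb⟩ := hb
  have hsa := half_of_root B hn hT hu hba hb ha
  have hsb := half_of_root B hn hT hu (Ne.symm hba) ha hb
  have h3' : (3 : F) ≠ 0 := by
    rcases h3 with h | h
    · exact h
    · exfalso
      apply h
      refine ⟨(u a)⁻¹, ?_⟩
      field_simp
      linear_combination hsa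
  have h0 : ∀ c, c ≠ a → c ≠ b → u c = 0 := fun c h1 h2 =>
    supp2_three (hT u hu) (Ne.symm hba) (Ne.symm h1) (Ne.symm h2) ha hb
  have hu2 := eq_two_of_supp (Ne.symm hba) h0
  obtain ⟨p, hp⟩ := exists_not_mem ({a, b} : Finset ι) (lt_of_le_of_lt Finset.card_le_two (by omega))
  simp only [Finset.mem_insert, Finset.mem_singleton, not_or] at hp
  have h1 := B.root_c3 (by omega) (Ne.symm hba) (Ne.symm hp.1) (Ne.symm hp.2) hu
  have e1 : c3 F a b p u = (u a) • ee F b + (u b) • ee F p := by
    conv_lhs => rw [hu2]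
    rw [map_add, map_smul, map_smul, c3_left (Ne.symm hba) (Ne.symm hp.1), c3_mid (Ne.symm hp.1) (Ne.symm hp.2)]
  rw [e1] at h1
  set v : ι → F := (u a) • ee F b + (u b) • ee F p with hvdef
  have e2 : v ⬝ᵥ u = u a * u b := by
    rw [hvdef, add_dotProduct, smul_dotProduct, smul_dotProduct, ee_dot, ee_dot, h0 p hp.1 hp.2]
    simp
  have hw : Root X (g⁻¹ v) := by
    apply B.root_map' (X.inv_mem hg) h1 hu
    rw [hudef, ← LinearEquiv.mul_apply, inv_mul_cancel]
    exact B.root_ee i
  have e3 : (g⁻¹ v) i = u a * u b := by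
    rw [← e2, ← dot_ee (g⁻¹ v) i, ← B.iso g hg, ← hudef, ← LinearEquiv.mul_apply, mul_inv_cancel]
    rfl
  have h4 : 4 * ((g⁻¹ v) i) ^ 2 = 1 := by
    rw [e3]
    linear_combination 2 * (u b) ^ 2 * hsa + hsb
  have hwi : (g⁻¹ v) i ≠ 0 := by
    rw [e3]; exact mul_ne_zero ha hb
  by_cases hj : ∀ c, c ≠ i → (g⁻¹ v) c = 0
  · have h5 : ((g⁻¹ v) i) ^ 2 = 1 := by
      rcases single _ hw.1 i hj with h | h <;> rw [h]
      · rw [ee_same]; ring
      · rw [Pi.neg_apply, ee_same]; ring
    apply h3'
    linear_combination h4 - 4 * h5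
  · push Not at hj
    obtain ⟨j, hji, hj⟩ := hj
    have h5 := half_of_root B hn hT hw hji hj hwi
    apply one_ne_zero (α := F)
    linear_combination h4 - 2 * h5

end

end Cfsg.Agent.H916.FrameOdd
end

-- part: H916/FrameFive
section
/-!
# Orthogonal frames, `p = 5`: either all roots have support at most two, or all vectors of norm `1` are roots
-/

set_option autoImplicit false
set_option linter.unusedSectionVars false
set_option linter.unusedSimpArgs false
set_option linter.unusedVariables false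

namespace Cfsg.Agent.H916.FrameFive

open Matrix
open Cfsg.Agent.H928 Cfsg.Agent.H916.FrameOdd

variable {ι : Type*} [Fintype ι] [DecidableEq ι] {F : Type*} [Field F]
variable {X : Subgroup ((ι → F) ≃ₗ[F] (ι → F))}

theorem five_cases [Fintype F] (hF : Fintype.card F = 5) :
    (5 : F) = 0 ∧ ∀ a : F, a = 0 ∨ a * a = 1 ∨ a * a = -1 := by
  have h5 : (5 : F) = 0 := by
    have := FiniteField.cast_card_eq_zero F
    rw [hF] at this
    exact_mod_cast this
  refine ⟨h5, fun a => ?_⟩
  have h := FiniteField.pow_card a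
  rw [hF] at h
  have h1 : a * ((a * a - 1) * (a * a + 1)) = 0 := by linear_combination h
  rcases mul_eq_zero.1 h1 with h2 | h2
  · exact Or.inl h2
  · rcases mul_eq_zero.1 h2 with h3 | h3
    · exact Or.inr (Or.inl (by linear_combination h3))
    · exact Or.inr (Or.inr (by linear_combination h3))

theorem dot_sg (I : Finset ι) (u : ι → F) : (sg F I u) ⬝ᵥ u = u ⬝ᵥ u - 2 * ∑ k ∈ I, u k * u k := by
  classical
  have e1 : ∑ k ∈ I, u k * u k = ∑ k, if k ∈ I then u k * u k else 0 := by
    rw [← Finset.sum_filter, Finset.filter_mem_eq_inter, Finset.univ_inter]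
  rw [dotProduct, dotProduct, e1, Finset.mul_sum, ← Finset.sum_sub_distrib]
  refine Finset.sum_congr rfl fun k _ => ?_
  rw [sg_apply]
  split_ifs
  · ring
  · ring

/-- even sign changes preserve roots -/
theorem root_sg_even (B : Base X) {S : Finset ι} (hS : Even S.card) {u : ι → F} (hu : Root X u) :
    Root X (sg F S u) := by
  by_cases hne : Nonempty ι
  · obtain ⟨k⟩ := hne
    obtain ⟨n, hn⟩ := hS
    apply B.root_map' (sg_even B n S (by omega)) hu (B.root_ee k)
    by_cases hk : k ∈ S
    · rw [sg_ee_mem hk]; exact (B.root_ee k).neg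
    · rw [sg_ee_not_mem hk]; exact B.root_ee k
  · exact ⟨by rw [sg_isIso, hu.1], fun k => absurd ⟨k⟩ hne⟩

section

variable (h5 : (5 : F) = 0) (hc : ∀ a : F, a = 0 ∨ a * a = 1 ∨ a * a = -1)

include h5

/-- shrinking a root -/
theorem shrink (B : Base X) (hn : 3 ≤ Fintype.card ι) {u : ι → F} (hu : Root X u) (I : Finset ι)
    (hs : ∑ k ∈ I, u k * u k = -1) (hpar : Even I.card ∨ ∃ m, u m = 0) :
    Root X (fun k => if k ∈ I then -2 * u k else 0) := by
  have hv : Root X (sg F I u) := by
    rcases hpar with h | ⟨m, hm⟩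
    · exact root_sg_even B h hu
    · exact B.root_flips hn I hu hm
  have hr := B.root_rf hu hv
  have e : rf u (sg F I u) = fun k => if k ∈ I then -2 * u k else 0 := by
    funext k
    rw [rf_apply hu.1, dot_sg, hu.1, hs, Pi.sub_apply, Pi.smul_apply, smul_eq_mul, sg_apply]
    by_cases hk : k ∈ I
    · rw [if_pos hk, if_pos hk]
      linear_combination (- u k) * h5
    · rw [if_neg hk, if_neg hk]
      linear_combination (- u k) * h5
  rw [e] at hr
  exact hr

/-- first type of vectors: four coordinates of square `-1` -/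
def T4 (w : ι → F) : Prop := ∃ I : Finset ι, I.card = 4 ∧ (∀ k ∈ I, w k * w k = -1) ∧ ∀ k, k ∉ I → w k = 0

omit h5 in
/-- second type of vectors: coordinates with squares `1, 1, -1` -/
def T3 (w : ι → F) : Prop := ∃ a b c : ι, a ≠ b ∧ a ≠ c ∧ b ≠ c ∧ w a * w a = 1 ∧ w b * w b = 1 ∧
  w c * w c = -1 ∧ ∀ k, k ≠ a → k ≠ b → k ≠ c → w k = 0

theorem t4_of_four (B : Base X) (hn : 3 ≤ Fintype.card ι) {u : ι → F} (hu : Root X u) (I : Finset ι)
    (hI : I.card = 4) (h1 : ∀ k ∈ I, u k * u k = 1) : ∃ w, Root X w ∧ T4 w := by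
  refine ⟨_, shrink h5 B hn hu I ?_ (Or.inl (by rw [hI]; exact ⟨2, rfl⟩)), I, hI, ?_, ?_⟩
  · rw [Finset.sum_congr rfl h1, Finset.sum_const, hI]
    simp only [nsmul_eq_mul]
    push_cast
    linear_combination h5
  · intro k hk
    beta_reduce
    rw [if_pos hk]
    linear_combination 4 * h1 k hk + h5
  · intro k hk
    beta_reduce
    rw [if_neg hk]

theorem t3_of (B : Base X) (hn : 3 ≤ Fintype.card ι) {u : ι → F} (hu : Root X u) {x y z m : ι}
    (hxy : x ≠ y) (hxz : x ≠ z) (hyz : y ≠ z) (hx : u x * u x = 1) (hy : u y * u y = -1)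
    (hz : u z * u z = -1) (hm : u m = 0) : ∃ w, Root X w ∧ T3 w := by
  refine ⟨_, shrink h5 B hn hu {x, y, z} ?_ (Or.inr ⟨m, hm⟩), y, z, x, hyz, Ne.symm hxy, Ne.symm hxz,
    ?_, ?_, ?_, ?_⟩
  · rw [Finset.sum_insert (by simp [hxy, hxz]), Finset.sum_insert (by simp [hyz]), Finset.sum_singleton,
      hx, hy, hz]
    ring
  · beta_reduce
    rw [if_pos (by simp)]
    linear_combination 4 * hy - h5
  · beta_reduce
    rw [if_pos (by simp)]
    linear_combination 4 * hz - h5
  · beta_reduce
    rw [if_pos (by simp)]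
    linear_combination 4 * hx + h5
  · intro k h1 h2 h3
    beta_reduce
    rw [if_neg (by simp [h1, h2, h3])]

include hc

theorem norm_eq [DecidableEq F] (u : ι → F) : u ⬝ᵥ u = (((Finset.univ.filter (fun k => u k * u k = 1)).card : ℤ) -
    ((Finset.univ.filter (fun k => u k * u k = -1)).card : ℤ) : ℤ) := by
  have h2 : (2 : F) ≠ 0 := by
    intro h
    apply one_ne_zero (α := F)
    linear_combination h5 - 2 * h
  push_cast
  rw [dotProduct, Finset.card_eq_sum_ones, Finset.card_eq_sum_ones, Nat.cast_sum, Nat.cast_sum,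
    Finset.sum_filter, Finset.sum_filter, ← Finset.sum_sub_distrib]
  refine Finset.sum_congr rfl fun k _ => ?_
  rcases hc (u k) with h | h | h
  · rw [h, if_neg (by simp), if_neg (by simp)]; ring
  · have h3 : ¬ u k * u k = -1 := by
      rw [h]; intro h'
      exact h2 (by linear_combination h')
    rw [if_pos h, if_neg h3, h]; push_cast; ring
  · have h3 : ¬ u k * u k = 1 := by
      rw [h]; intro h'
      exact h2 (by linear_combination -h')
    rw [if_neg h3, if_pos h, h]; push_cast; ring

/-- every root of support at least three leads to a root of one of the two types -/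
theorem reduce (B : Base X) (hn : 7 ≤ Fintype.card ι) {u : ι → F} (hu : Root X u) (hs : 3 ≤ sz u) :
    (∃ w, Root X w ∧ T4 w) ∨ ∃ w, Root X w ∧ T3 w := by
  classical
  have h2 := B.two
  set A := Finset.univ.filter (fun k => u k * u k = 1) with hA
  set C := Finset.univ.filter (fun k => u k * u k = -1) with hC
  have hAm : ∀ k, k ∈ A ↔ u k * u k = 1 := fun k => by simp [hA]
  have hCm : ∀ k, k ∈ C ↔ u k * u k = -1 := fun k => by simp [hC]
  have hdisj : Disjoint A C := by
    rw [Finset.disjoint_left]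
    intro k h1 h3
    rw [hAm] at h1
    rw [hCm] at h3
    exact h2 (by linear_combination h3 - h1)
  have hsz : sz u = A.card + C.card := by
    rw [← Finset.card_union_of_disjoint hdisj]
    unfold sz
    congr 1
    ext k
    simp only [Finset.mem_filter, Finset.mem_univ, true_and, Finset.mem_union, hAm, hCm]
    constructor
    · intro h
      rcases hc (u k) with h' | h' | h'
      · exact absurd h' h
      · exact Or.inl h'
      · exact Or.inr h'
    · rintro (h | h) h'
      · rw [h'] at h; simp at h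
      · rw [h'] at h; simp at h
  have h0 : ∀ k, k ∉ A → k ∉ C → u k = 0 := by
    intro k h1 h3
    rcases hc (u k) with h' | h' | h'
    · exact h'
    · exact absurd ((hAm k).2 h') h1
    · exact absurd ((hCm k).2 h') h3
  have hchar : CharP F 5 := (CharP.charP_iff_prime_eq_zero (by norm_num)).2 (by exact_mod_cast h5)
  have hmod : (5 : ℤ) ∣ (A.card : ℤ) - (C.card : ℤ) - 1 := by
    apply (CharP.intCast_eq_zero_iff F 5 _).1
    have h3 := norm_eq h5 hc u
    rw [hu.1] at h3
    push_cast at h3 ⊢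
    linear_combination -h3
  have hzero : A.card + C.card ≤ 6 → ∃ m, u m = 0 := by
    intro h
    obtain ⟨m, hm⟩ := exists_not_mem (A ∪ C) (lt_of_le_of_lt (Finset.card_union_le _ _) (by omega))
    rw [Finset.mem_union, not_or] at hm
    exact ⟨m, h0 m hm.1 hm.2⟩
  by_cases hA4 : 4 ≤ A.card
  · obtain ⟨I, hIA, hI⟩ := Finset.exists_subset_card_eq hA4
    exact Or.inl (t4_of_four h5 B (by omega) hu I hI fun k hk => (hAm k).1 (hIA hk))
  by_cases hC6 : 6 ≤ C.card
  · obtain ⟨I, hIC, hI⟩ := Finset.exists_subset_card_eq hC6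
    have hI1 : ∀ k ∈ I, u k * u k = -1 := fun k hk => (hCm k).1 (hIC hk)
    have hw := shrink h5 B (by omega) hu I (by
      rw [Finset.sum_congr rfl hI1, Finset.sum_const, hI]
      simp only [nsmul_eq_mul]
      push_cast
      linear_combination -h5) (Or.inl (by rw [hI]; exact ⟨3, rfl⟩))
    obtain ⟨J, hJI, hJ⟩ := Finset.exists_subset_card_eq (s := I) (n := 4) (by omega)
    refine Or.inl (t4_of_four h5 B (by omega) hw J hJ fun k hk => ?_)
    beta_reduce
    rw [if_pos (hJI hk)]
    linear_combination 4 * hI1 k (hJI hk) - h5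
  have hcases : (A.card = 0 ∧ C.card = 4) ∨ (A.card = 1 ∧ C.card = 5) ∨ (A.card = 2 ∧ C.card = 1) ∨
      (A.card = 3 ∧ C.card = 2) := by omega
  have htri : 1 ≤ A.card → 2 ≤ C.card → A.card + C.card ≤ 6 → ∃ w, Root X w ∧ T3 w := by
    intro ha hb hab
    obtain ⟨x, hx⟩ := Finset.card_pos.1 (show 0 < A.card by omega)
    obtain ⟨y, hy, z, hz, hyz⟩ := Finset.one_lt_card.1 (show 1 < C.card by omega)
    obtain ⟨m, hm⟩ := hzero hab
    have hxy : x ≠ y := fun h => Finset.disjoint_left.1 hdisj hx (h ▸ hy)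
    have hxz : x ≠ z := fun h => Finset.disjoint_left.1 hdisj hx (h ▸ hz)
    exact t3_of h5 B (by omega) hu hxy hxz hyz ((hAm x).1 hx) ((hCm y).1 hy) ((hCm z).1 hz) hm
  rcases hcases with ⟨ha, hb⟩ | ⟨ha, hb⟩ | ⟨ha, hb⟩ | ⟨ha, hb⟩
  · left
    refine ⟨u, hu, C, hb, fun k hk => (hCm k).1 hk, fun k hk => h0 k ?_ hk⟩
    rw [Finset.card_eq_zero.1 ha]
    exact Finset.notMem_empty k
  · exact Or.inr (htri (by omega) (by omega) (by omega))
  · right
    obtain ⟨x, hx, y, hy, hxy⟩ := Finset.one_lt_card.1 (show 1 < A.card by omega)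
    obtain ⟨z, hz⟩ := Finset.card_pos.1 (show 0 < C.card by omega)
    have hxz : x ≠ z := fun h => Finset.disjoint_left.1 hdisj hx (h ▸ hz)
    have hyz : y ≠ z := fun h => Finset.disjoint_left.1 hdisj hy (h ▸ hz)
    refine ⟨u, hu, x, y, z, hxy, hxz, hyz, (hAm x).1 hx, (hAm y).1 hy, (hCm z).1 hz, ?_⟩
    intro k h1 h3 h4
    apply h0
    · intro hk
      have h6 : ({x, y, k} : Finset ι) ⊆ A := by
        intro c hc'
        simp only [Finset.mem_insert, Finset.mem_singleton] at hc'
        rcases hc' with rfl | rfl | rfl <;> assumption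
      have h7 := Finset.card_le_card h6
      rw [Finset.card_eq_three.2 ⟨x, y, k, hxy, Ne.symm h1, Ne.symm h3, rfl⟩] at h7
      omega
    · intro hk
      have h6 : ({z, k} : Finset ι) ⊆ C := by
        intro c hc'
        simp only [Finset.mem_insert, Finset.mem_singleton] at hc'
        rcases hc' with rfl | rfl <;> assumption
      have h7 := Finset.card_le_card h6
      rw [Finset.card_pair (Ne.symm h4)] at h7
      omega
  · exact Or.inr (htri (by omega) (by omega) (by omega))

omit hc in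
/-- from the first type to the second -/
theorem t3_of_t4 (B : Base X) (hn : 7 ≤ Fintype.card ι) {u : ι → F} (hu : Root X u) (h4 : T4 u) :
    ∃ w, Root X w ∧ T3 w := by
  classical
  obtain ⟨I, hI, h1, h0⟩ := h4
  obtain ⟨a, b, c, d, hab, hac, had, hbc, hbd, hcd, rfl⟩ := Finset.card_eq_four.1 hI
  obtain ⟨e, he⟩ := exists_not_mem ({a, b, c, d} : Finset ι) (by rw [hI]; omega)
  obtain ⟨f, hf⟩ := exists_not_mem (insert e ({a, b, c, d} : Finset ι))
    (lt_of_le_of_lt (Finset.card_insert_le _ _) (by rw [hI]; omega))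
  have hfe : f ≠ e := fun h => hf (by rw [h]; exact Finset.mem_insert_self _ _)
  have hf' : f ∉ ({a, b, c, d} : Finset ι) := fun h => hf (Finset.mem_insert_of_mem h)
  have ue := h0 e he
  have uf := h0 f hf'
  simp only [Finset.mem_insert, Finset.mem_singleton, not_or] at he hf'
  obtain ⟨hea, heb, hec, hed⟩ := he
  obtain ⟨hfa, hfb, hfc, hfd⟩ := hf'
  have ua := h1 a (by simp)
  have ub := h1 b (by simp)
  have uc := h1 c (by simp)
  have ud := h1 d (by simp)
  let v : ι → F := (u b) • ee F b + (u c) • ee F c - (u d) • ee F d + (u a) • ee F e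
  have hva : v a = 0 := by
    simp only [v, Pi.add_apply, Pi.sub_apply, Pi.smul_apply, smul_eq_mul]
    rw [ee_ne hab, ee_ne hac, ee_ne had, ee_ne (Ne.symm hea)]; ring
  have hvb : v b = u b := by
    simp only [v, Pi.add_apply, Pi.sub_apply, Pi.smul_apply, smul_eq_mul]
    rw [ee_same, ee_ne hbc, ee_ne hbd, ee_ne (Ne.symm heb)]; ring
  have hvc : v c = u c := by
    simp only [v, Pi.add_apply, Pi.sub_apply, Pi.smul_apply, smul_eq_mul]
    rw [ee_same, ee_ne (Ne.symm hbc), ee_ne hcd, ee_ne (Ne.symm hec)]; ring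
  have hvd : v d = - u d := by
    simp only [v, Pi.add_apply, Pi.sub_apply, Pi.smul_apply, smul_eq_mul]
    rw [ee_same, ee_ne (Ne.symm hbd), ee_ne (Ne.symm hcd), ee_ne (Ne.symm hed)]; ring
  have hve : v e = u a := by
    simp only [v, Pi.add_apply, Pi.sub_apply, Pi.smul_apply, smul_eq_mul]
    rw [ee_same, ee_ne heb, ee_ne hec, ee_ne hed]; ring
  have hvo : ∀ k, k ≠ b → k ≠ c → k ≠ d → k ≠ e → v k = 0 := by
    intro k k1 k2 k3 k4
    simp only [v, Pi.add_apply, Pi.sub_apply, Pi.smul_apply, smul_eq_mul]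
    rw [ee_ne k1, ee_ne k2, ee_ne k3, ee_ne k4]; ring
  have hv : Root X v := by
    refine B.root_move (by omega) (Equiv.swap a e) hu hfe.symm ue uf fun k => ?_
    by_cases ka : k = a
    · subst ka
      rw [Equiv.swap_apply_left, hve]; exact Or.inl rfl
    by_cases ke : k = e
    · subst ke
      rw [Equiv.swap_apply_right, hva, ue]; exact Or.inl rfl
    rw [Equiv.swap_apply_of_ne_of_ne ka ke]
    by_cases kb : k = b
    · subst kb; exact Or.inl hvb
    by_cases kc : k = c
    · subst kc; exact Or.inl hvc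
    by_cases kd : k = d
    · subst kd; exact Or.inr hvd
    left
    rw [hvo k kb kc kd ke, h0 k (by simp [ka, kb, kc, kd])]
  have huv : v ⬝ᵥ u = -1 := by
    have e1 : v ⬝ᵥ u = u b * u b + u c * u c - u d * u d + u a * u e := by
      simp only [v, add_dotProduct, sub_dotProduct, smul_dotProduct, ee_dot, smul_eq_mul]
    rw [e1, ub, uc, ud, ue]; ring
  have hw := B.root_rf hu hv
  have hwk : ∀ k, rf u v k = v k + 2 * u k := by
    intro k
    rw [rf_apply hu.1, huv, Pi.sub_apply, Pi.smul_apply, smul_eq_mul]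
    ring
  refine t3_of h5 B (by omega) hw (x := a) (y := d) (z := e) (m := f) had (Ne.symm hea)
    (Ne.symm hed) ?_ ?_ ?_ ?_
  · rw [hwk, hva]
    linear_combination 4 * ua - h5
  · rw [hwk, hvd]
    linear_combination ud
  · rw [hwk, hve, ue]
    linear_combination ua
  · rw [hwk, hvo f hfb hfc hfd hfe, uf]; ring

/-- from the second type to everything -/
theorem all_of_t3 (B : Base X) [Fintype F] (hF : Fintype.card F = 5) (hn : 7 ≤ Fintype.card ι) {u : ι → F}
    (hu : Root X u) (h3 : T3 u) (v : ι → F) (hv : v ⬝ᵥ v = 1) : Root X v := by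
  classical
  have h2 := B.two
  obtain ⟨a, b, c, hab, hac, hbc, ua, ub, uc, u0⟩ := h3
  obtain ⟨m, hm⟩ := exists_not_mem ({a, b, c} : Finset ι) (lt_of_le_of_lt Finset.card_le_three (by omega))
  obtain ⟨n, hn'⟩ := exists_not_mem ({m, a, b, c} : Finset ι) (lt_of_le_of_lt Finset.card_le_four (by omega))
  simp only [Finset.mem_insert, Finset.mem_singleton, not_or] at hm hn'
  have um := u0 m hm.1 hm.2.1 hm.2.2
  have un := u0 n hn'.2.1 hn'.2.2.1 hn'.2.2.2
  -- every vector of the second type is a root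
  have key : ∀ w : ι → F, T3 w → Root X w := by
    rintro w ⟨a', b', c', hab', hac', hbc', wa, wb, wc, w0⟩
    obtain ⟨σ, s1, s2, s3⟩ := exists_perm_three hab hac hbc hab' hac' hbc'
    refine B.root_move (by omega) σ hu (Ne.symm hn'.1) um un fun k => ?_
    by_cases ka : k = a
    · subst ka
      rw [s1]
      exact mul_self_eq_mul_self_iff.1 (by rw [wa, ua])
    by_cases kb : k = b
    · subst kb
      rw [s2]
      exact mul_self_eq_mul_self_iff.1 (by rw [wb, ub])
    by_cases kc : k = c
    · subst kc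
      rw [s3]
      exact mul_self_eq_mul_self_iff.1 (by rw [wc, uc])
    left
    rw [u0 k ka kb kc, w0]
    · intro h; exact ka (σ.injective (h.trans s1.symm))
    · intro h; exact kb (σ.injective (h.trans s2.symm))
    · intro h; exact kc (σ.injective (h.trans s3.symm))
  apply B.all_roots_of_three (by rw [Nat.card_eq_fintype_card, hF]; norm_num) _ (by omega) _ v hv
  · intro h
    apply h2
    linear_combination h5 - h
  · -- all triples
    intro i j k hij hik hjk z hz hz1
    have hsum : z i * z i + z j * z j + z k * z k = 1 := by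
      rw [← hz1, dotProduct, ← Finset.sum_subset (Finset.subset_univ ({i, j, k} : Finset ι))]
      · rw [Finset.sum_insert (by simp [hij, hik]), Finset.sum_insert (by simp [hjk]),
          Finset.sum_singleton]
        ring
      · intro l _ hl
        rw [hz l hl, mul_zero]
    have hz' : ∀ l, l ≠ i → l ≠ j → l ≠ k → z l = 0 := fun l h1 h3 h4 => hz l (by simp [h1, h3, h4])
    have h1n : (1 : F) ≠ 0 := one_ne_zero
    have single : ∀ i j k : ι, (∀ l, l ≠ i → l ≠ j → l ≠ k → z l = 0) → z i * z i = 1 → z j = 0 → z k = 0 →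
        Root X z := by
      intro i j k hz' h1 h3 h4
      have hz0 : ∀ l, l ≠ i → z l = 0 := by
        intro l hl
        by_cases hj : l = j
        · rw [hj, h3]
        · by_cases hk : l = k
          · rw [hk, h4]
          · exact hz' l hl hj hk
      have h5' : z i = 1 ∨ z i = -1 := by
        rcases mul_self_eq_one_iff.1 h1 with h | h
        · exact Or.inl h
        · exact Or.inr h
      rcases h5' with h | h
      · have : z = ee F i := by
          funext l
          by_cases hl : l = i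
          · rw [hl, h, ee_same]
          · rw [hz0 l hl, ee_ne hl]
        rw [this]; exact B.root_ee i
      · have : z = - ee F i := by
          funext l
          rw [Pi.neg_apply]
          by_cases hl : l = i
          · rw [hl, h, ee_same]
          · rw [hz0 l hl, ee_ne hl, neg_zero]
        rw [this]; exact (B.root_ee i).neg
    have c1 : ∀ t : F, t = 0 → t * t = 0 := fun t ht => by rw [ht, mul_zero]
    rcases hc (z i) with hi | hi | hi <;> rcases hc (z j) with hj | hj | hj <;>
      rcases hc (z k) with hk | hk | hk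
    · exfalso; apply h1n; rw [← hsum, hi, hj, hk]; ring
    · exact single k i j (fun l h1 h3 h4 => hz' l h3 h4 h1) hk hi hj
    · exfalso; rw [hi, hj, hk] at hsum; apply h2; linear_combination -hsum
    · exact single j i k (fun l h1 h3 h4 => hz' l h3 h1 h4) hj hi hk
    · exfalso; rw [hi, hj, hk] at hsum; apply h1n; linear_combination hsum
    · exfalso; rw [hi, hj, hk] at hsum; apply h1n; linear_combination -hsum
    · exfalso; rw [hi, hj, hk] at hsum; apply h2; linear_combination -hsum
    · exfalso; rw [hi, hj, hk] at hsum; apply h1n; linear_combination -hsum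
    · exfalso; rw [hi, hj, hk] at hsum; apply h2; linear_combination h5 + hsum
    · exact single i j k hz' hi hj hk
    · exfalso; rw [hi, hj, hk] at hsum; apply h1n; linear_combination hsum
    · exfalso; rw [hi, hj, hk] at hsum; apply h1n; linear_combination -hsum
    · exfalso; rw [hi, hj, hk] at hsum; apply h1n; linear_combination hsum
    · exfalso; rw [hi, hj, hk] at hsum; apply h2; linear_combination hsum
    · exact key z ⟨i, j, k, hij, hik, hjk, hi, hj, hk, hz'⟩
    · exfalso; rw [hi, hj, hk] at hsum; apply h1n; linear_combination -hsum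
    · exact key z ⟨i, k, j, hik, hij, Ne.symm hjk, hi, hk, hj, fun l h1 h3 h4 => hz' l h1 h4 h3⟩
    · exfalso; rw [hi, hj, hk] at hsum; apply h2; linear_combination -hsum
    · exfalso; rw [hi, hj, hk] at hsum; apply h2; linear_combination -hsum
    · exfalso; rw [hi, hj, hk] at hsum; apply h1n; linear_combination -hsum
    · exfalso; rw [hi, hj, hk] at hsum; apply h2; linear_combination h5 + hsum
    · exfalso; rw [hi, hj, hk] at hsum; apply h1n; linear_combination -hsum
    · exact key z ⟨j, k, i, hjk, Ne.symm hij, Ne.symm hik, hj, hk, hi, fun l h1 h3 h4 => hz' l h4 h1 h3⟩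
    · exfalso; rw [hi, hj, hk] at hsum; apply h2; linear_combination -hsum
    · exfalso; rw [hi, hj, hk] at hsum; apply h2; linear_combination h5 + hsum
    · exfalso; rw [hi, hj, hk] at hsum; apply h2; linear_combination -hsum
    · exfalso; rw [hi, hj, hk] at hsum; apply h1n; linear_combination h5 + hsum

end

/-- **`p = 5`** -/
theorem five (B : Base X) [Fintype F] (hF : Fintype.card F = 5) (hn : 7 ≤ Fintype.card ι) :
    (∀ u, Root X u → Supp2 u) ∨ (∀ u : ι → F, u ⬝ᵥ u = 1 → Root X u) := by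
  obtain ⟨h5, hc⟩ := five_cases hF
  by_cases h : ∀ u, Root X u → Supp2 u
  · exact Or.inl h
  right
  push Not at h
  obtain ⟨u, hu, hu2⟩ := h
  have hne : Nonempty ι := Fintype.card_pos_iff.1 (by omega)
  have hsz3 : 3 ≤ sz u := by
    by_contra h
    exact hu2 (supp2_of_sz (by omega) hne)
  obtain ⟨w, hw, hw3⟩ : ∃ w, Root X w ∧ T3 w := by
    rcases reduce h5 hc B hn hu hsz3 with ⟨w, hw, hw4⟩ | h
    · exact t3_of_t4 h5 B hn hw hw4
    · exact h
  exact all_of_t3 h5 hc B hF hn hw hw3

end Cfsg.Agent.H916.FrameFive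
end

-- part: H916/FrameIV
section
/-!
# Orthogonal frames: translation

`frame_maximal_free`: for a `Good` quadratic form over a finite field of odd characteristic and an orthogonal
decomposition into isometric lines, the stabiliser in `E Q` is maximal as soon as every subgroup `X` of
`GL (Fin t → F)` with `Base X` is monomial or contains all products of two reflections in vectors of norm `1`.
-/

set_option autoImplicit false
set_option linter.unusedSectionVars false
set_option linter.unusedSimpArgs false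
set_option linter.unusedVariables false

namespace Cfsg.Agent.H916.FrameIV

open QuadraticMap Cfsg.Agent.LieClassical.OrthCore Cfsg.Agent.LieClassical.OrthTrans
  Cfsg.Agent.LieClassical.OrthFinite Cfsg.Agent.LieClassical.OrthSimple Cfsg.Agent.H883.Bridge
  Cfsg.Agent.H883.Root Cfsg.Agent.H883.Sub Cfsg.Agent.H886.Decomp
open Matrix
open scoped commutatorElement
open Cfsg.Agent.H928

section Transfer

variable {F V W : Type*} [Field F] [AddCommGroup V] [Module F V] [AddCommGroup W] [Module F W]

/-- conjugation by a linear equivalence -/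
def conjE (e : W ≃ₗ[F] V) : (V ≃ₗ[F] V) ≃* (W ≃ₗ[F] W) where
  toFun g := (e.trans g).trans e.symm
  invFun h := (e.symm.trans h).trans e
  left_inv g := by
    apply LinearEquiv.ext
    intro x
    simp
  right_inv h := by
    apply LinearEquiv.ext
    intro x
    simp
  map_mul' a b := by
    apply LinearEquiv.ext
    intro x
    simp [LinearEquiv.mul_apply]

theorem conjE_apply (e : W ≃ₗ[F] V) (g : V ≃ₗ[F] V) (x : W) : conjE e g x = e.symm (g (e x)) := rfl

theorem conjE_symm_apply (e : W ≃ₗ[F] V) (h : W ≃ₗ[F] W) (x : V) :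
    (conjE e).symm h x = e (h (e.symm x)) := rfl

end Transfer

theorem cyc_eq_comm {ι : Type*} [DecidableEq ι] {i j k : ι} (hij : i ≠ j) (hik : i ≠ k) (hjk : j ≠ k) :
    cyc i j k = Equiv.swap j k * Equiv.swap i j * (Equiv.swap j k)⁻¹ * (Equiv.swap i j)⁻¹ := by
  rw [cyc, Equiv.swap_inv, Equiv.swap_inv]
  apply Equiv.ext
  intro a
  simp only [Equiv.Perm.mul_apply]
  have h1 : Equiv.swap j k i = i := Equiv.swap_apply_of_ne_of_ne hij hik
  have h2 : Equiv.swap i j k = k := Equiv.swap_apply_of_ne_of_ne (Ne.symm hik) (Ne.symm hjk)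
  by_cases ha : a = i
  · subst ha
    rw [h1, Equiv.swap_apply_left, Equiv.swap_apply_left, h2, Equiv.swap_apply_right]
  · by_cases hb : a = j
    · subst hb
      rw [Equiv.swap_apply_left, h2, Equiv.swap_apply_right, h1, Equiv.swap_apply_left,
        Equiv.swap_apply_left]
    · by_cases hc : a = k
      · subst hc
        rw [Equiv.swap_apply_right, Equiv.swap_apply_right, h2, Equiv.swap_apply_right,
          Equiv.swap_apply_right, h1]
      · rw [Equiv.swap_apply_of_ne_of_ne hb hc, Equiv.swap_apply_of_ne_of_ne ha hb,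
          Equiv.swap_apply_of_ne_of_ne hb hc, Equiv.swap_apply_of_ne_of_ne ha hb,
          Equiv.swap_apply_of_ne_of_ne hb hc]

section Fr

variable {F V : Type*} [Field F] [AddCommGroup V] [Module F V] {Q : QuadraticForm F V} {t : ℕ}
  {D : Fin t → Submodule F V}

/-- the data: an isometry (up to the factor `κ`) from the standard dot product -/
structure Fr (Q : QuadraticForm F V) (D : Fin t → Submodule F V) (e : (Fin t → F) ≃ₗ[F] V) (κ : F) :
    Prop where
  two : (2 : F) ≠ 0
  ne : κ ≠ 0
  pol : ∀ x y, polar Q (e x) (e y) = 2 * κ * (x ⬝ᵥ y)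
  line : ∀ i x, x ∈ D i ↔ ∃ c : F, x = c • e (ee F i)

theorem exists_fr [FiniteDimensional F V] (h2 : (2 : F) ≠ 0) (hQ : Nondeg Q) (ht : 0 < t)
    (horth : ∀ i j, i ≠ j → ∀ x ∈ D i, ∀ y ∈ D j, polar Q x y = 0) (hspan : iSup D = ⊤)
    (hrank : ∀ i, Module.finrank F (D i) = 1)
    (hiso : ∀ i j, ∃ e : D i ≃ₗ[F] D j, ∀ z : D i, Q (e z : V) = Q (z : V)) :
    ∃ (e : (Fin t → F) ≃ₗ[F] V) (κ : F), Fr Q D e κ := by
  let i0 : Fin t := ⟨0, ht⟩
  obtain ⟨f0, hf0, hf0'⟩ : ∃ f0 : D i0, f0 ≠ 0 ∧ ∀ w : D i0, ∃ c : F, c • f0 = w :=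
    finrank_eq_one_iff'.1 (hrank i0)
  choose E hE using fun i => hiso i0 i
  let f : Fin t → V := fun i => (E i f0 : V)
  have hfD : ∀ i, f i ∈ D i := fun i => (E i f0).2
  have hfl : ∀ i x, x ∈ D i ↔ ∃ c : F, x = c • f i := by
    intro i x
    constructor
    · intro hx
      obtain ⟨c, hc⟩ := hf0' ((E i).symm ⟨x, hx⟩)
      refine ⟨c, ?_⟩
      have := congrArg (E i) hc
      rw [map_smul, LinearEquiv.apply_symm_apply] at this
      have := congrArg Subtype.val this
      exact this.symm
    · rintro ⟨c, rfl⟩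
      exact (D i).smul_mem c (hfD i)
  have hfQ : ∀ i, Q (f i) = Q (f0 : V) := fun i => hE i f0
  have hκ : Q (f0 : V) ≠ 0 := by
    intro h0
    have hnd := nondegOn_of_orth hQ horth hspan i0
    have h1 : (f0 : V) = 0 := by
      refine hnd (f0 : V) f0.2 ?_
      intro y hy
      obtain ⟨c, hc⟩ := hf0' ⟨y, hy⟩
      have hc' : y = c • (f0 : V) := (congrArg Subtype.val hc).symm
      rw [hc', polar_smul_right, polar_self', h0, mul_zero, smul_zero]
    exact hf0 (Subtype.ext h1)
  have hff : ∀ i j, polar Q (f i) (f j) = if i = j then 2 * Q (f0 : V) else 0 := by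
    intro i j
    split_ifs with h
    · subst h; rw [polar_self', hfQ]
    · exact horth i j h _ (hfD i) _ (hfD j)
  let φ : (Fin t → F) →ₗ[F] V := Fintype.linearCombination F f
  have hφ : ∀ x, φ x = ∑ i, x i • f i := fun x => Fintype.linearCombination_apply F f x
  have hpol : ∀ x y, polar Q (φ x) (φ y) = 2 * Q (f0 : V) * (x ⬝ᵥ y) := by
    intro x y
    have e1 : polar Q (φ x) (φ y) = polarBilin Q (φ x) (φ y) := rfl
    rw [e1, hφ, hφ, map_sum, dotProduct, Finset.mul_sum]
    refine Finset.sum_congr rfl fun i _ => ?_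
    rw [map_sum, LinearMap.sum_apply, Finset.sum_eq_single i]
    · rw [polarBilin_apply_apply, polar_smul_left, polar_smul_right, hff, if_pos rfl]
      simp only [smul_eq_mul]; ring
    · intro j _ hj
      rw [polarBilin_apply_apply, polar_smul_left, polar_smul_right, hff, if_neg hj]
      simp
    · intro h; exact absurd (Finset.mem_univ i) h
  have hinj : Function.Injective φ := by
    rw [injective_iff_map_eq_zero]
    intro x hx
    funext i
    have h1 := hpol x (ee F i)
    rw [hx, polar_zero_left, dot_ee] at h1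
    exact ((mul_eq_zero.1 h1.symm).resolve_left (mul_ne_zero h2 hκ))
  have hsurj : Function.Surjective φ := by
    intro v
    have hv : v ∈ iSup D := by rw [hspan]; exact Submodule.mem_top
    have hle : iSup D ≤ LinearMap.range φ := by
      rw [iSup_le_iff]
      intro i x hx
      obtain ⟨c, rfl⟩ := (hfl i x).1 hx
      refine ⟨c • ee F i, ?_⟩
      rw [map_smul, hφ, Finset.sum_eq_single i]
      · rw [ee_same, one_smul]
      · intro j _ hj
        rw [ee_ne hj, zero_smul]
      · intro h; exact absurd (Finset.mem_univ i) h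
    exact hle hv
  refine ⟨LinearEquiv.ofBijective φ ⟨hinj, hsurj⟩, Q (f0 : V), h2, hκ, hpol, ?_⟩
  intro i x
  have e1 : (LinearEquiv.ofBijective φ ⟨hinj, hsurj⟩) (ee F i) = f i := by
    show φ (ee F i) = f i
    rw [hφ, Finset.sum_eq_single i]
    · rw [ee_same, one_smul]
    · intro j _ hj
      rw [ee_ne hj, zero_smul]
    · intro h; exact absurd (Finset.mem_univ i) h
  rw [e1]
  exact hfl i x

variable {e : (Fin t → F) ≃ₗ[F] V} {κ : F}

namespace Fr

theorem Q_e (h : Fr Q D e κ) (x : Fin t → F) : Q (e x) = κ * (x ⬝ᵥ x) := by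
  have h1 := h.pol x x
  rw [polar_self'] at h1
  have h2 : (2 : F) * (Q (e x) - κ * (x ⬝ᵥ x)) = 0 := by linear_combination h1
  linear_combination (mul_eq_zero.1 h2).resolve_left h.two

theorem Q_ne (h : Fr Q D e κ) {u : Fin t → F} (hu : u ⬝ᵥ u = 1) : Q (e u) ≠ 0 := by
  rw [h.Q_e, hu, mul_one]; exact h.ne

theorem conj_refl (h : Fr Q D e κ) {u : Fin t → F} (hu : u ⬝ᵥ u = 1) :
    conjE e (refl Q (e u) (h.Q_ne hu)) = rf u := by
  apply LinearEquiv.ext
  intro x
  rw [conjE_apply, refl_apply, rf_apply hu, map_sub, map_smul, LinearEquiv.symm_apply_apply,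
    LinearEquiv.symm_apply_apply, h.pol, h.Q_e, hu, dotProduct_comm x u]
  congr 2
  have := h.ne
  field_simp

theorem iso_of_mem (h : Fr Q D e κ) {g : V ≃ₗ[F] V} (hg : g ∈ O Q) : IsIso (conjE e g) := by
  intro x y
  have h1 := polar_map hg (e x) (e y)
  have e1 : ∀ z, g (e z) = e (conjE e g z) := fun z => by
    rw [conjE_apply, LinearEquiv.apply_symm_apply]
  rw [e1, e1, h.pol, h.pol] at h1
  exact mul_left_cancel₀ (mul_ne_zero h.two h.ne) h1

theorem mem_O_of_iso (h : Fr Q D e κ) {k : (Fin t → F) ≃ₗ[F] (Fin t → F)} (hk : IsIso k) :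
    (conjE e).symm k ∈ O Q := by
  rw [mem_O]
  intro v
  rw [conjE_symm_apply, h.Q_e, hk]
  conv_rhs => rw [← e.apply_symm_apply v, h.Q_e]

theorem pm_mem_stab (h : Fr Q D e κ) (σ : Equiv.Perm (Fin t)) :
    (conjE e).symm (pm F σ) ∈ stabFamily D := by
  rw [mem_stabFamily]
  refine ⟨σ, fun i => ?_⟩
  ext x
  rw [Submodule.mem_map, h.line]
  constructor
  · rintro ⟨y, hy, rfl⟩
    obtain ⟨c, rfl⟩ := (h.line i y).1 hy
    refine ⟨c, ?_⟩
    show (conjE e).symm (pm F σ) (c • e (ee F i)) = _
    rw [conjE_symm_apply, map_smul, LinearEquiv.symm_apply_apply, map_smul, map_smul, pm_ee]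
  · rintro ⟨c, rfl⟩
    refine ⟨c • e (ee F i), (h.line i _).2 ⟨c, rfl⟩, ?_⟩
    show (conjE e).symm (pm F σ) (c • e (ee F i)) = _
    rw [conjE_symm_apply, map_smul, LinearEquiv.symm_apply_apply, map_smul, map_smul, pm_ee]

theorem base (h : Fr Q D e κ) (hG : Good Q) {p : Fin t → V →ₗ[F] V} (hd : Dec Q D p)
    {M : Subgroup (V ≃ₗ[F] V)} (h1 : stabFamily D ⊓ E Q ≤ M)
    (h2 : M ≤ E Q) : Base (M.map (conjE e).toMonoidHom) where
  two := h.two
  iso := by
    rintro _ ⟨g, hg, rfl⟩
    exact h.iso_of_mem (E_le_O (h2 hg))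
  hsg := by
    intro i j hij
    have hi : (ee F i : Fin t → F) ⬝ᵥ ee F i = 1 := ee_norm i
    have hj : (ee F j : Fin t → F) ⬝ᵥ ee F j = 1 := ee_norm j
    refine ⟨refl Q (e (ee F i)) (h.Q_ne hi) * refl Q (e (ee F j)) (h.Q_ne hj), h1 ?_, ?_⟩
    · refine hd.refl_mul_refl_mem hG (i := i) (j := j) ?_ ?_ _ _ ?_
      · exact (h.line i _).2 ⟨1, by rw [one_smul]⟩
      · exact (h.line j _).2 ⟨1, by rw [one_smul]⟩
      · rw [h.Q_e, h.Q_e, hi, hj]
    · show conjE e _ = _
      rw [map_mul, h.conj_refl hi, h.conj_refl hj, rf_ee, rf_ee, sg_single_mul hij]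
  hc3 := by
    intro i j k hij hik hjk
    refine ⟨(conjE e).symm (c3 F i j k), h1 ⟨h.pm_mem_stab _, ?_⟩, ?_⟩
    · have e1 : (conjE e).symm (c3 F i j k) =
          ⁅(conjE e).symm (pm F (Equiv.swap j k)), (conjE e).symm (pm F (Equiv.swap i j))⁆ := by
        rw [← map_commutatorElement]
        congr 1
        have e2 : ∀ σ τ : Equiv.Perm (Fin t), (pm F σ) * (pm F τ) * (pm F σ)⁻¹ * (pm F τ)⁻¹ =
            pm F (σ * τ * σ⁻¹ * τ⁻¹) := by
          intro σ τ
          have e3 : ∀ σ : Equiv.Perm (Fin t), (pm F σ)⁻¹ = pm F σ⁻¹ := by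
            intro σ
            rw [inv_eq_iff_mul_eq_one, ← pm_mul, mul_inv_cancel]
            apply ext_ee
            intro a
            rw [pm_ee]; rfl
          rw [e3, e3, pm_mul, pm_mul, pm_mul]
        rw [commutatorElement_def, e2, c3]
        congr 1
        exact cyc_eq_comm hij hik hjk
      rw [← hG.commutator_eq_E, e1]
      exact Subgroup.commutator_mem_commutator (h.mem_O_of_iso (pm_isIso _)) (h.mem_O_of_iso (pm_isIso _))
    · show conjE e ((conjE e).symm _) = _
      exact (conjE e).apply_symm_apply _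

theorem mem_stab_of_mono (h : Fr Q D e κ) [FiniteDimensional F V] {p : Fin t → V →ₗ[F] V}
    (hd : Dec Q D p) (hrank : ∀ i, Module.finrank F (D i) = 1) {g : V ≃ₗ[F] V}
    (hg : Mono (conjE e g)) : g ∈ stabFamily D := by
  obtain ⟨σ, hσ⟩ := hg
  refine hd.mem_stabFamily_of_forall (k := 1) one_pos hrank fun i => ⟨σ i, ?_⟩
  intro x hx
  obtain ⟨c, rfl⟩ := (h.line i x).1 hx
  have e1 : g (e (ee F i)) = e (conjE e g (ee F i)) := by
    rw [conjE_apply, LinearEquiv.apply_symm_apply]
  rw [map_smul, e1, h.line]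
  rcases hσ i with h1 | h1
  · exact ⟨c, by rw [h1]⟩
  · exact ⟨-c, by rw [h1, map_neg]; module⟩

theorem mono_of_mem_stab (h : Fr Q D e κ) {g : V ≃ₗ[F] V} (hg : g ∈ O Q) (hs : g ∈ stabFamily D) :
    Mono (conjE e g) := by
  obtain ⟨σ, hσ⟩ := hs
  apply mono_of_forall h.two
  intro i
  refine ⟨σ i, ?_⟩
  have h1 : g (e (ee F i)) ∈ D (σ i) := by
    rw [← hσ i]
    exact ⟨e (ee F i), (h.line i _).2 ⟨1, by rw [one_smul]⟩, rfl⟩
  obtain ⟨c, hc⟩ := (h.line (σ i) _).1 h1
  have h2 := (mem_O.1 hg) (e (ee F i))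
  rw [hc, QuadraticMap.map_smul, h.Q_e, h.Q_e, ee_norm, ee_norm] at h2
  have h3 : κ * (c ^ 2 - 1) = 0 := by
    simp only [smul_eq_mul] at h2
    linear_combination h2
  have h4 : c ^ 2 = 1 := by linear_combination (mul_eq_zero.1 h3).resolve_left h.ne
  rw [conjE_apply, hc, map_smul, LinearEquiv.symm_apply_apply]
  rcases sq_eq_one_iff_of_ne_zero' h4 with h5 | h5
  · left; rw [h5, one_smul]
  · right; rw [h5, neg_one_smul]

/-- all products of two reflections in vectors of norm `1` generate `E Q` -/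
theorem E_le (h : Fr Q D e κ) (hG : Good Q) (ht : 3 ≤ t) {M : Subgroup (V ≃ₗ[F] V)}
    (hr : ∀ u v : Fin t → F, u ⬝ᵥ u = 1 → v ⬝ᵥ v = 1 → rf u * rf v ∈ M.map (conjE e).toMonoidHom) :
    E Q ≤ M := by
  have hmem : ∀ g : V ≃ₗ[F] V, conjE e g ∈ M.map (conjE e).toMonoidHom → g ∈ M := by
    rintro g ⟨m, hm, hmg⟩
    have : m = g := (conjE e).injective hmg
    rwa [← this]
  let S : Set (V ≃ₗ[F] V) := {g | ∃ (u v : V) (hu : Q u ≠ 0) (hv : Q v ≠ 0), Q u = κ ∧ Q v = κ ∧
    g = refl Q u hu * refl Q v hv}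
  have hSM : S ⊆ M := by
    rintro _ ⟨u, v, hu, hv, hu1, hv1, rfl⟩
    have hu2 : e.symm u ⬝ᵥ e.symm u = 1 := by
      have := h.Q_e (e.symm u)
      rw [LinearEquiv.apply_symm_apply, hu1] at this
      have h3 : κ * (e.symm u ⬝ᵥ e.symm u - 1) = 0 := by linear_combination -this
      linear_combination (mul_eq_zero.1 h3).resolve_left h.ne
    have hv2 : e.symm v ⬝ᵥ e.symm v = 1 := by
      have := h.Q_e (e.symm v)
      rw [LinearEquiv.apply_symm_apply, hv1] at this
      have h3 : κ * (e.symm v ⬝ᵥ e.symm v - 1) = 0 := by linear_combination -this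
      linear_combination (mul_eq_zero.1 h3).resolve_left h.ne
    apply hmem
    have h3 := hr _ _ hu2 hv2
    rw [← h.conj_refl hu2, ← h.conj_refl hv2, ← map_mul] at h3
    simpa only [LinearEquiv.apply_symm_apply] using h3
  have hSE : S ⊆ E Q := by
    rintro _ ⟨u, v, hu, hv, hu1, hv1, rfl⟩
    exact hG.refl_mul_refl_mem hv hu (by rw [hu1, hv1])
  have hN : ∀ g ∈ E Q, ∀ n ∈ Subgroup.closure S, g * n * g⁻¹ ∈ Subgroup.closure S := by
    intro g hg n hn
    induction hn using Subgroup.closure_induction with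
    | mem x hx =>
      obtain ⟨u, v, hu, hv, hu1, hv1, rfl⟩ := hx
      have hgO := E_le_O hg
      have hu' : Q (g u) ≠ 0 := by rw [mem_O.1 hgO]; exact hu
      have hv' : Q (g v) ≠ 0 := by rw [mem_O.1 hgO]; exact hv
      apply Subgroup.subset_closure
      refine ⟨g u, g v, hu', hv', by rw [mem_O.1 hgO]; exact hu1, by rw [mem_O.1 hgO]; exact hv1, ?_⟩
      rw [← refl_conj hgO hu hu', ← refl_conj hgO hv hv']
      group
    | one => simpa using Subgroup.one_mem _
    | mul x y _ _ hx hy =>
      have : g * (x * y) * g⁻¹ = (g * x * g⁻¹) * (g * y * g⁻¹) := by group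
      rw [this]
      exact Subgroup.mul_mem _ hx hy
    | inv x _ hx =>
      have : g * x⁻¹ * g⁻¹ = (g * x * g⁻¹)⁻¹ := by group
      rw [this]
      exact Subgroup.inv_mem _ hx
  rcases good_normal_dichotomy hG ((Subgroup.closure_le _).2 hSE) hN with h1 | h1
  · exfalso
    let i0 : Fin t := ⟨0, by omega⟩
    let i1 : Fin t := ⟨1, by omega⟩
    let i2 : Fin t := ⟨2, by omega⟩
    have h01 : i0 ≠ i1 := by simp [i0, i1]
    have h02 : i0 ≠ i2 := by simp [i0, i2]
    have h12 : i1 ≠ i2 := by simp [i1, i2]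
    have hn0 : (ee F i0 : Fin t → F) ⬝ᵥ ee F i0 = 1 := ee_norm i0
    have hn1 : (ee F i1 : Fin t → F) ⬝ᵥ ee F i1 = 1 := ee_norm i1
    obtain ⟨c, hc⟩ := h1 _ (Subgroup.subset_closure ⟨e (ee F i0), e (ee F i1), h.Q_ne hn0, h.Q_ne hn1,
      by rw [h.Q_e, hn0, mul_one], by rw [h.Q_e, hn1, mul_one], rfl⟩)
    have hc' : ∀ x, rf (ee F i0) (rf (ee F i1) x) = c • x := by
      intro x
      have h3 := hc (e x)
      rw [← LinearEquiv.mul_apply, ← h.conj_refl hn0, ← h.conj_refl hn1, ← map_mul, conjE_apply, h3,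
        map_smul, LinearEquiv.symm_apply_apply]
    have h4 := congrFun (hc' (ee F i0)) i0
    have h5 := congrFun (hc' (ee F i2)) i2
    rw [rf_ee, rf_ee, sg_ee_not_mem (by simpa using h01), sg_ee_mem (by simp), Pi.neg_apply, Pi.smul_apply,
      ee_same, smul_eq_mul, mul_one] at h4
    rw [rf_ee, rf_ee, sg_ee_not_mem (by simpa using h12.symm), sg_ee_not_mem (by simpa using h02.symm),
      Pi.smul_apply, ee_same, smul_eq_mul, mul_one] at h5
    rw [← h5] at h4
    exact h.two (by linear_combination -h4)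
  · rw [← h1]
    exact (Subgroup.closure_le _).2 hSM

theorem not_E_le [Finite F] (h : Fr Q D e κ) (hG : Good Q) (ht : 4 ≤ t) : ¬ E Q ≤ stabFamily D := by
  intro hE
  obtain ⟨a, b, hab⟩ : ∃ a b : F, a ^ 2 + b ^ 2 = -1 := by
    have : Fintype F := Fintype.ofFinite F
    obtain ⟨q, hq⟩ := CharP.exists F
    have hq0 : NeZero q := ⟨fun h0 => by
      subst h0
      exact (CharP.char_ne_zero_of_finite F 0) rfl⟩
    obtain ⟨a, b, hab⟩ := CharP.sq_add_sq F q (-1)
    exact ⟨a, b, by rw [hab]; simp⟩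
  let i0 : Fin t := ⟨0, by omega⟩
  let i1 : Fin t := ⟨1, by omega⟩
  let i2 : Fin t := ⟨2, by omega⟩
  let i3 : Fin t := ⟨3, by omega⟩
  have h01 : i0 ≠ i1 := by simp [i0, i1]
  have h02 : i0 ≠ i2 := by simp [i0, i2]
  have h03 : i0 ≠ i3 := by simp [i0, i3]
  have h12 : i1 ≠ i2 := by simp [i1, i2]
  have h13 : i1 ≠ i3 := by simp [i1, i3]
  have h23 : i2 ≠ i3 := by simp [i2, i3]
  let u : Fin t → F := a • ee F i0 + b • ee F i1 + ee F i2 + ee F i3
  have hu0 : u i0 = a := by
    simp only [u, Pi.add_apply, Pi.smul_apply, smul_eq_mul]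
    rw [ee_same, ee_ne h01, ee_ne h02, ee_ne h03]; ring
  have hu1 : u i1 = b := by
    simp only [u, Pi.add_apply, Pi.smul_apply, smul_eq_mul]
    rw [ee_same, ee_ne h01.symm, ee_ne h12, ee_ne h13]; ring
  have hu2 : u i2 = 1 := by
    simp only [u, Pi.add_apply, Pi.smul_apply, smul_eq_mul]
    rw [ee_same, ee_ne h02.symm, ee_ne h12.symm, ee_ne h23]; ring
  have hu3 : u i3 = 1 := by
    simp only [u, Pi.add_apply, Pi.smul_apply, smul_eq_mul]
    rw [ee_same, ee_ne h03.symm, ee_ne h13.symm, ee_ne h23.symm]; ring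
  have hu : u ⬝ᵥ u = 1 := by
    have : u ⬝ᵥ u = a * u i0 + b * u i1 + u i2 + u i3 := by
      conv_lhs => rw [show u = a • ee F i0 + b • ee F i1 + ee F i2 + ee F i3 from rfl]
      rw [add_dotProduct, add_dotProduct, add_dotProduct, smul_dotProduct, smul_dotProduct, ee_dot,
        ee_dot, ee_dot, ee_dot]
      rfl
    rw [this, hu0, hu1, hu2, hu3]
    linear_combination hab
  have hn2 : (ee F i2 : Fin t → F) ⬝ᵥ ee F i2 = 1 := ee_norm i2
  have hmem := hG.refl_mul_refl_mem (h.Q_ne hn2) (h.Q_ne hu) (by rw [h.Q_e, h.Q_e, hu, hn2])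
  have hmono := h.mono_of_mem_stab (E_le_O hmem) (hE hmem)
  rw [map_mul, h.conj_refl hu, h.conj_refl hn2, rf_ee] at hmono
  have hmono2 : Mono (rf u) := by
    have := hmono.mul (sg_mono (F := F) {i2})
    rwa [mul_assoc, sg_mul_self, mul_one] at this
  obtain ⟨σ, hσ⟩ := hmono2
  have key : ∀ i j k : Fin t, j ≠ k → (rf u (ee F i)) j ≠ 0 → (rf u (ee F i)) k = 0 := by
    intro i j k hjk hj
    rcases hσ i with h1 | h1
    · rw [h1] at hj ⊢
      by_cases hji : j = σ i
      · rw [ee_ne (show k ≠ σ i from fun hk => hjk (hji.trans hk.symm))]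
      · exact absurd (ee_ne hji) hj
    · rw [h1, Pi.neg_apply] at hj ⊢
      by_cases hji : j = σ i
      · rw [ee_ne (show k ≠ σ i from fun hk => hjk (hji.trans hk.symm)), neg_zero]
      · exact absurd (by rw [ee_ne hji, neg_zero]) hj
  have hval : ∀ i j : Fin t, j ≠ i → (rf u (ee F i)) j = - (2 * u i * u j) := by
    intro i j hij
    rw [rf_apply hu, Pi.sub_apply, Pi.smul_apply, ee_ne hij, ee_dot, smul_eq_mul]
    ring
  have hab0 : a ≠ 0 ∨ b ≠ 0 := by
    by_contra hcon
    push Not at hcon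
    rw [hcon.1, hcon.2] at hab
    have : (1 : F) = 0 := by linear_combination hab
    exact one_ne_zero this
  rcases hab0 with ha | hb
  · have h1 := key i2 i3 i0 h03.symm
      (by rw [hval i2 i3 h23.symm, hu2, hu3, mul_one, mul_one]; exact neg_ne_zero.2 h.two)
    rw [hval i2 i0 h02, hu2, hu0, mul_one, neg_eq_zero] at h1
    exact (mul_ne_zero h.two ha) h1
  · have h1 := key i2 i3 i1 h13.symm
      (by rw [hval i2 i3 h23.symm, hu2, hu3, mul_one, mul_one]; exact neg_ne_zero.2 h.two)
    rw [hval i2 i1 h12, hu2, hu1, mul_one, neg_eq_zero] at h1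
    exact (mul_ne_zero h.two hb) h1

end Fr

/-- **Frames, coordinate free**: maximality from the dichotomy "monomial or all reflection products". -/
theorem frame_maximal_free [Finite F] [FiniteDimensional F V] (hG : Good Q) (h2 : (2 : F) ≠ 0)
    (horth : ∀ i j, i ≠ j → ∀ x ∈ D i, ∀ y ∈ D j, polar Q x y = 0) (hspan : iSup D = ⊤)
    (hrank : ∀ i, Module.finrank F (D i) = 1)
    (hiso : ∀ i j, ∃ e : D i ≃ₗ[F] D j, ∀ z : D i, Q (e z : V) = Q (z : V)) (ht : 4 ≤ t)
    (hdich : ∀ X : Subgroup ((Fin t → F) ≃ₗ[F] (Fin t → F)), Base X → (∀ g ∈ X, Mono g) ∨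
      (∀ u v : Fin t → F, u ⬝ᵥ u = 1 → v ⬝ᵥ v = 1 → rf u * rf v ∈ X)) :
    Cfsg.Geo.IsMaximalIn (E Q) (stabFamily D ⊓ E Q) := by
  obtain ⟨e, κ, h⟩ := exists_fr h2 hG.nondeg (by omega) horth hspan hrank hiso
  obtain ⟨p, hd⟩ := exists_dec hG.nondeg horth hspan
  refine ⟨lt_of_le_of_ne inf_le_right fun heq => ?_, fun M hM1 hM2 => ?_⟩
  · apply h.not_E_le hG ht
    rw [← heq]
    exact inf_le_left
  · rcases hdich _ (h.base hG hd hM1 hM2) with h1 | h1
    · left
      refine le_antisymm (le_inf (fun g hg => ?_) hM2) hM1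
      exact h.mem_stab_of_mono hd hrank (h1 _ ⟨g, hg, rfl⟩)
    · right
      exact le_antisymm hM2 (h.E_le hG (by omega) h1)

end Fr

section Geo

variable {ι : Type} [Fintype ι] [DecidableEq ι] {F : Type*} [Field F]

/-- **Frames**: maximality from the dichotomy "monomial or all reflection products". -/
theorem frame_maximal [Fintype F] {Q : (ι → F) → F}
    (hQ : Cfsg.Geo.IsNondegenerateQuadraticForm Q) (h2 : (2 : F) ≠ 0)
    (hn : 5 ≤ Fintype.card ι) {t : ℕ}
    {D : Fin t → Submodule F (ι → F)} (hD : Cfsg.Geo.IsOrthogonalMDecomposition Q 1 D)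
    (hdich : t = Fintype.card ι → ∀ X : Subgroup ((Fin t → F) ≃ₗ[F] (Fin t → F)), Base X →
      (∀ g ∈ X, Mono g) ∨ (∀ u v : Fin t → F, u ⬝ᵥ u = 1 → v ⬝ᵥ v = 1 → rf u * rf v ∈ X)) :
    Cfsg.Geo.IsMaximalIn (Cfsg.Geo.omegaGL Q)
      (Cfsg.Geo.decompositionStabilizer D ⊓ Cfsg.Geo.omegaGL Q) := by
  refine decompositionStabilizer_maximal hQ hn D ?_
  rintro Q' rfl hG
  have horth : ∀ i j, i ≠ j → ∀ x ∈ D i, ∀ y ∈ D j, polar Q' x y = 0 :=
    fun i j hij x hx y hy => hD.decomp.orthogonal i j hij x hx y hy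
  obtain ⟨e, κ, h⟩ := exists_fr h2 hG.nondeg (by have := hD.decomp.decomp.two_le; omega) horth
    hD.decomp.decomp.iSup_eq_top hD.decomp.decomp.finrank_eq (fun i j => hD.isometric i j)
  have ht : t = Fintype.card ι := by
    have := e.finrank_eq
    rwa [Module.finrank_fintype_fun_eq_card, Module.finrank_fintype_fun_eq_card, Fintype.card_fin] at this
  exact frame_maximal_free hG h2 horth hD.decomp.decomp.iSup_eq_top hD.decomp.decomp.finrank_eq
    (fun i j => hD.isometric i j) (by omega) (hdich ht)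

end Geo

end Cfsg.Agent.H916.FrameIV
end
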